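import Mathlib
import Cfsg.Prelude.Def_Characters
import Cfsg.Prelude.Def_Blocks
import Cfsg.Agent.Helper77.D1Defs2

/-!
# Brauer 1942 (faithful characters of degree less than `(p - 1) / 2`) — definitions (helper15)

Setting: `x : G` of prime order `p`, `p ^ 2 ∤ |G|`, `K` a `p'`-subgroup with
`C_G(x) = ⟨x⟩ × K` (`Helper77.D1Hyp p x K`), `normUnits p x` the image `F` of `N_G(⟨x⟩)` in
`(ZMod p)ˣ`.
-/

universe u
set_option autoImplicit false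
open Cfsg Cfsg.Agent.Helper77
open scoped ComplexConjugate

namespace Cfsg.Agent.Helper15

/-- `ψ` restricted to `⟨x⟩` is `t` times the sum of the characters `ζ ^ (s l₀)`, `s ∈ F`
(a "small exceptional" restriction: no trivial and no regular part). -/
def B42Shape {G : Type u} [Group G] (p : ℕ) (x : G) (ψ : G → ℂ) (t : ℕ) (l₀ : ZMod p) : Prop :=
  ∀ b : ℕ, ψ (x ^ b) = (t : ℂ) * ∑ᶠ s ∈ normUnits p x,
    d1zeta p ^ ((b : ZMod p) * ((s : (ZMod p)ˣ) : ZMod p) * l₀).val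

/-- The multiplicity of the trivial character of `⟨x⟩` (for `x ^ p = 1`) in `α`. -/
noncomputable def b42Fix {G : Type u} [Group G] (p : ℕ) (x : G) (α : G → ℂ) : ℂ :=
  (p : ℂ)⁻¹ * ∑ b ∈ Finset.range p, α (x ^ b)

/-- The product `χ₁ · conj χ₂`. -/
noncomputable def b42Prod {G : Type u} (χ₁ χ₂ : G → ℂ) : G → ℂ := fun g => χ₁ g * conj (χ₂ g)

/-- The main theorem on blocks of defect one, with the values of the `θ`-coefficients. -/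
def B42StrongStmt (G : Type u) [Group G] [Finite G] (p : ℕ) : Prop :=
  ∀ (x : G) (K : Subgroup G), D1Hyp p x K → ∀ θ : Cfsg.IrrCharacter K,
    ∃ (X Y : Finset (Cfsg.IrrCharacter G)) (c : Cfsg.IrrCharacter G → ℤ) (ε : ℤ),
      (∀ χ : Cfsg.IrrCharacter G, (χ ∈ X ∨ χ ∈ Y) ↔ χ ∈ blkTheta K x (θ : K → ℂ)) ∧
      Disjoint X Y ∧ X.card = Nat.card (stabUnits p x K (θ : K → ℂ)) ∧ Y.Nonempty ∧
      (∀ χ ∈ X, c χ = 1 ∨ c χ = -1) ∧ (ε = 1 ∨ ε = -1) ∧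
      (∀ χ ∈ X, ∀ i : ZMod p, i ≠ 0 →
        dco K (θ : K → ℂ) (χ : G → ℂ) (x ^ i.val) = (c χ : ℂ)) ∧
      (∀ ψ ∈ Y, ∃ l₀ : ZMod p, l₀ ≠ 0 ∧ ∀ i : ZMod p, i ≠ 0 →
        dco K (θ : K → ℂ) (ψ : G → ℂ) (x ^ i.val)
          = (ε : ℂ) * ∑ᶠ s ∈ stabUnits p x K (θ : K → ℂ),
              d1zeta p ^ (i * ((s : (ZMod p)ˣ) : ZMod p) * l₀).val) ∧
      (∀ ψ ∈ Y, ∑ χ ∈ X, c χ * (Cfsg.charDegree (χ : G → ℂ) : ℤ)
          = ε * (Cfsg.charDegree (ψ : G → ℂ) : ℤ))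

/-- The data of the principal block: the non-exceptional characters `X` with signs `c`
(constant value `c ζ` on the `p`-singular elements), among them the trivial character, and
one exceptional character `ψ₀` with sign `ε₀`. -/
structure B42Princ {G : Type u} [Group G] (p : ℕ) (x : G) (K : Subgroup G)
    (X : Finset (Cfsg.IrrCharacter G)) (c : Cfsg.IrrCharacter G → ℤ) (ε₀ : ℤ)
    (ψ₀ : Cfsg.IrrCharacter G) (l : ZMod p) : Prop where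
  card : X.card = Nat.card (normUnits p x)
  sign : ∀ ζ ∈ X, c ζ = 1 ∨ c ζ = -1
  val : ∀ ζ ∈ X, ∀ g : G, p ∣ orderOf g → (ζ : G → ℂ) g = (c ζ : ℂ)
  triv : ∃ ζ₁ ∈ X, ∀ g : G, (ζ₁ : G → ℂ) g = 1
  eps : ε₀ = 1 ∨ ε₀ = -1
  lne : l ≠ 0
  exc : ∀ b : ℕ, ¬ p ∣ b → ∀ k ∈ K, (ψ₀ : G → ℂ) (x ^ b * k)
    = (ε₀ : ℂ) * ∑ᶠ s ∈ normUnits p x,
        d1zeta p ^ ((b : ZMod p) * ((s : (ZMod p)ˣ) : ZMod p) * l).val
  deg : ∑ ζ ∈ X, c ζ * (Cfsg.charDegree (ζ : G → ℂ) : ℤ)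
    = ε₀ * (Cfsg.charDegree (ψ₀ : G → ℂ) : ℤ)

end Cfsg.Agent.Helper15
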