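import Mathlib
import Cfsg.Agent.Helper15.B42Defs
import Cfsg.Agent.Helper77.D1Final
import Cfsg.Agent.Helper29.D1IL
import Cfsg.Agent.Helper79.S4441Setup
import Cfsg.Agent.Helper79.Basic
import Cfsg.Agent.Helper81.CharBasic
import Cfsg.Agent.Helper3.Induced
import Cfsg.Agent.Helper3.Frobenius
import Cfsg.Agent.Helper67.B42KEYY

/-!
# Brauer 1942 — the principal block data (helper15)
-/

universe u
set_option autoImplicit false
open Cfsg Cfsg.Agent.Helper77 Cfsg.Agent.Helper15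
open scoped ComplexConjugate

namespace Cfsg.Agent.Helper15

variable {G : Type u} [Group G] [Finite G]

/-- PRINC -/
theorem b42_principal (p : ℕ) [Fact p.Prime] (x : G) (K : Subgroup G) (h : D1Hyp p x K)
    (hstrong : B42StrongStmt G p)
    (hpv : ∀ θ₀ : Cfsg.IrrCharacter K, (∀ k : K, (θ₀ : K → ℂ) k = 1) →
      ∀ ζ : Cfsg.IrrCharacter G, ζ ∈ blkTheta K x (θ₀ : K → ℂ) → ∀ b : ℕ, ¬ p ∣ b → ∀ k ∈ K,
        (ζ : G → ℂ) (x ^ b * k) = dco K (θ₀ : K → ℂ) (ζ : G → ℂ) (x ^ b))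
    (hps : ∀ g : G, p ∣ orderOf g →
      ∃ (y : G) (b : ℕ) (k : G), ¬ p ∣ b ∧ k ∈ K ∧ y * g * y⁻¹ = x ^ b * k)
    (v : (ZMod p)ˣ) (hv : v ∉ normUnits p x) :
    ∃ (X : Finset (Cfsg.IrrCharacter G)) (c : Cfsg.IrrCharacter G → ℤ) (ε₀ : ℤ)
      (ψ₀ : Cfsg.IrrCharacter G) (l : ZMod p), B42Princ p x K X c ε₀ ψ₀ l := by
  classical
  have hp : p.Prime := Fact.out
  have hxp : x ^ p = 1 := by rw [← h.hx]; exact pow_orderOf_eq_one x
  obtain ⟨θ₀, hθ₀⟩ : ∃ θ₀ : Cfsg.IrrCharacter K, ∀ k : K, (θ₀ : K → ℂ) k = 1 :=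
    ⟨⟨fun _ => 1, Helper79.isIrrCharacter_one⟩, fun _ => rfl⟩
  have hstab : stabUnits p x K (θ₀ : K → ℂ) = normUnits p x := by
    ext u
    constructor
    · rintro ⟨n, hn, -⟩
      exact ⟨n, hn⟩
    · rintro ⟨n, hn⟩
      refine ⟨n, hn, ?_⟩
      intro k k' _
      rw [hθ₀, hθ₀]
  obtain ⟨X, Y, c, ε, hXY, hdisj, hcard, hYne, hsign, hε, hXval, hYval, hdeg⟩ :=
    hstrong x K h θ₀
  rw [hstab] at hcard
  have hpow : ∀ b : ℕ, x ^ ((b : ZMod p).val) = x ^ b := by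
    intro b
    rw [ZMod.val_natCast]
    conv_rhs => rw [← Nat.mod_add_div b p]
    rw [pow_add, pow_mul, hxp, one_pow, mul_one]
  have hbne : ∀ b : ℕ, ¬ p ∣ b → (b : ZMod p) ≠ 0 := by
    intro b hb h0
    exact hb ((ZMod.natCast_eq_zero_iff b p).mp h0)
  obtain ⟨ψ₀, hψ₀⟩ := hYne
  obtain ⟨l, hl, hψval⟩ := hYval ψ₀ hψ₀
  obtain ⟨ζ₁, hζ₁⟩ : ∃ ζ₁ : Cfsg.IrrCharacter G, ∀ g : G, (ζ₁ : G → ℂ) g = 1 :=
    ⟨⟨fun _ => 1, Helper79.isIrrCharacter_one⟩, fun _ => rfl⟩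
  have hdco1 : ∀ y : G, dco K (θ₀ : K → ℂ) (ζ₁ : G → ℂ) y = 1 := by
    intro y
    unfold dco
    haveI : Fintype K := Fintype.ofFinite K
    have h1 : ∑ᶠ k : K, (ζ₁ : G → ℂ) (y * (k : G)) * conj ((θ₀ : K → ℂ) k)
        = (Nat.card K : ℂ) := by
      rw [finsum_eq_sum_of_fintype]
      simp [hζ₁, hθ₀, Nat.card_eq_fintype_card]
    rw [h1]
    have h2 : (Nat.card K : ℂ) ≠ 0 := by exact_mod_cast Nat.card_pos.ne'
    exact inv_mul_cancel₀ h2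
  have hζ₁blk : ζ₁ ∈ blkTheta K x (θ₀ : K → ℂ) := by
    show dco K (θ₀ : K → ℂ) (ζ₁ : G → ℂ) x ≠ 0
    rw [hdco1]
    exact one_ne_zero
  have hζ₁X : ζ₁ ∈ X := by
    rcases (hXY ζ₁).mpr hζ₁blk with hX | hY
    · exact hX
    · exfalso
      obtain ⟨l₁, hl₁, hval₁⟩ := hYval ζ₁ hY
      rw [hstab] at hval₁
      obtain ⟨Fs, hFs⟩ : ∃ Fs : Finset (ZMod p)ˣ, ∀ s, s ∈ Fs ↔ s ∈ normUnits p x :=
        ⟨Finset.univ.filter (fun s => s ∈ normUnits p x), fun s => by simp⟩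
      have hFset : ((Fs : Finset (ZMod p)ˣ) : Set (ZMod p)ˣ) = normUnits p x := by
        ext s
        exact hFs s
      have hu : ∀ u : (ZMod p)ˣ, (1 : ℂ) = (ε : ℂ) * ∑ s ∈ Fs,
          d1zeta p ^ (((u : (ZMod p)ˣ) : ZMod p) * ((s : (ZMod p)ˣ) : ZMod p) * l₁).val := by
        intro u
        have h1 := hval₁ (u : ZMod p) (Units.ne_zero u)
        rw [hdco1, ← hFset, finsum_mem_coe_finset] at h1
        exact h1
      have hsum : ∑ _u : (ZMod p)ˣ, (1 : ℂ) = ∑ u : (ZMod p)ˣ, (ε : ℂ) * ∑ s ∈ Fs,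
          d1zeta p ^ (((u : (ZMod p)ˣ) : ZMod p) * ((s : (ZMod p)ˣ) : ZMod p) * l₁).val :=
        Finset.sum_congr rfl (fun u _ => hu u)
      rw [← Finset.mul_sum, Finset.sum_comm] at hsum
      have hin : ∀ s ∈ Fs, ∑ u : (ZMod p)ˣ,
          d1zeta p ^ (((u : (ZMod p)ˣ) : ZMod p) * ((s : (ZMod p)ˣ) : ZMod p) * l₁).val
            = -1 := by
        intro s _
        have h1 := Helper67.b42keyy_units_zeta p (((s : (ZMod p)ˣ) : ZMod p) * l₁)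
          (mul_ne_zero (Units.ne_zero s) hl₁)
        rw [← h1]
        refine Finset.sum_congr rfl (fun u _ => ?_)
        rw [mul_assoc]
      rw [Finset.sum_congr rfl hin, Finset.sum_const, Finset.card_univ, Finset.sum_const,
        nsmul_eq_mul, nsmul_eq_mul, mul_one, ZMod.card_units p] at hsum
      have hp1 : 1 ≤ p - 1 := by have := hp.two_le; omega
      rcases hε with he | he
      · rw [he] at hsum
        have h3 : ((p - 1 + Fs.card : ℕ) : ℂ) = 0 := by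
          push_cast
          rw [hsum]
          push_cast
          ring
        have h4 : p - 1 + Fs.card = 0 := by exact_mod_cast h3
        omega
      · rw [he] at hsum
        have h3 : ((p - 1 : ℕ) : ℂ) = ((Fs.card : ℕ) : ℂ) := by
          rw [hsum]
          push_cast
          ring
        have h4 : p - 1 = Fs.card := by exact_mod_cast h3
        have h5 : Fs = Finset.univ := by
          apply Finset.eq_univ_of_card
          rw [← h4, ZMod.card_units p]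
        exact hv ((hFs v).mp (by rw [h5]; exact Finset.mem_univ v))
  have hψblk : ψ₀ ∈ blkTheta K x (θ₀ : K → ℂ) := (hXY ψ₀).mp (Or.inr hψ₀)
  refine ⟨X, c, ε, ψ₀, l, ?_⟩
  refine ⟨hcard, hsign, ?_, ⟨ζ₁, hζ₁X, hζ₁⟩, hε, hl, ?_, hdeg ψ₀ hψ₀⟩
  · intro ζ hζ g hg
    obtain ⟨y, b, k, hb, hk, hyg⟩ := hps g hg
    have hcl : (ζ : G → ℂ) (y * g * y⁻¹) = (ζ : G → ℂ) g :=
      Helper79.isCharacter_conj_eq (isChar_of_irr ζ.2) g y
    rw [← hcl, hyg, hpv θ₀ hθ₀ ζ ((hXY ζ).mp (Or.inl hζ)) b hb k hk, ← hpow b]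
    exact hXval ζ hζ (b : ZMod p) (hbne b hb)
  · intro b hb k hk
    rw [hpv θ₀ hθ₀ ψ₀ hψblk b hb k hk, ← hpow b, hψval (b : ZMod p) (hbne b hb), hstab]

end Cfsg.Agent.Helper15
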