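import Mathlib
import Cfsg.Agent.Helper15.B42Defs
import Cfsg.Agent.Helper77.D1Final
import Cfsg.Agent.Helper29.D1IL
import Cfsg.Agent.Helper79.S4441Setup
import Cfsg.Agent.Helper79.Basic
import Cfsg.Agent.Helper81.CharBasic
import Cfsg.Agent.Helper3.Induced
import Cfsg.Agent.Helper3.Frobenius
import Cfsg.Agent.Helper12.B42PV
import Cfsg.Agent.Helper15.B42PRINC
import Cfsg.Agent.Helper27.B42ABLIN
import Cfsg.Agent.Helper27.B42GT1
import Cfsg.Agent.Helper27.B42GT2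
import Cfsg.Agent.Helper27.B42KERN
import Cfsg.Agent.Helper45.B42CENT
import Cfsg.Agent.Helper45.B42CONST
import Cfsg.Agent.Helper45.B42SHNF
import Cfsg.Agent.Helper49.B42VALX
import Cfsg.Agent.Helper66.B42GAL
import Cfsg.Agent.Helper67.B42GT3
import Cfsg.Agent.Helper67.B42KEYY
import Cfsg.Agent.Helper72.B42FIXLE
import Cfsg.Agent.Helper72.B42LA
import Cfsg.Agent.Helper72.B42MULE
import Cfsg.Agent.Helper72.B42MUX
import Cfsg.Agent.Helper72.B42NOFIX
import Cfsg.Agent.Helper88.B42FIXPROD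
import Cfsg.Agent.Helper88.B42SHAPE
import Cfsg.Agent.Helper91.B42STRONG
import Cfsg.Agent.Helper92.B42DEG
import Cfsg.Agent.Helper92.B42KEYX
import Cfsg.Agent.Helper92.B42PSING
import Cfsg.Agent.Helper92.B42PSING2

universe u
set_option autoImplicit false
open Cfsg Cfsg.Agent.Helper77 Cfsg.Agent.Helper15
open scoped ComplexConjugate



namespace Cfsg.Agent.Helper15

variable {G : Type u} [Group G] [Finite G]

/-- The structure of a small irreducible character not containing `x` in its kernel. -/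
theorem b42_struct (p : ℕ) [Fact p.Prime] (x : G) (K : Subgroup G) (h : D1Hyp p x K)
    (χ₁ : Cfsg.IrrCharacter G) (hker : (χ₁ : G → ℂ) x ≠ (χ₁ : G → ℂ) 1)
    (hsmall : 2 * Cfsg.charDegree (χ₁ : G → ℂ) + 1 < p) :
    ∃ (θ : Cfsg.IrrCharacter K) (l₀ : ZMod p), l₀ ≠ 0 ∧
      B42Shape p x (χ₁ : G → ℂ) (Cfsg.charDegree (θ : K → ℂ)) l₀ := by
  obtain ⟨θ, l₀, ε, hl₀, hε, hval⟩ := Helper49.b42_value_x p x K h (Helper91.b42_d1_strong p)
    (fun χ hχ r hr => Helper72.b42_int_value p x h.hx χ hχ r hr) χ₁ hker hsmall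
  obtain ⟨E, F, -, hF, -⟩ := Helper29.d1_units p x K h θ
  exact ⟨θ, l₀, hl₀, Helper88.b42_shape_of_value p x h.hx F hF (χ₁ : G → ℂ)
    (Helper15.isChar_of_irr χ₁.2) _ (Helper81.charDegree_pos θ) l₀ hl₀ ε hε hval hker hsmall⟩


/-- The final counting: two Galois conjugate small exceptional characters with `t = 1` are
incompatible with the principal block. -/
theorem b42_count (p : ℕ) [Fact p.Prime] [Fintype G] (x : G) (hx : orderOf x = p)
    (F : Subgroup (ZMod p)ˣ) (hF : (F : Set (ZMod p)ˣ) = normUnits p x)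
    (hf2 : 2 ≤ Nat.card F) (hfp : 2 * Nat.card F + 1 < p) (v : (ZMod p)ˣ) (hv : v ∉ F)
    (ξ₁ ξ₂ : Cfsg.IrrCharacter G) (l : ZMod p) (hl : l ≠ 0)
    (h1 : B42Shape p x (ξ₁ : G → ℂ) 1 l) (h2 : B42Shape p x (ξ₂ : G → ℂ) 1 ((v : ZMod p) * l))
    (hreg : ∀ g : G, ¬ p ∣ orderOf g → (ξ₂ : G → ℂ) g = (ξ₁ : G → ℂ) g)
    (X : Finset (Cfsg.IrrCharacter G)) (c : Cfsg.IrrCharacter G → ℤ)
    (hcard : X.card = Nat.card F) (hsign : ∀ ζ ∈ X, c ζ = 1 ∨ c ζ = -1)
    (hval : ∀ ζ ∈ X, ∀ g : G, p ∣ orderOf g → (ζ : G → ℂ) g = (c ζ : ℂ))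
    (ζ₁ : Cfsg.IrrCharacter G) (hζ₁ : ζ₁ ∈ X) (hcζ₁ : c ζ₁ = 1)
    (hkerX : ∀ ζ ∈ X, ζ ≠ ζ₁ → (ζ : G → ℂ) x ≠ (ζ : G → ℂ) 1) : False := by
  classical
  have hp : p.Prime := Fact.out
  obtain ⟨f, hfdef⟩ : ∃ f : ℕ, f = Nat.card F := ⟨_, rfl⟩
  rw [← hfdef] at hf2 hfp hcard
  have hχ1 : Cfsg.IsCharacter G (ξ₁ : G → ℂ) := isChar_of_irr ξ₁.2
  have hχ2 : Cfsg.IsCharacter G (ξ₂ : G → ℂ) := isChar_of_irr ξ₂.2
  have hα₁ : Cfsg.IsCharacter G (b42Prod (ξ₁ : G → ℂ) (ξ₁ : G → ℂ)) :=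
    Helper79.isCharacter_mul hχ1 (Helper79.isCharacter_conj hχ1)
  have hα₂ : Cfsg.IsCharacter G (b42Prod (ξ₁ : G → ℂ) (ξ₂ : G → ℂ)) :=
    Helper79.isCharacter_mul hχ1 (Helper79.isCharacter_conj hχ2)
  have h1' : B42Shape p x (ξ₁ : G → ℂ) 1 (((1 : (ZMod p)ˣ) : ZMod p) * l) := by
    rw [Units.val_one, one_mul]; exact h1
  have hfix1 : b42Fix p x (b42Prod (ξ₁ : G → ℂ) (ξ₁ : G → ℂ)) = (f : ℂ) := by
    rw [(Helper88.b42_fix_prod p x hx F hF _ _ 1 l hl 1 h1 h1').1 (one_mem F), ← hfdef]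
    norm_num
  have hfix2 : b42Fix p x (b42Prod (ξ₁ : G → ℂ) (ξ₂ : G → ℂ)) = 0 :=
    (Helper88.b42_fix_prod p x hx F hF _ _ 1 l hl v h1 h2).2 hv
  have hne : ξ₁ ≠ ξ₂ := by
    intro heq
    rw [← heq, hfix1] at hfix2
    have h0 : f = 0 := by exact_mod_cast hfix2
    omega
  have hd1 : (ξ₁ : G → ℂ) 1 = (f : ℂ) := by
    rw [Helper92.b42_shape_one p x F hF _ 1 l h1, ← hfdef]; norm_num
  have hd2 : (ξ₂ : G → ℂ) 1 = (f : ℂ) := by
    rw [Helper92.b42_shape_one p x F hF _ 1 _ h2, ← hfdef]; norm_num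
  have hff : f ≤ f * f := Nat.le_mul_self f
  have hD1 : b42Prod (ξ₁ : G → ℂ) (ξ₁ : G → ℂ) 1
      - b42Fix p x (b42Prod (ξ₁ : G → ℂ) (ξ₁ : G → ℂ)) = ((f * f - f : ℕ) : ℂ) := by
    rw [hfix1]
    unfold b42Prod
    rw [hd1, Complex.conj_natCast, Nat.cast_sub hff]
    push_cast
    ring
  have hD2 : b42Prod (ξ₁ : G → ℂ) (ξ₂ : G → ℂ) 1
      - b42Fix p x (b42Prod (ξ₁ : G → ℂ) (ξ₂ : G → ℂ)) = ((f * f : ℕ) : ℂ) := by
    rw [hfix2]
    unfold b42Prod
    rw [hd1, hd2, Complex.conj_natCast]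
    push_cast
    ring
  have hxsing : ∀ b : ℕ, ¬ p ∣ b → p ∣ orderOf (x ^ b) := by
    intro b hb
    have hcop : Nat.Coprime (orderOf x) b := by
      rw [hx]; exact (Nat.Prime.coprime_iff_not_dvd hp).mpr hb
    rw [hcop.orderOf_pow, hx]
  have hxs : p ∣ orderOf x := by rw [hx]
  obtain ⟨S₁, hS₁⟩ : ∃ S₁ : Finset (Cfsg.IrrCharacter G),
      S₁ = (X.filter (fun ζ => c ζ = 1)).erase ζ₁ := ⟨_, rfl⟩
  obtain ⟨S₂, hS₂⟩ : ∃ S₂ : Finset (Cfsg.IrrCharacter G),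
      S₂ = X.filter (fun ζ => c ζ = -1) := ⟨_, rfl⟩
  have hmem1 : ∀ ζ ∈ S₁, ζ ∈ X ∧ c ζ = 1 ∧ ζ ≠ ζ₁ := by
    intro ζ hζ
    rw [hS₁, Finset.mem_erase, Finset.mem_filter] at hζ
    exact ⟨hζ.2.1, hζ.2.2, hζ.1⟩
  have hmem2 : ∀ ζ ∈ S₂, ζ ∈ X ∧ c ζ = -1 := by
    intro ζ hζ
    rw [hS₂, Finset.mem_filter] at hζ
    exact hζ
  have hb1 : S₁.card * (p - 1) ≤ f * f - f := by
    refine Helper72.b42_mu_le p x hx _ hα₁ S₁ ?_ _ _ hD1 ?_
    · intro ζ hζ
      obtain ⟨hζX, hc, -⟩ := hmem1 ζ hζ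
      obtain ⟨n₂, hn₂⟩ := Helper3.classInner_isCharacter_nat hα₂ (isChar_of_irr ζ.2)
      have hkey := Helper92.b42_key_X p ξ₁ ξ₂ hreg hne ζ (c ζ) (hsign ζ hζX) (hval ζ hζX)
      rw [hn₂, hc] at hkey
      have h3 : Cfsg.classInner (b42Prod (ξ₁ : G → ℂ) (ξ₁ : G → ℂ)) (ζ : G → ℂ)
          = ((n₂ + 1 : ℕ) : ℂ) := by
        push_cast
        linear_combination hkey
      rw [h3]
      exact_mod_cast Nat.succ_ne_zero n₂
    · intro ζ hζ
      obtain ⟨hζX, hc, hne1⟩ := hmem1 ζ hζ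
      exact Helper72.b42_mu_X p x hx (ζ : G → ℂ) (isChar_of_irr ζ.2) (c ζ) (hsign ζ hζX)
        (fun b hb => hval ζ hζX _ (hxsing b hb)) (hkerX ζ hζX hne1)
  have hb2 : S₂.card * (p - 1) ≤ f * f := by
    refine Helper72.b42_mu_le p x hx _ hα₂ S₂ ?_ _ _ hD2 ?_
    · intro ζ hζ
      obtain ⟨hζX, hc⟩ := hmem2 ζ hζ
      obtain ⟨n₁, hn₁⟩ := Helper3.classInner_isCharacter_nat hα₁ (isChar_of_irr ζ.2)
      have hkey := Helper92.b42_key_X p ξ₁ ξ₂ hreg hne ζ (c ζ) (hsign ζ hζX) (hval ζ hζX)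
      rw [hn₁, hc] at hkey
      rw [← hkey]
      have h3 : ((n₁ : ℂ) - ((-1 : ℤ) : ℂ)) = ((n₁ + 1 : ℕ) : ℂ) := by
        push_cast
        ring
      rw [h3]
      exact_mod_cast Nat.succ_ne_zero n₁
    · intro ζ hζ
      obtain ⟨hζX, hc⟩ := hmem2 ζ hζ
      refine Helper72.b42_mu_X p x hx (ζ : G → ℂ) (isChar_of_irr ζ.2) (c ζ) (hsign ζ hζX)
        (fun b hb => hval ζ hζX _ (hxsing b hb)) ?_
      rw [hval ζ hζX x hxs, hc, Helper81.irr_one_eq_charDegree]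
      intro heq
      have h4 : ((-1 : ℤ) : ℂ) = ((Cfsg.charDegree (ζ : G → ℂ) : ℤ) : ℂ) := by
        rw [heq]; push_cast; rfl
      have h5 : (-1 : ℤ) = (Cfsg.charDegree (ζ : G → ℂ) : ℤ) := by exact_mod_cast h4
      omega
  have hcnt : S₁.card + S₂.card + 1 = f := by
    have hunion : X = X.filter (fun ζ => c ζ = 1) ∪ X.filter (fun ζ => c ζ = -1) := by
      ext ζ
      simp only [Finset.mem_union, Finset.mem_filter]
      constructor
      · intro hζ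
        rcases hsign ζ hζ with hc | hc
        · exact Or.inl ⟨hζ, hc⟩
        · exact Or.inr ⟨hζ, hc⟩
      · rintro (⟨hζ, -⟩ | ⟨hζ, -⟩) <;> exact hζ
    have hdisj : Disjoint (X.filter (fun ζ => c ζ = 1)) (X.filter (fun ζ => c ζ = -1)) := by
      rw [Finset.disjoint_left]
      intro ζ ha hb
      rw [Finset.mem_filter] at ha hb
      have := ha.2
      rw [hb.2] at this
      omega
    have hcu := Finset.card_union_of_disjoint hdisj
    rw [← hunion, hcard] at hcu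
    have hin : ζ₁ ∈ X.filter (fun ζ => c ζ = 1) := Finset.mem_filter.mpr ⟨hζ₁, hcζ₁⟩
    have hce := Finset.card_erase_of_mem hin
    have hpos : 0 < (X.filter (fun ζ => c ζ = 1)).card := Finset.card_pos.mpr ⟨ζ₁, hin⟩
    rw [hS₁, hS₂, hce]
    omega
  -- arithmetic
  have hodd : p % 2 = 1 := hp.eq_two_or_odd.resolve_left (by omega)
  have hp1 : 2 * f + 2 ≤ p - 1 := by omega
  rcases Nat.eq_zero_or_pos S₁.card with ha | ha
  · have hb : S₂.card = f - 1 := by omega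
    rw [hb] at hb2
    have h6 : (f - 1) * (2 * f + 2) ≤ f * f := le_trans (Nat.mul_le_mul_left _ hp1) hb2
    obtain ⟨e, rfl⟩ : ∃ e, f = e + 2 := ⟨f - 2, by omega⟩
    have h7 : e + 2 - 1 = e + 1 := by omega
    rw [h7] at h6
    nlinarith
  · rcases Nat.eq_zero_or_pos S₂.card with hb | hb
    · have ha' : S₁.card = f - 1 := by omega
      rw [ha'] at hb1
      have h6 : (f - 1) * (2 * f + 2) ≤ f * f - f := le_trans (Nat.mul_le_mul_left _ hp1) hb1
      obtain ⟨e, rfl⟩ : ∃ e, f = e + 2 := ⟨f - 2, by omega⟩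
      have h7 : e + 2 - 1 = e + 1 := by omega
      rw [h7] at h6
      have h8 : (e + 2) * (e + 2) - (e + 2) ≤ (e + 2) * (e + 2) := Nat.sub_le _ _
      nlinarith
    · have h6 : (S₁.card + S₂.card) * (p - 1) ≤ (f * f - f) + f * f := by
        rw [Nat.add_mul]; exact Nat.add_le_add hb1 hb2
      have h7 : S₁.card + S₂.card = f - 1 := by omega
      rw [h7] at h6
      have h8 : (f - 1) * (2 * f + 2) ≤ (f * f - f) + f * f :=
        le_trans (Nat.mul_le_mul_left _ hp1) h6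
      obtain ⟨e, rfl⟩ : ∃ e, f = e + 2 := ⟨f - 2, by omega⟩
      have h9 : e + 2 - 1 = e + 1 := by omega
      rw [h9] at h8
      have h10 : (e + 2) * (e + 2) - (e + 2) + (e + 2) = (e + 2) * (e + 2) :=
        Nat.sub_add_cancel hff
      have h11 : (e + 1) * (2 * (e + 2) + 2) + (e + 2) ≤ 2 * ((e + 2) * (e + 2)) := by omega
      have h12 : e = 0 := by nlinarith
      subst h12
      omega


/-- Brauer 1942, by strong induction on the order. -/
theorem b42_main (p : ℕ) (hp : p.Prime) : ∀ (n : ℕ) (G : Type u) [Group G] [Finite G],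
    Nat.card G = n → p ∣ Nat.card G → ¬ p ^ 2 ∣ Nat.card G →
    (∀ H : Subgroup G, H.Normal → Nat.card H ≠ p) →
    ∀ χ : G → ℂ, Cfsg.IsCharacter G χ → (∀ g : G, χ g = χ 1 → g = 1) →
      p ≤ 2 * Cfsg.charDegree χ + 1 := by
  intro n
  induction n using Nat.strong_induction_on with
  | _ n IH =>
  intro G _ _ hn hdiv hsq hnn χ hχ hfaith
  by_contra hcon
  have hsmall : 2 * Cfsg.charDegree χ + 1 < p := by omega
  haveI : Fact p.Prime := ⟨hp⟩
  classical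
  haveI : Fintype G := Fintype.ofFinite G
  obtain ⟨P⟩ : Nonempty (Sylow p G) := inferInstance
  have hn0 : Nat.card G ≠ 0 := Nat.card_pos.ne'
  have hP : Nat.card P = p := by
    have h1 : 1 ≤ (Nat.card G).factorization p := by
      rw [← hp.pow_dvd_iff_le_factorization hn0, pow_one]; exact hdiv
    have h2 : ¬ 2 ≤ (Nat.card G).factorization p := by
      rw [← hp.pow_dvd_iff_le_factorization hn0]; exact hsq
    rw [Sylow.card_eq_multiplicity]
    have h3 : (Nat.card G).factorization p = 1 := by omega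
    rw [h3, pow_one]
  obtain ⟨x, hxP, hx1⟩ := Helper79.s4441_exists_ne_one P hP
  obtain ⟨hxo, -⟩ := Helper79.s4441_gen P hP x hxP hx1
  obtain ⟨K, hK, -, -, hC⟩ := Helper79.s4441_K P hP
  have h : D1Hyp p x K := ⟨hxo, hK, hC x hxP hx1, hsq⟩
  -- minimality: proper subgroups containing `x` normalize `⟨x⟩`
  have hmin : ∀ H : Subgroup G, H ≠ ⊤ → x ∈ H →
      ∀ g ∈ H, g * x * g⁻¹ ∈ Subgroup.zpowers x := by
    intro H hH hxH
    have hlt : Nat.card H < n := by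
      rw [← hn]
      exact lt_of_le_of_ne (Subgroup.card_le_card_group H)
        (fun heq => hH ((Subgroup.card_eq_iff_eq_top H).mp heq))
    have hdivH : p ∣ Nat.card H := by
      rw [← hxo]
      have h1 : orderOf (⟨x, hxH⟩ : H) = orderOf x := Subgroup.orderOf_mk x hxH
      rw [← h1]
      exact orderOf_dvd_natCard _
    have hsqH : ¬ p ^ 2 ∣ Nat.card H :=
      fun hd => hsq (hd.trans (Subgroup.card_subgroup_dvd_card H))
    have hex : ∃ Q : Subgroup H, Q.Normal ∧ Nat.card Q = p := by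
      by_contra hno
      have h1 := IH (Nat.card H) hlt H rfl hdivH hsqH
        (fun Q hQn hQ => hno ⟨Q, hQn, hQ⟩) (fun g : H => χ g)
        (Helper79.isCharacter_restrict hχ H)
        (fun g hg => Subtype.ext (hfaith g hg))
      have h2 : Cfsg.charDegree (fun g : H => χ g) = Cfsg.charDegree χ := rfl
      rw [h2] at h1
      omega
    obtain ⟨Q, hQn, hQ⟩ := hex
    exact Helper27.b42_sub_norm p hsq x hxo H hxH Q hQn hQ
  have htop : ∀ L : Subgroup G, L.Normal → x ∈ L → L = ⊤ :=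
    fun L hL hxL => Helper27.b42_normal_top p hsq hnn x hxo hmin L hL hxL
  obtain ⟨-, F, -, hF, -⟩ := Helper29.d1_units p x K h ⟨fun _ => 1, Helper79.isIrrCharacter_one⟩
  have hmemF : ∀ u : (ZMod p)ˣ, u ∈ F ↔ u ∈ normUnits p x := fun u => by rw [← hF]; rfl
  -- Part I: `F = 1` is impossible
  by_cases hf : ∀ u ∈ normUnits p x, u = 1
  · have hnu : normUnits p x = {1} := by
      ext u
      rw [Set.mem_singleton_iff]
      exact ⟨hf u, fun hu => by rw [hu]; exact (hmemF 1).mp (one_mem F)⟩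
    have hcent := Helper45.b42_central_of_scalar p x χ hχ hfaith (by
      intro χ₁ hdeg hker
      obtain ⟨θ, l₀, -, hsh⟩ := b42_struct p x K h χ₁ hker (by omega)
      refine ⟨Cfsg.charDegree (θ : K → ℂ), l₀, ?_, ?_⟩
      · have h1 := hsh 1
        rw [pow_one, hnu, finsum_mem_singleton] at h1
        rw [h1, Nat.cast_one, Units.val_one, one_mul, one_mul]
      · have h1 := hsh 0
        rw [pow_zero, hnu, finsum_mem_singleton] at h1
        rw [h1, Nat.cast_zero, zero_mul, zero_mul, ZMod.val_zero, pow_zero, mul_one])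
    have hnorm : (Subgroup.zpowers x).Normal := by
      constructor
      intro y hy g
      have h1 : g * y * g⁻¹ = y := by
        obtain ⟨k, rfl⟩ := Subgroup.mem_zpowers_iff.mp hy
        have h2 : g * x = x * g := hcent g
        have h3 : Commute g (x ^ k) := (show Commute g x from h2).zpow_right k
        rw [h3.eq, mul_inv_cancel_right]
      rw [h1]
      exact hy
    exact hnn _ hnorm (by rw [Nat.card_zpowers, hxo])
  -- Part II
  obtain ⟨u₁, hu₁, hu₁1⟩ : ∃ u ∈ normUnits p x, u ≠ 1 := by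
    by_contra hno
    exact hf (fun u hu => by_contra fun hne => hno ⟨u, hu, hne⟩)
  obtain ⟨χ₁, hker, hdeg⟩ := Helper45.b42_constituent χ hχ hfaith x hx1
  have hsmall₁ : 2 * Cfsg.charDegree (χ₁ : G → ℂ) + 1 < p := by omega
  obtain ⟨θ, l₀, hl₀, hsh⟩ := b42_struct p x K h χ₁ hker hsmall₁
  obtain ⟨t, ht⟩ : ∃ t : ℕ, t = Cfsg.charDegree (θ : K → ℂ) := ⟨_, rfl⟩
  rw [← ht] at hsh
  have htpos : 0 < t := by rw [ht]; exact Helper81.charDegree_pos θ
  obtain ⟨f, hfdef⟩ : ∃ f : ℕ, f = Nat.card F := ⟨_, rfl⟩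
  have hdeg₁ : Cfsg.charDegree (χ₁ : G → ℂ) = t * f := by
    have h1 := Helper92.b42_shape_one p x F hF _ t l₀ hsh
    rw [Helper81.irr_one_eq_charDegree, ← hfdef] at h1
    exact_mod_cast h1
  have hfle : f ≤ Cfsg.charDegree (χ₁ : G → ℂ) := by
    rw [hdeg₁]; exact Nat.le_mul_of_pos_left f htpos
  have hfp : 2 * Nat.card F + 1 < p := by rw [← hfdef]; omega
  have hf2 : 2 ≤ Nat.card F := by
    have h1 : F ≠ ⊥ := by
      intro hbot
      have h2 : u₁ ∈ F := (hmemF u₁).mpr hu₁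
      rw [hbot, Subgroup.mem_bot] at h2
      exact hu₁1 h2
    have h3 := (Subgroup.one_lt_card_iff_ne_bot F).mpr h1
    omega
  obtain ⟨v, hv⟩ : ∃ v : (ZMod p)ˣ, v ∉ F := by
    by_contra hall
    have h1 : F = ⊤ := by
      rw [eq_top_iff]
      intro v _
      by_contra hv
      exact hall ⟨v, hv⟩
    have h2 : Nat.card F = p - 1 := by
      rw [h1, Subgroup.card_top, Nat.card_eq_fintype_card, ZMod.card_units p]
    omega
  have hvn : v ∉ normUnits p x := fun hvn => hv ((hmemF v).mpr hvn)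
  obtain ⟨χ₂, hsh₂, hreg⟩ := Helper66.b42_gal p x K h χ₁ t l₀ hsh v
  have hps : ∀ g : G, p ∣ orderOf g →
      ∃ (y : G) (b : ℕ) (k : G), ¬ p ∣ b ∧ k ∈ K ∧ y * g * y⁻¹ = x ^ b * k :=
    fun g hg => Helper92.b42_psing p x K h g hg
  obtain ⟨X, c, ε₀, ψ₀, l, hpr⟩ := Helper15.b42_principal p x K h (Helper91.b42_d1_strong p)
    (fun θ₀ hθ₀ ζ hζ b hb k hk => Helper12.b42_principal_values p x K h θ₀ hθ₀ ζ hζ b hb k hk) hps v hvn
  obtain ⟨ζ₁, hζ₁X, hζ₁⟩ := hpr.triv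
  have hxsing : p ∣ orderOf x := by rw [hxo]
  have hcζ₁ : c ζ₁ = 1 := by
    have h1 := hpr.val ζ₁ hζ₁X x hxsing
    rw [hζ₁ x] at h1
    exact_mod_cast h1.symm
  have hkerX : ∀ ζ ∈ X, ζ ≠ ζ₁ → (ζ : G → ℂ) x ≠ (ζ : G → ℂ) 1 := by
    intro ζ hζ hne heq
    obtain ⟨L, hLn, hL⟩ := Helper27.b42_ker (ζ : G → ℂ) (isChar_of_irr ζ.2)
    have hLtop := htop L hLn ((hL x).mpr heq)
    have hall : ∀ g : G, (ζ : G → ℂ) g = (ζ : G → ℂ) 1 :=
      fun g => (hL g).mp (by rw [hLtop]; trivial)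
    have hζx := hpr.val ζ hζ x hxsing
    have h1 : ((Cfsg.charDegree (ζ : G → ℂ) : ℕ) : ℂ) = (c ζ : ℂ) := by
      rw [← Helper81.irr_one_eq_charDegree, ← heq, hζx]
    have h2 : ((Cfsg.charDegree (ζ : G → ℂ) : ℕ) : ℤ) = c ζ := by exact_mod_cast h1
    have hc1 : c ζ = 1 := by
      rcases hpr.sign ζ hζ with hc | hc
      · exact hc
      · rw [hc] at h2; omega
    apply hne
    apply Subtype.ext
    funext g
    rw [hall g, hζ₁ g, ← heq, hζx, hc1]
    norm_num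
  have hcardX : X.card = Nat.card F := by
    rw [hpr.card, ← hF]; rfl
  have hχ1 : Cfsg.IsCharacter G (χ₁ : G → ℂ) := isChar_of_irr χ₁.2
  have hχ2 : Cfsg.IsCharacter G (χ₂ : G → ℂ) := isChar_of_irr χ₂.2
  have hα₁ : Cfsg.IsCharacter G (b42Prod (χ₁ : G → ℂ) (χ₁ : G → ℂ)) :=
    Helper79.isCharacter_mul hχ1 (Helper79.isCharacter_conj hχ1)
  have hα₂ : Cfsg.IsCharacter G (b42Prod (χ₁ : G → ℂ) (χ₂ : G → ℂ)) :=
    Helper79.isCharacter_mul hχ1 (Helper79.isCharacter_conj hχ2)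
  have hsh' : B42Shape p x (χ₁ : G → ℂ) t (((1 : (ZMod p)ˣ) : ZMod p) * l₀) := by
    rw [Units.val_one, one_mul]; exact hsh
  have hfix1 : b42Fix p x (b42Prod (χ₁ : G → ℂ) (χ₁ : G → ℂ))
      = ((t ^ 2 * Nat.card F : ℕ) : ℂ) :=
    (Helper88.b42_fix_prod p x hxo F hF _ _ t l₀ hl₀ 1 hsh hsh').1 (one_mem F)
  have hfix2 : b42Fix p x (b42Prod (χ₁ : G → ℂ) (χ₂ : G → ℂ)) = 0 :=
    (Helper88.b42_fix_prod p x hxo F hF _ _ t l₀ hl₀ v hsh hsh₂).2 hv
  have hne : χ₁ ≠ χ₂ := by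
    intro heq
    rw [← heq, hfix1] at hfix2
    have h0 : t ^ 2 * Nat.card F = 0 := by exact_mod_cast hfix2
    have h1 : 0 < t ^ 2 * Nat.card F := Nat.mul_pos (pow_pos htpos 2) (by omega)
    omega
  by_cases hA : ∃ ζ ∈ X, c ζ = -1
  · -- case A: a negative non-exceptional character in the principal block
    obtain ⟨ζs, hζsX, hcs⟩ := hA
    obtain ⟨n₁, hn₁⟩ := Helper3.classInner_isCharacter_nat hα₁ (isChar_of_irr ζs.2)
    have hkey := Helper92.b42_key_X p χ₁ χ₂ hreg hne ζs (c ζs) (hpr.sign ζs hζsX) (hpr.val ζs hζsX)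
    rw [hn₁, hcs] at hkey
    have hin : Cfsg.classInner (b42Prod (χ₁ : G → ℂ) (χ₂ : G → ℂ)) (ζs : G → ℂ) ≠ 0 := by
      rw [← hkey]
      have h3 : ((n₁ : ℂ) - ((-1 : ℤ) : ℂ)) = ((n₁ + 1 : ℕ) : ℂ) := by
        push_cast
        ring
      rw [h3]
      exact_mod_cast Nat.succ_ne_zero n₁
    have hfixs : b42Fix p x (ζs : G → ℂ) = 0 := Helper72.b42_fix_le p x hxo _ hα₂ hfix2 ζs hin
    have hKval : ∀ k ∈ K, (ζs : G → ℂ) k = (p : ℂ) - 1 := by
      intro k hk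
      have hsum := Helper72.b42_nofix p x hxo (ζs : G → ℂ) (isChar_of_irr ζs.2) hfixs k
      obtain ⟨q, hq⟩ : ∃ q, p = q + 1 := ⟨p - 1, by have := hp.one_lt; omega⟩
      have hterm : ∀ b ∈ Finset.range q, (ζs : G → ℂ) (x ^ (b + 1) * k) = -1 := by
        intro b hb
        have hb' : ¬ p ∣ b + 1 := by
          rw [Finset.mem_range] at hb
          intro hd
          have := Nat.le_of_dvd (Nat.succ_pos b) hd
          omega
        rw [hpr.val ζs hζsX _ (Helper92.b42_psing_mul p x K h (b + 1) hb' k hk), hcs]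
        norm_num
      have hsum2 : ∑ b ∈ Finset.range (q + 1), (ζs : G → ℂ) (x ^ b * k) = 0 := by
        rw [← hq]; exact hsum
      rw [Finset.sum_range_succ', Finset.sum_congr rfl hterm, pow_zero, one_mul,
        Finset.sum_const, Finset.card_range, nsmul_eq_mul] at hsum2
      rw [hq]
      push_cast
      linear_combination hsum2
    have h1val : (ζs : G → ℂ) 1 = (p : ℂ) - 1 := hKval 1 (one_mem K)
    obtain ⟨L, hLn, hL⟩ := Helper27.b42_ker (ζs : G → ℂ) (isChar_of_irr ζs.2)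
    have hKL : ∀ k ∈ K, k ∈ L := fun k hk => (hL k).mpr (by rw [hKval k hk, h1val])
    have hxL : x ∉ L := by
      intro hxL
      have h1 := (hL x).mp hxL
      rw [hpr.val ζs hζsX x hxsing, hcs, h1val] at h1
      have h2 : (p : ℂ) = 0 := by
        push_cast at h1
        linear_combination -h1
      exact hp.ne_zero (by exact_mod_cast h2)
    have hLc := Helper67.b42_normal_central p x hxo hmin htop u₁ hu₁ hu₁1 L hLn hxL
    have hKab : ∀ a ∈ K, ∀ b ∈ K, a * b = b * a := by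
      intro a ha b hb
      have h1 := Subgroup.mem_center_iff.mp (hLc (hKL a ha)) b
      exact h1.symm
    have ht1 : t = 1 := by rw [ht]; exact Helper27.b42_abelian_linear K hKab θ
    rw [ht1] at hsh hsh₂
    exact b42_count p x hxo F hF hf2 hfp v hv χ₁ χ₂ l₀ hl₀ hsh hsh₂ hreg X c hcardX hpr.sign
      hpr.val ζ₁ hζ₁X hcζ₁ hkerX
  · -- case B: all non-exceptional characters of the principal block are positive
    have hcall : ∀ ζ ∈ X, c ζ = 1 :=
      fun ζ hζ => (hpr.sign ζ hζ).resolve_right (fun hc => hA ⟨ζ, hζ, hc⟩)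
    have hε₀ : ε₀ = 1 := by
      rcases hpr.eps with he | he
      · exact he
      · exfalso
        have hdg := hpr.deg
        rw [he] at hdg
        have hpos : 0 ≤ ∑ ζ ∈ X, c ζ * (Cfsg.charDegree (ζ : G → ℂ) : ℤ) :=
          Finset.sum_nonneg (fun ζ hζ => by rw [hcall ζ hζ]; positivity)
        have hψpos : 0 < (Cfsg.charDegree (ψ₀ : G → ℂ) : ℤ) := by
          exact_mod_cast Helper81.charDegree_pos ψ₀
        linarith
    have hexc : ∀ b : ℕ, ¬ p ∣ b → ∀ k ∈ K, (ψ₀ : G → ℂ) (x ^ b * k)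
        = ∑ᶠ s ∈ normUnits p x,
            d1zeta p ^ ((b : ZMod p) * ((s : (ZMod p)ˣ) : ZMod p) * l).val := by
      intro b hb k hk
      rw [hpr.exc b hb k hk, hε₀, Int.cast_one, one_mul]
    obtain ⟨ψ', l', hl', hin, hval'⟩ :=
      Helper67.b42_key_Y p x K h hps F hF χ₁ χ₂ hreg hne ψ₀ l hpr.lne hexc
    have hfix' : b42Fix p x (ψ' : G → ℂ) = 0 := Helper72.b42_fix_le p x hxo _ hα₂ hfix2 ψ' hin
    have hshψ : B42Shape p x (ψ' : G → ℂ) 1 l' :=
      Helper45.b42_shape_of_nofix p x hxo F hF (ψ' : G → ℂ) l' hl' hfix' hval'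
    obtain ⟨ψ'', hshψ', hregψ⟩ := Helper66.b42_gal p x K h ψ' 1 l' hshψ v
    exact b42_count p x hxo F hF hf2 hfp v hv ψ' ψ'' l' hl' hshψ hshψ' hregψ X c hcardX
      hpr.sign hpr.val ζ₁ hζ₁X hcζ₁ hkerX

end Cfsg.Agent.Helper15
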