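import Mathlib
import Cfsg.Agent.Helper15.B42Defs
import Cfsg.Agent.Helper88.B42SHAPE
import Cfsg.Agent.Helper49.B42VALX
import Cfsg.Agent.Helper91.B42STRONG
import Cfsg.Agent.Helper72.B42LA

/-!
# S4504, stage STRUCT: boundary versions of the value and shape lemmas (helper15)

The hypothesis `2 * deg + 1 < p` of `Helper49.b42_value_x` / `Helper88.b42_shape_of_value` /
`Helper15.b42_struct` weakened to `2 * deg + 1 ≤ p`.
-/

universe u
set_option autoImplicit false
open Cfsg Cfsg.Agent.Helper77 Cfsg.Agent.Helper15 Cfsg.Agent.Helper88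
open scoped ComplexConjugate

namespace Cfsg.Agent.Helper15

variable {G : Type u} [Group G] [Finite G]

theorem b42_shape_of_value_le (p : ℕ) [Fact p.Prime] (x : G) (hx : orderOf x = p)
    (F : Subgroup (ZMod p)ˣ) (hF : (F : Set (ZMod p)ˣ) = normUnits p x)
    (χ : G → ℂ) (hχ : Cfsg.IsCharacter G χ) (t : ℕ) (ht : 0 < t) (l₀ : ZMod p) (hl₀ : l₀ ≠ 0)
    (ε : ℤ) (hε : ε = 1 ∨ ε = -1)
    (hval : χ x = (ε : ℂ) * (t : ℂ)
      * ∑ᶠ s ∈ normUnits p x, d1zeta p ^ (((s : (ZMod p)ˣ) : ZMod p) * l₀).val)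
    (hker : χ x ≠ χ 1) (hsmall : 2 * Cfsg.charDegree χ + 1 ≤ p) :
    B42Shape p x χ t l₀ := by
  classical
  obtain ⟨n, ρ, rfl⟩ := hχ
  have hp : p.Prime := Fact.out
  have hζ : IsPrimitiveRoot (d1zeta p) p := Complex.isPrimitiveRoot_exp p hp.ne_zero
  have hζp := hζ.pow_eq_one
  unfold B42Shape
  generalize d1zeta p = ζ at hζ hζp hval ⊢
  have hf : (ρ x) ^ p = 1 := by rw [← map_pow, ← hx, pow_orderOf_eq_one, map_one]
  obtain ⟨s, hs1, hs2, hs3⟩ := Helper75.exists_eigen_multiset (ρ x) p hp.ne_zero hf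
  have hchar : ∀ k : ℕ, ρ.character (x ^ k) = (s.map (fun μ => μ ^ k)).sum := by
    intro k
    rw [← hs3 k, ← map_pow]
    rfl
  set m : ZMod p → ℕ := fun j => s.count (ζ ^ j.val) with hm
  have hexp : ∀ k : ℕ, ρ.character (x ^ k) = ∑ j : ZMod p, (m j : ℂ) * ζ ^ (j.val * k) := by
    intro k
    rw [hchar k, mult_expand88 p ζ hζ s hs1]
    refine Finset.sum_congr rfl (fun j _ => ?_)
    rw [pow_mul]
  have hdegC : ρ.character 1 = ((∑ j : ZMod p, m j : ℕ) : ℂ) := by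
    have h0 := hexp 0
    simp only [pow_zero, mul_zero, mul_one] at h0
    rw [h0]
    push_cast
    rfl
  have hdeg : Cfsg.charDegree ρ.character = ∑ j : ZMod p, m j := by
    unfold Cfsg.charDegree
    rw [hdegC, Complex.natCast_re, Nat.floor_natCast]
  have hx1 : ρ.character x = ∑ j : ZMod p, (m j : ℂ) * ζ ^ j.val := by
    have h1 := hexp 1
    simpa using h1
  -- the finite set `F`
  let Fs : Finset (ZMod p)ˣ := Finset.univ.filter (· ∈ F)
  have hmemFs : ∀ s : (ZMod p)ˣ, s ∈ Fs ↔ s ∈ F := fun s => by simp [Fs]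
  have hfs : ∀ f : (ZMod p)ˣ → ℂ, ∑ᶠ s ∈ normUnits p x, f s = ∑ s ∈ Fs, f s := by
    intro f
    have hset : (F : Set (ZMod p)ˣ) = (Fs : Set (ZMod p)ˣ) := by
      ext s; simp [Fs]
    rw [← hF, hset, finsum_mem_coe_finset]
  have hcard : Fs.card = Nat.card F := by
    rw [Nat.card_eq_fintype_card]
    exact (Fintype.card_of_subtype Fs hmemFs).symm
  have hinjL : ∀ a ∈ Fs, ∀ b ∈ Fs, (a : ZMod p) * l₀ = (b : ZMod p) * l₀ → a = b := by
    intro a _ b _ hab
    exact Units.ext (mul_right_cancel₀ hl₀ hab)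
  let L : Finset (ZMod p) := Fs.image (fun s : (ZMod p)ˣ => (s : ZMod p) * l₀)
  have hLcard : L.card = Nat.card F := by
    rw [← hcard]
    exact Finset.card_image_of_injOn (fun a ha b hb hab => hinjL a ha b hb hab)
  have hL0 : (0 : ZMod p) ∉ L := by
    intro h0
    obtain ⟨s', -, hs'⟩ := Finset.mem_image.mp h0
    rcases mul_eq_zero.mp hs' with h | h
    · exact s'.ne_zero h
    · exact hl₀ h
  have hLl₀ : l₀ ∈ L := Finset.mem_image.mpr ⟨1, (hmemFs 1).mpr F.one_mem, by simp⟩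
  have hLsum : ∀ g : ZMod p → ℂ, ∑ s ∈ Fs, g ((s : ZMod p) * l₀)
      = ∑ j : ZMod p, (if j ∈ L then g j else 0) := by
    intro g
    rw [Finset.sum_ite_mem, Finset.univ_inter]
    exact (Finset.sum_image hinjL).symm
  -- all the coefficients of the relation are equal
  have hsum0 : ∑ j : ZMod p,
      ((((m j : ℤ) - ε * t * (if j ∈ L then 1 else 0) : ℤ)) : ℂ) * ζ ^ j.val = 0 := by
    have h2 : ∑ s ∈ Fs, ζ ^ ((s : ZMod p) * l₀).val
        = ∑ j : ZMod p, (if j ∈ L then ζ ^ j.val else 0) := hLsum (fun j => ζ ^ j.val)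
    rw [hfs, h2, hx1] at hval
    have hterm : ∀ j : ZMod p,
        ((((m j : ℤ) - ε * t * (if j ∈ L then 1 else 0) : ℤ)) : ℂ) * ζ ^ j.val
        = (m j : ℂ) * ζ ^ j.val - (ε : ℂ) * (t : ℂ) * (if j ∈ L then ζ ^ j.val else 0) := by
      intro j
      split_ifs <;> push_cast <;> ring
    rw [Finset.sum_congr rfl (fun j _ => hterm j), Finset.sum_sub_distrib, ← Finset.mul_sum,
      ← hval, sub_self]
  have hK1 : ∀ j : ZMod p, (m j : ℤ) = m 0 + ε * t * (if j ∈ L then 1 else 0) := by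
    intro j
    have h1 := coeff_const88 p ζ hζ
      (fun j => (m j : ℤ) - ε * t * (if j ∈ L then 1 else 0)) hsum0 j
    simp only [if_neg hL0] at h1
    linarith
  have hn : ((∑ j : ZMod p, m j : ℕ) : ℤ) = p * m 0 + ε * t * Nat.card F := by
    have e1 : ∑ _j : ZMod p, ((m 0 : ℤ)) = p * m 0 := by
      rw [Finset.sum_const, Finset.card_univ, ZMod.card, nsmul_eq_mul]
    have e2 : ∑ j : ZMod p, (if j ∈ L then (1 : ℤ) else 0) = Nat.card F := by
      rw [Finset.sum_ite_mem, Finset.univ_inter, Finset.sum_const, nsmul_eq_mul, mul_one, hLcard]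
    rw [Nat.cast_sum, Finset.sum_congr rfl (fun j _ => hK1 j), Finset.sum_add_distrib,
      ← Finset.mul_sum, e1, e2]
  have hfdvd : Nat.card F ∣ p - 1 := by
    have h1 := Subgroup.card_subgroup_dvd_card F
    rwa [Nat.card_eq_fintype_card (α := (ZMod p)ˣ), ZMod.card_units p] at h1
  have hfpos : 0 < Nat.card F := Nat.card_pos
  have hl : (m l₀ : ℤ) = m 0 + ε * t := by
    have h1 := hK1 l₀
    rw [if_pos hLl₀, mul_one] at h1
    exact h1
  rw [hdeg] at hsmall
  have hsmallZ : 2 * ((∑ j : ZMod p, m j : ℕ) : ℤ) + 1 ≤ p := by exact_mod_cast hsmall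
  have hpZ : (1 : ℤ) ≤ p := by exact_mod_cast hp.one_le
  have htZ : (0 : ℤ) < t := by exact_mod_cast ht
  have hfZ : (0 : ℤ) < (Nat.card F : ℤ) := by exact_mod_cast hfpos
  have hmlZ : (0 : ℤ) ≤ m l₀ := Nat.cast_nonneg _
  have hm0Z : (0 : ℤ) ≤ m 0 := Nat.cast_nonneg _
  by_cases hM0 : m 0 = 0
  · -- the main case
    have hε1 : ε = 1 := by
      rcases hε with h | h
      · exact h
      · exfalso
        rw [h, hM0] at hl
        push_cast at hl
        linarith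
    subst hε1
    intro b
    rw [hexp b, hfs]
    have h3 : ∀ s' : (ZMod p)ˣ, ζ ^ ((b : ZMod p) * (s' : ZMod p) * l₀).val
        = ζ ^ (((s' : ZMod p) * l₀).val * b) := by
      intro s'
      rw [mul_assoc, d1f_natCast_mul p ζ hζp, mul_comm]
    have h4 := hLsum (fun j : ZMod p => ζ ^ (j.val * b))
    rw [Finset.sum_congr rfl (fun s' _ => h3 s'), h4, Finset.mul_sum]
    refine Finset.sum_congr rfl (fun j _ => ?_)
    have h' := hK1 j
    rw [hM0] at h'
    push_cast at h'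
    by_cases hj : j ∈ L
    · rw [if_pos hj] at h' ⊢
      have hmj : m j = t := by exact_mod_cast (by linarith : (m j : ℤ) = t)
      rw [hmj]
    · rw [if_neg hj] at h' ⊢
      have hmj : m j = 0 := by exact_mod_cast (by linarith : (m j : ℤ) = 0)
      rw [hmj]
      simp
  · exfalso
    have hM1 : (1 : ℤ) ≤ m 0 := by
      have : 1 ≤ m 0 := Nat.one_le_iff_ne_zero.mpr hM0
      exact_mod_cast this
    rcases hε with h | h
    · subst h
      nlinarith [mul_nonneg (by linarith : (0 : ℤ) ≤ (p : ℤ)) (by linarith : (0 : ℤ) ≤ (m 0 : ℤ) - 1),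
        mul_nonneg htZ.le hfZ.le]
    · subst h
      have htM : (t : ℤ) ≤ m 0 := by linarith
      by_cases hfp : Nat.card F = p - 1
      · have hfz : (Nat.card F : ℤ) = (p : ℤ) - 1 := by
          rw [hfp, Nat.cast_sub hp.one_le, Nat.cast_one]
        rw [hfz] at hn
        by_cases hMt : m 0 = t
        · have hN : ∑ j : ZMod p, m j = m 0 := by
            have h1 : ((∑ j : ZMod p, m j : ℕ) : ℤ) = (m 0 : ℤ) := by
              rw [hn, hMt]; ring
            exact_mod_cast h1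
          have hzero : ∀ j : ZMod p, j ≠ 0 → m j = 0 := by
            intro j hj
            have h1 := Finset.add_sum_erase Finset.univ m (Finset.mem_univ (0 : ZMod p))
            have h2 : ∑ j ∈ Finset.univ.erase (0 : ZMod p), m j = 0 := by omega
            exact Finset.sum_eq_zero_iff.mp h2 j (Finset.mem_erase.mpr ⟨hj, Finset.mem_univ _⟩)
          apply hker
          rw [hx1, hdegC, hN, Finset.sum_eq_single (0 : ZMod p)]
          · simp
          · intro j _ hj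
            rw [hzero j hj]
            simp
          · intro h
            exact absurd (Finset.mem_univ _) h
        · have hMt' : (t : ℤ) + 1 ≤ m 0 := by
            have h1 : (t : ℤ) ≠ m 0 := fun h => hMt (by exact_mod_cast h.symm)
            omega
          nlinarith [mul_nonneg (by linarith : (0 : ℤ) ≤ (p : ℤ) - 1)
            (by linarith : (0 : ℤ) ≤ (m 0 : ℤ) - t - 1)]
      · obtain ⟨k, hk⟩ := hfdvd
        have hk2 : 2 ≤ k := by
          rcases Nat.lt_or_ge k 2 with h | h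
          · exfalso
            interval_cases k
            · have := hp.one_lt
              omega
            · exact hfp (by omega)
          · exact h
        have h2f : 2 * Nat.card F ≤ p - 1 := by
          rw [hk]
          nlinarith
        have h2fZ : 2 * (Nat.card F : ℤ) ≤ (p : ℤ) - 1 := by
          have : ((2 * Nat.card F : ℕ) : ℤ) ≤ ((p - 1 : ℕ) : ℤ) := by exact_mod_cast h2f
          rw [Nat.cast_sub hp.one_le] at this
          push_cast at this
          exact this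
        nlinarith [mul_nonneg (by linarith : (0 : ℤ) ≤ (m 0 : ℤ) - t) hfZ.le,
          mul_nonneg (by linarith : (0 : ℤ) ≤ (m 0 : ℤ) - 1)
            (by linarith : (0 : ℤ) ≤ (p : ℤ) - Nat.card F)]



theorem b42_value_x_le (p : ℕ) [Fact p.Prime] (x : G) (K : Subgroup G) (h : D1Hyp p x K)
    (hstrong : B42StrongStmt G p)
    (hint : ∀ χ : G → ℂ, Cfsg.IsCharacter G χ → ∀ r : ℤ, χ x = (r : ℂ) →
      χ x = χ 1 ∨ p - 1 ≤ Cfsg.charDegree χ)
    (χ₁ : Cfsg.IrrCharacter G) (hker : (χ₁ : G → ℂ) x ≠ (χ₁ : G → ℂ) 1)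
    (hsmall : 2 * Cfsg.charDegree (χ₁ : G → ℂ) + 1 ≤ p) :
    ∃ (θ : Cfsg.IrrCharacter K) (l₀ : ZMod p) (ε : ℤ), l₀ ≠ 0 ∧ (ε = 1 ∨ ε = -1) ∧
      (χ₁ : G → ℂ) x = (ε : ℂ) * (Cfsg.charDegree (θ : K → ℂ) : ℂ)
        * ∑ᶠ s ∈ normUnits p x, d1zeta p ^ (((s : (ZMod p)ˣ) : ZMod p) * l₀).val := by
  classical
  have hp : p.Prime := Fact.out
  have hnotint : ∀ r : ℤ, (χ₁ : G → ℂ) x ≠ (r : ℂ) := by
    intro r hr
    rcases hint _ (Helper79.irr_isCharacter χ₁) r hr with h1 | h1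
    · exact hker h1
    · have := hp.two_le
      omega
  have hne0 : (χ₁ : G → ℂ) x ≠ 0 := by
    intro h0
    exact hnotint 0 (by rw [h0]; simp)
  obtain ⟨θ, hθ⟩ := Helper49.b42vx_exists_theta p x K h χ₁ hne0
  obtain ⟨X, Y, c, ε, hXY, hdisj, hXcard, hYne, hc, hε, hXval, hYval, hdeg⟩ := hstrong x K h θ
  obtain ⟨E, F, hE, hF, hEF⟩ := Helper29.d1_units p x K h θ
  have hval := Helper55.d1_value_at_x p (Helper75.d1_cc p) (Helper74.d1_inj p) x K h θ χ₁ hθ
  have hecard : Nat.card (stabUnits p x K (θ : K → ℂ)) = Nat.card E := by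
    rw [← hE]; rfl
  have hepos : 0 < Nat.card E := Nat.card_pos
  have hdvd : Nat.card E ∣ Nat.card F := Subgroup.card_dvd_of_le hEF
  rw [hecard] at hval
  letI : Fintype E := Fintype.ofFinite E
  letI : Fintype F := Fintype.ofFinite F
  have hFsum : ∀ g : (ZMod p)ˣ → ℂ,
      ∑ᶠ u ∈ normUnits p x, g u = ∑ u : F, g (u : (ZMod p)ˣ) := by
    intro g
    rw [← hF]
    exact (finsum_set_coe_eq_finsum_mem (F : Set (ZMod p)ˣ)).symm.trans
      (finsum_eq_sum_of_fintype _)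
  have hEsum : ∀ g : (ZMod p)ˣ → ℂ,
      ∑ᶠ u ∈ stabUnits p x K (θ : K → ℂ), g u = ∑ u : E, g (u : (ZMod p)ˣ) := by
    intro g
    rw [← hE]
    exact (finsum_set_coe_eq_finsum_mem (E : Set (ZMod p)ˣ)).symm.trans
      (finsum_eq_sum_of_fintype _)
  have hθ1 : (θ : K → ℂ) 1 = (Cfsg.charDegree (θ : K → ℂ) : ℂ) :=
    Helper81.irr_one_eq_charDegree θ
  have hEne : (Nat.card E : ℂ) ≠ 0 := by exact_mod_cast hepos.ne'
  rw [hFsum, hθ1] at hval
  rcases (hXY χ₁).2 hθ with hX | hY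
  · -- non-exceptional: the value is an integer
    exfalso
    obtain ⟨m, hm⟩ := hdvd
    have e1 : ∑ u : F, dco K (θ : K → ℂ) (χ₁ : G → ℂ) (x ^ ((u : (ZMod p)ˣ) : ZMod p).val)
        = (Nat.card F : ℂ) * (c χ₁ : ℂ) := by
      have e0 : ∀ u : F, dco K (θ : K → ℂ) (χ₁ : G → ℂ) (x ^ ((u : (ZMod p)ˣ) : ZMod p).val)
          = (c χ₁ : ℂ) := fun u => hXval χ₁ hX _ (Units.ne_zero _)
      rw [Finset.sum_congr rfl (fun u _ => e0 u)]
      rw [Finset.sum_const, Finset.card_univ, nsmul_eq_mul, Nat.card_eq_fintype_card]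
    rw [e1, hm] at hval
    apply hnotint ((Cfsg.charDegree (θ : K → ℂ) : ℤ) * (m : ℤ) * c χ₁)
    apply mul_left_cancel₀ hEne
    rw [hval]
    push_cast
    ring
  · obtain ⟨l₀, hl₀, hYv⟩ := hYval χ₁ hY
    refine ⟨θ, l₀, ε, hl₀, hε, ?_⟩
    rw [hFsum]
    have e1 : ∑ u : F, dco K (θ : K → ℂ) (χ₁ : G → ℂ) (x ^ ((u : (ZMod p)ˣ) : ZMod p).val)
        = (ε : ℂ) * ((Nat.card E : ℂ)
          * ∑ u : F, d1zeta p ^ (((u : (ZMod p)ˣ) : ZMod p) * l₀).val) := by
      have e2 : ∀ u : F, dco K (θ : K → ℂ) (χ₁ : G → ℂ) (x ^ ((u : (ZMod p)ˣ) : ZMod p).val)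
          = (ε : ℂ) * ∑ s : E,
              d1zeta p ^ ((((u : (ZMod p)ˣ) * (s : (ZMod p)ˣ) : (ZMod p)ˣ) : ZMod p) * l₀).val := by
        intro u
        rw [hYv ((u : (ZMod p)ˣ) : ZMod p) (Units.ne_zero _), hEsum]
        congr 1
      rw [Finset.sum_congr rfl (fun u _ => e2 u), ← Finset.mul_sum, Finset.sum_comm]
      congr 1
      have e3 : ∀ s : E, ∑ u : F,
          d1zeta p ^ ((((u : (ZMod p)ˣ) * (s : (ZMod p)ˣ) : (ZMod p)ˣ) : ZMod p) * l₀).val
          = ∑ u : F, d1zeta p ^ (((u : (ZMod p)ˣ) : ZMod p) * l₀).val := by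
        intro s
        exact Fintype.sum_equiv (Equiv.mulRight (⟨(s : (ZMod p)ˣ), hEF s.2⟩ : F)) _ _
          (fun u => rfl)
      rw [Finset.sum_congr rfl (fun s _ => e3 s)]
      rw [Finset.sum_const, Finset.card_univ, nsmul_eq_mul, Nat.card_eq_fintype_card]
    rw [e1] at hval
    apply mul_left_cancel₀ hEne
    rw [hval]
    ring



/-- The structure of a small irreducible character not containing `x` in its kernel, boundary
version (`2 * deg + 1 ≤ p`). -/
theorem b42_struct_le (p : ℕ) [Fact p.Prime] (x : G) (K : Subgroup G) (h : D1Hyp p x K)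
    (χ₁ : Cfsg.IrrCharacter G) (hker : (χ₁ : G → ℂ) x ≠ (χ₁ : G → ℂ) 1)
    (hsmall : 2 * Cfsg.charDegree (χ₁ : G → ℂ) + 1 ≤ p) :
    ∃ (θ : Cfsg.IrrCharacter K) (l₀ : ZMod p), l₀ ≠ 0 ∧
      B42Shape p x (χ₁ : G → ℂ) (Cfsg.charDegree (θ : K → ℂ)) l₀ := by
  obtain ⟨θ, l₀, ε, hl₀, hε, hval⟩ := b42_value_x_le p x K h (Helper91.b42_d1_strong p)
    (fun χ hχ r hr => Helper72.b42_int_value p x h.hx χ hχ r hr) χ₁ hker hsmall
  obtain ⟨E, F, -, hF, -⟩ := Helper29.d1_units p x K h θ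
  exact ⟨θ, l₀, hl₀, b42_shape_of_value_le p x h.hx F hF (χ₁ : G → ℂ)
    (Helper15.isChar_of_irr χ₁.2) _ (Helper81.charDegree_pos θ) l₀ hl₀ ε hε hval hker hsmall⟩

end Cfsg.Agent.Helper15
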