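import Mathlib

set_option autoImplicit false

namespace Cfsg.Agent.Helper15

section AGrp1

open scoped IsMulCommutative in
/-- Taunt's lemma: in a finite group all of whose Sylow subgroups are abelian, the centre meets
the commutator subgroup trivially. -/
theorem taunt {Q : Type*} [Group Q] [Finite Q]
    (hab : ∀ (p : ℕ) [Fact p.Prime] (P : Sylow p Q), ∀ a ∈ P, ∀ b ∈ P, a * b = b * a)
    {z : Q} (hz : z ∈ Subgroup.center Q) (hz' : z ∈ commutator Q) : z = 1 := by
  by_contra hne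
  have hord : orderOf z ≠ 1 := fun h => hne (orderOf_eq_one_iff.mp h)
  obtain ⟨p, hp, hpdvd⟩ := Nat.exists_prime_and_dvd hord
  have := Fact.mk hp
  obtain ⟨P⟩ : Nonempty (Sylow p Q) := inferInstance
  have : IsMulCommutative (P : Subgroup Q) :=
    ⟨⟨fun a b => Subtype.ext (hab p P a a.2 b b.2)⟩⟩
  have key : ∀ (k : ℕ) (g₀ : Q), g₀⁻¹ * z ^ k * g₀ ∈ (P : Subgroup Q) →
      g₀⁻¹ * z ^ k * g₀ = z ^ k := by
    intro k g₀ _
    have h1 := Subgroup.mem_center_iff.mp ((Subgroup.center Q).pow_mem hz k) g₀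
    rw [mul_assoc, ← h1, inv_mul_cancel_left]
  have h1 := MonoidHom.transfer_eq_pow (MonoidHom.id (P : Subgroup Q)) z key
  have h2 : MonoidHom.transfer (MonoidHom.id (P : Subgroup Q)) z = 1 := by
    have h3 : commutator Q ≤ (MonoidHom.transfer (MonoidHom.id (P : Subgroup Q))).ker :=
      Abelianization.commutator_subset_ker _
    exact MonoidHom.mem_ker.mp (h3 hz')
  rw [h2] at h1
  have h3 : z ^ (P : Subgroup Q).index = 1 := by
    have h4 := congrArg Subtype.val h1
    simpa using h4.symm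
  have h4 : p ∣ (P : Subgroup Q).index := dvd_trans hpdvd (orderOf_dvd_of_pow_eq_one h3)
  exact P.not_dvd_index h4

/-- Abelian Sylow subgroups pass to quotients. -/
theorem sylow_abelian_of_surjective {N Q : Type*} [Group N] [Group Q] [Finite N] (f : N →* Q)
    (hf : Function.Surjective f)
    (hab : ∀ (p : ℕ) [Fact p.Prime] (P : Sylow p N), ∀ a ∈ P, ∀ b ∈ P, a * b = b * a) :
    ∀ (p : ℕ) [Fact p.Prime] (P : Sylow p Q), ∀ a ∈ P, ∀ b ∈ P, a * b = b * a := by
  intro p _ P a ha b hb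
  obtain ⟨P₀, rfl⟩ := Sylow.mapSurjective_surjective hf p P
  obtain ⟨a₀, ha₀, rfl⟩ := Subgroup.mem_map.mp (show a ∈ (P₀ : Subgroup N).map f from ha)
  obtain ⟨b₀, hb₀, rfl⟩ := Subgroup.mem_map.mp (show b ∈ (P₀ : Subgroup N).map f from hb)
  rw [← map_mul, ← map_mul, hab p P₀ a₀ ha₀ b₀ hb₀]

/-- Abelian Sylow subgroups pass to subgroups (along injective homomorphisms). -/
theorem sylow_abelian_of_injective {R N : Type*} [Group R] [Group N] [Finite N] (f : R →* N)
    (hf : Function.Injective f)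
    (hab : ∀ (p : ℕ) [Fact p.Prime] (P : Sylow p N), ∀ a ∈ P, ∀ b ∈ P, a * b = b * a) :
    ∀ (p : ℕ) [Fact p.Prime] (P : Sylow p R), ∀ a ∈ P, ∀ b ∈ P, a * b = b * a := by
  intro p _ P a ha b hb
  have h1 : IsPGroup p ((P : Subgroup R).map f) := P.isPGroup'.map f
  obtain ⟨P', hP'⟩ := h1.exists_le_sylow
  apply hf
  rw [map_mul, map_mul]
  exact hab p P' (f a) (hP' (Subgroup.mem_map_of_mem f ha)) (f b)
    (hP' (Subgroup.mem_map_of_mem f hb))

/-- A relative form of Taunt's lemma. -/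
theorem relTaunt {H : Type*} [Group H] [Finite H] (N M : Subgroup H) [hM : M.Normal]
    (hab : ∀ (p : ℕ) [Fact p.Prime] (P : Sylow p N), ∀ a ∈ P, ∀ b ∈ P, a * b = b * a)
    {a : H} (ha : a ∈ ⁅N, N⁆) (hc : ∀ n ∈ N, a * n * a⁻¹ * n⁻¹ ∈ M) : a ∈ M := by
  have hmap : (commutator N).map N.subtype = ⁅N, N⁆ := by
    rw [commutator_def, Subgroup.map_commutator, ← MonoidHom.range_eq_map, Subgroup.range_subtype]
  rw [← hmap, Subgroup.mem_map] at ha
  obtain ⟨x, hx, rfl⟩ := ha
  have hnorm : (M.subgroupOf N).Normal := hM.subgroupOf N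
  let f := QuotientGroup.mk' (M.subgroupOf N)
  have hf : Function.Surjective f := QuotientGroup.mk'_surjective _
  have hcen : f x ∈ Subgroup.center (N ⧸ M.subgroupOf N) := by
    rw [Subgroup.mem_center_iff]
    intro q
    obtain ⟨n, rfl⟩ := hf q
    rw [← map_mul, ← map_mul]
    show (QuotientGroup.mk (n * x) : N ⧸ M.subgroupOf N) = QuotientGroup.mk (x * n)
    rw [QuotientGroup.eq, Subgroup.mem_subgroupOf]
    have h1 := hc (n : H)⁻¹ (N.inv_mem n.2)
    have h2 := M.inv_mem h1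
    have h3 := hM.conj_mem _ h2 (x : H)⁻¹
    have h4 : (((n * x)⁻¹ * (x * n) : N) : H) =
        (x : H)⁻¹ * ((x : H) * (n : H)⁻¹ * (x : H)⁻¹ * (n : H)⁻¹⁻¹)⁻¹ * (x : H)⁻¹⁻¹ := by
      push_cast
      group
    rw [h4]
    exact h3
  have hcomm : f x ∈ commutator (N ⧸ M.subgroupOf N) := by
    have h1 : (commutator N).map f ≤ commutator (N ⧸ M.subgroupOf N) := by
      rw [commutator_def, Subgroup.map_commutator, commutator_def]
      exact Subgroup.commutator_mono le_top le_top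
    exact h1 (Subgroup.mem_map_of_mem f hx)
  have h1 := taunt (sylow_abelian_of_surjective f hf hab) hcen hcomm
  have h2 : x ∈ M.subgroupOf N := (QuotientGroup.eq_one_iff x).mp h1
  exact Subgroup.mem_subgroupOf.mp h2

end AGrp1

end Cfsg.Agent.Helper15
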