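import Mathlib
import Cfsg.Agent.Helper1.MinNormal

set_option autoImplicit false

namespace Cfsg.Agent.Helper15

section ChiefGT

variable {G : Type*} [Group G]

/-- A nontrivial finite group has a minimal normal subgroup. -/
theorem chief_min_normal_exists {Q : Type*} [Group Q] [Finite Q] [Nontrivial Q] :
    ∃ N : Subgroup Q, N.Normal ∧ N ≠ ⊥ ∧
      ∀ M : Subgroup Q, M.Normal → M ≤ N → M = ⊥ ∨ M = N := by
  classical
  let S : Set ℕ := {k | ∃ N : Subgroup Q, N.Normal ∧ N ≠ ⊥ ∧ Nat.card N = k}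
  have hS : S.Nonempty := by
    obtain ⟨x, hx⟩ := exists_ne (1 : Q)
    refine ⟨Nat.card (⊤ : Subgroup Q), ⊤, inferInstance, ?_, rfl⟩
    intro h
    exact hx (Subgroup.mem_bot.mp (h ▸ Subgroup.mem_top x))
  obtain ⟨N, hN1, hN2, hN3⟩ := Nat.sInf_mem hS
  refine ⟨N, hN1, hN2, fun M hM1 hMN => ?_⟩
  by_cases hM2 : M = ⊥
  · exact Or.inl hM2
  · right
    apply Subgroup.eq_of_le_of_card_ge hMN
    rw [hN3]
    exact Nat.sInf_le ⟨M, hM1, hM2, rfl⟩

/-- Cardinality of the preimage of a subgroup of a quotient. -/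
theorem chief_card_comap_mk [Finite G] (N : Subgroup G) [N.Normal] (A : Subgroup (G ⧸ N)) :
    Nat.card (A.comap (QuotientGroup.mk' N)) = Nat.card N * Nat.card A := by
  have h1 : (A.comap (QuotientGroup.mk' N)).index = A.index :=
    Subgroup.index_comap_of_surjective A (QuotientGroup.mk'_surjective N)
  have h2 := Subgroup.card_mul_index (A.comap (QuotientGroup.mk' N))
  have h3 := Subgroup.card_mul_index A
  have h4 := Subgroup.card_eq_card_quotient_mul_card_subgroup N
  have h5 : A.index ≠ 0 := Subgroup.index_ne_zero_of_finite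
  rw [h1] at h2
  have : Nat.card (A.comap (QuotientGroup.mk' N)) * A.index =
      (Nat.card N * Nat.card A) * A.index := by
    rw [h2, h4, ← h3]; ring
  exact Nat.eq_of_mul_eq_mul_right (Nat.pos_of_ne_zero h5) this

/-- A chief factor above a proper normal subgroup with solvable quotient: it is an elementary
abelian `p`-section. -/
theorem exists_chief_over [Finite G] (N : Subgroup G) [N.Normal]
    (hsolv : Group.IsSolvable (G ⧸ N)) (hN : N ≠ ⊤) :
    ∃ (M : Subgroup G) (p n : ℕ), M.Normal ∧ N ≤ M ∧ M ≠ N ∧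
      (∀ M' : Subgroup G, M'.Normal → N ≤ M' → M' ≤ M → M' = N ∨ M' = M) ∧
      (∀ a ∈ M, ∀ b ∈ M, a * b * a⁻¹ * b⁻¹ ∈ N) ∧ p.Prime ∧ (∀ x ∈ M, x ^ p ∈ N) ∧
      Nat.card M = Nat.card N * p ^ n := by
  classical
  have : Nontrivial (G ⧸ N) := by
    by_contra hnt
    rw [not_nontrivial_iff_subsingleton] at hnt
    apply hN
    rw [eq_top_iff]
    intro g _
    have : (QuotientGroup.mk g : G ⧸ N) = 1 := Subsingleton.elim _ _
    exact (QuotientGroup.eq_one_iff g).mp this
  obtain ⟨A, hAn, hA1, hAmin⟩ := chief_min_normal_exists (Q := G ⧸ N)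
  have := hAn
  obtain ⟨hcomm, p, hp, hpow⟩ := Cfsg.Agent.Helper1.minNormal_elemAbelian A hA1 hAmin
  have : Fact p.Prime := ⟨hp⟩
  have hmk : Function.Surjective (QuotientGroup.mk' N) := QuotientGroup.mk'_surjective N
  have hpg : IsPGroup p A := by
    intro a
    refine ⟨1, ?_⟩
    apply Subtype.ext
    simpa using hpow a a.2
  obtain ⟨n, hn⟩ := (IsPGroup.iff_card (p := p)).mp hpg
  refine ⟨A.comap (QuotientGroup.mk' N), p, n, hAn.comap _, ?_, ?_, ?_, ?_, hp, ?_, ?_⟩
  · intro x hx
    rw [Subgroup.mem_comap]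
    have : QuotientGroup.mk' N x = 1 := (QuotientGroup.eq_one_iff x).mpr hx
    rw [this]; exact A.one_mem
  · intro h
    apply hA1
    have := Subgroup.map_comap_eq_self_of_surjective hmk A
    rw [h] at this
    rw [← this, eq_bot_iff]
    rintro _ ⟨x, hx, rfl⟩
    exact Subgroup.mem_bot.mpr ((QuotientGroup.eq_one_iff x).mpr hx)
  · intro M' hM' hNM' hM'A
    have hB : (M'.map (QuotientGroup.mk' N)).Normal := hM'.map _ hmk
    have hBA : M'.map (QuotientGroup.mk' N) ≤ A := by
      rintro _ ⟨x, hx, rfl⟩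
      exact hM'A hx
    have hcm : (M'.map (QuotientGroup.mk' N)).comap (QuotientGroup.mk' N) = M' := by
      rw [Subgroup.comap_map_eq, QuotientGroup.ker_mk']
      exact sup_eq_left.mpr hNM'
    rcases hAmin _ hB hBA with h | h
    · left
      apply le_antisymm _ hNM'
      intro x hx
      have : QuotientGroup.mk' N x ∈ M'.map (QuotientGroup.mk' N) := ⟨x, hx, rfl⟩
      rw [h] at this
      exact (QuotientGroup.eq_one_iff x).mp (Subgroup.mem_bot.mp this)
    · right
      rw [← hcm, h]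
  · intro a ha b hb
    rw [Subgroup.mem_comap] at ha hb
    have h1 : (⟨_, ha⟩ : A) * ⟨_, hb⟩ = ⟨_, hb⟩ * ⟨_, ha⟩ := mul_comm' _ _
    have h2 : QuotientGroup.mk' N a * QuotientGroup.mk' N b =
        QuotientGroup.mk' N b * QuotientGroup.mk' N a := congrArg Subtype.val h1
    apply (QuotientGroup.eq_one_iff _).mp
    change QuotientGroup.mk' N (a * b * a⁻¹ * b⁻¹) = 1
    rw [map_mul, map_mul, map_mul, map_inv, map_inv, h2]
    group
  · intro x hx
    rw [Subgroup.mem_comap] at hx
    have := hpow _ hx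
    rw [← map_pow] at this
    exact (QuotientGroup.eq_one_iff _).mp this
  · rw [chief_card_comap_mk, hn]

/-- If `M` is normal with `M ⊔ H = ⊤`, a subgroup `D` normalized by `H` and centralized by `M`
modulo a subgroup `L ≤ D` is normal. -/
theorem chief_normal_of_comm (M H D L : Subgroup G) [M.Normal] (hMH : M ⊔ H = ⊤)
    (hLD : L ≤ D) (hH : ∀ h ∈ H, ∀ d ∈ D, h * d * h⁻¹ ∈ D)
    (hM : ∀ m ∈ M, ∀ d ∈ D, m * d * m⁻¹ * d⁻¹ ∈ L) : D.Normal := by
  constructor
  intro d hd g
  have hg : g ∈ ((M ⊔ H : Subgroup G) : Set G) := by rw [hMH]; trivial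
  rw [Subgroup.normal_mul] at hg
  obtain ⟨m, hm, h, hh, rfl⟩ := hg
  have h1 := hH h hh d hd
  have h2 := hM m hm _ h1
  have : m * h * d * (m * h)⁻¹ =
      (m * (h * d * h⁻¹) * m⁻¹ * (h * d * h⁻¹)⁻¹) * (h * d * h⁻¹) := by group
  rw [this]
  exact D.mul_mem (hLD h2) h1

/-- Order formula for a normal supplement. -/
theorem chief_card_mul_of_sup_eq_top [Finite G] (M H : Subgroup G) [M.Normal]
    (hMH : M ⊔ H = ⊤) :
    Nat.card G * Nat.card (M ⊓ H : Subgroup G) = Nat.card H * Nat.card M := by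
  have h1 : M.relIndex (H ⊔ M) = M.relIndex H := Subgroup.relIndex_sup_right H M
  rw [sup_comm, hMH, Subgroup.relIndex_top_right] at h1
  have h2 : (M ⊓ H).relIndex H = M.relIndex H := Subgroup.inf_relIndex_right M H
  have h3 : Nat.card (M ⊓ H : Subgroup G) * (M ⊓ H).relIndex H = Nat.card H := by
    have := Subgroup.relIndex_mul_relIndex (⊥ : Subgroup G) (M ⊓ H) H bot_le inf_le_right
    rwa [Subgroup.relIndex_bot_left, Subgroup.relIndex_bot_left] at this
  have h4 := Subgroup.card_mul_index M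
  rw [← h4, ← h3, h2, h1]
  ring

/-- A `p`-group normalizing a nontrivial normal `p`-subgroup centralizes a nontrivial element
of it. -/
theorem chief_exists_fixed {Q : Type*} [Group Q] [Finite Q] (p : ℕ) [Fact p.Prime]
    (A B : Subgroup Q) [hA : A.Normal] (hB : IsPGroup p B) (hAB : A ≤ B) (hA1 : A ≠ ⊥) :
    ∃ a ∈ A, a ≠ 1 ∧ ∀ b ∈ B, b * a * b⁻¹ = a := by
  classical
  letI : MulAction B A := MulAction.compHom A ((MulAut.conjNormal (H := A)).comp B.subtype)
  have hsm : ∀ (b : B) (a : A), ((b • a : A) : Q) = (b : Q) * a * (b : Q)⁻¹ := fun b a => rfl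
  have hApg : IsPGroup p A := hB.to_le hAB
  have hAnt : Nontrivial A := (Subgroup.nontrivial_iff_ne_bot A).mpr hA1
  obtain ⟨n, hn0, hn⟩ := (IsPGroup.nontrivial_iff_card hApg).mp hAnt
  have hdvd : p ∣ Nat.card A := by
    rw [hn]; exact dvd_pow_self p (Nat.pos_iff_ne_zero.mp hn0)
  have h1 : (1 : A) ∈ MulAction.fixedPoints B A := by
    intro b
    apply Subtype.ext
    rw [hsm]
    simp
  obtain ⟨a, ha, hne⟩ := hB.exists_fixed_point_of_prime_dvd_card_of_fixed_point A hdvd h1
  refine ⟨a, a.2, ?_, ?_⟩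
  · intro h
    apply hne
    apply Subtype.ext
    rw [h]; rfl
  · intro b hb
    have := ha ⟨b, hb⟩
    have h2 := congrArg Subtype.val this
    rw [hsm] at h2
    exact h2

/-- If `M ≤ K` are normal, `M ⊔ H = ⊤`, and `K ⊓ H` is centralized by `M` modulo the core of
`H`, then `K ≤ M`. -/
theorem chief_le_of_central (M K H : Subgroup G) [M.Normal] [hK : K.Normal] (hMH : M ⊔ H = ⊤)
    (hLM : H.normalCore ≤ M) (hMK : M ≤ K)
    (hc : ∀ m ∈ M, ∀ x ∈ K ⊓ H, m * x * m⁻¹ * x⁻¹ ∈ H.normalCore) : K ≤ M := by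
  have hn : (K ⊓ H).Normal := by
    apply chief_normal_of_comm M H (K ⊓ H) H.normalCore hMH
      (le_inf (hLM.trans hMK) H.normalCore_le)
    · intro h hh d hd
      exact ⟨hK.conj_mem d hd.1 h, H.mul_mem (H.mul_mem hh hd.2) (H.inv_mem hh)⟩
    · exact hc
  have hle : K ⊓ H ≤ H.normalCore := Subgroup.normal_le_normalCore.mpr inf_le_right
  intro k hk
  have hg : k ∈ ((M ⊔ H : Subgroup G) : Set G) := by rw [hMH]; trivial
  rw [Subgroup.normal_mul] at hg
  obtain ⟨m, hm, h, hh, rfl⟩ := hg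
  have hhK : h ∈ K := by
    have : h = m⁻¹ * (m * h) := by group
    rw [this]
    exact K.mul_mem (K.inv_mem (hMK hm)) hk
  exact M.mul_mem hm (hLM (hle ⟨hhK, hh⟩))

/-- The two chief factors above the core of a non-normal maximal subgroup with solvable
quotient: `M / L` is an abelian `p`-section complemented by `H`, and `K / M` is a nontrivial
section of order prime to `p`, and `K ⊓ H` does not centralize `M` modulo `L`. -/
theorem coatom_chief_package [Finite G] (H : Subgroup G) (hmax : IsCoatom H)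
    (hsolv : Group.IsSolvable (G ⧸ H.normalCore)) (hne : H.normalCore ≠ H) :
    ∃ (M K : Subgroup G) (q s : ℕ), M.Normal ∧ K.Normal ∧ H.normalCore ≤ M ∧ M ≤ K ∧ M ≠ K ∧
      M ⊓ H = H.normalCore ∧ M ⊔ H = ⊤ ∧ Nat.card M = Nat.card H.normalCore * q ∧
      Nat.card K = Nat.card M * s ∧ Nat.Coprime q s ∧ 1 < q ∧
      (∀ a ∈ M, ∀ b ∈ M, a * b * a⁻¹ * b⁻¹ ∈ H.normalCore) ∧
      ¬ (∀ m ∈ M, ∀ x ∈ K ⊓ H, m * x * m⁻¹ * x⁻¹ ∈ H.normalCore) := by
  classical
  have hLtop : H.normalCore ≠ ⊤ := by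
    intro h
    apply hmax.1
    rw [eq_top_iff, ← h]
    exact H.normalCore_le
  obtain ⟨M, p, n, hMn, hLM, hML, hMmin, hMab, hp, hMp, hMcard⟩ :=
    exists_chief_over H.normalCore hsolv hLtop
  have := hMn
  have : Fact p.Prime := ⟨hp⟩
  have hMH' : ¬ M ≤ H := by
    intro h
    exact hML (le_antisymm (Subgroup.normal_le_normalCore.mpr h) hLM)
  have hMH : M ⊔ H = ⊤ := hmax.2 _ (right_lt_sup.mpr hMH')
  have hinf : M ⊓ H = H.normalCore := by
    have hn : (M ⊓ H).Normal := by
      apply chief_normal_of_comm M H (M ⊓ H) H.normalCore hMH (le_inf hLM H.normalCore_le)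
      · intro h hh d hd
        exact ⟨hMn.conj_mem d hd.1 h, H.mul_mem (H.mul_mem hh hd.2) (H.inv_mem hh)⟩
      · intro m hm d hd
        exact hMab m hm d hd.1
    exact le_antisymm (Subgroup.normal_le_normalCore.mpr inf_le_right)
      (le_inf hLM H.normalCore_le)
  have hMtop : M ≠ ⊤ := by
    intro h
    apply hne
    rw [← hinf, h, top_inf_eq]
  have hsolvM : Group.IsSolvable (G ⧸ M) := by
    have hle : H.normalCore ≤ M.comap (MonoidHom.id G) := hLM
    have := hsolv
    apply Group.isSolvable_of_surjective (f := QuotientGroup.map H.normalCore M (MonoidHom.id G) hle)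
    intro x
    obtain ⟨g, rfl⟩ := QuotientGroup.mk_surjective x
    exact ⟨QuotientGroup.mk g, rfl⟩
  obtain ⟨K, r, k, hKn, hMK, hKM, hKmin, hKab, hr, hKr, hKcard⟩ :=
    exists_chief_over M hsolvM hMtop
  have := hKn
  have hq1 : 1 < p ^ n := by
    rcases Nat.eq_zero_or_pos n with h0 | h0
    · exfalso
      rw [h0, pow_zero, mul_one] at hMcard
      exact hML (Subgroup.eq_of_le_of_card_ge hLM hMcard.le).symm
    · exact Nat.one_lt_pow h0.ne' hp.one_lt
  have hnc : ¬ (∀ m ∈ M, ∀ x ∈ K ⊓ H, m * x * m⁻¹ * x⁻¹ ∈ H.normalCore) := by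
    intro hc
    exact hKM (le_antisymm (chief_le_of_central M K H hMH hLM hMK hc) hMK)
  refine ⟨M, K, p ^ n, r ^ k, hMn, hKn, hLM, hMK, fun h => hKM h.symm, hinf, hMH, hMcard,
    hKcard, ?_, hq1, hMab, hnc⟩
  apply Nat.Coprime.pow
  rw [Nat.coprime_primes hp hr]
  rintro rfl
  apply hnc
  -- both sections are `p`-sections: `M / L` is centralized by `K / L`
  have hmk : Function.Surjective (QuotientGroup.mk' H.normalCore) :=
    QuotientGroup.mk'_surjective _
  have hAn : (M.map (QuotientGroup.mk' H.normalCore)).Normal := hMn.map _ hmk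
  have hBn : (K.map (QuotientGroup.mk' H.normalCore)).Normal := hKn.map _ hmk
  have hB : IsPGroup p (K.map (QuotientGroup.mk' H.normalCore)) := by
    rintro ⟨_, x, hx, rfl⟩
    refine ⟨2, ?_⟩
    apply Subtype.ext
    change (QuotientGroup.mk' H.normalCore x) ^ (p ^ 2) = 1
    rw [← map_pow]
    apply (QuotientGroup.eq_one_iff _).mpr
    rw [pow_two, pow_mul]
    exact hMp _ (hKr x hx)
  have hA1 : M.map (QuotientGroup.mk' H.normalCore) ≠ ⊥ := by
    intro h
    apply hML
    apply le_antisymm _ hLM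
    intro x hx
    have : QuotientGroup.mk' H.normalCore x ∈ M.map (QuotientGroup.mk' H.normalCore) :=
      ⟨x, hx, rfl⟩
    rw [h] at this
    exact (QuotientGroup.eq_one_iff x).mp (Subgroup.mem_bot.mp this)
  set A := M.map (QuotientGroup.mk' H.normalCore) with hA
  set B := K.map (QuotientGroup.mk' H.normalCore) with hBdef
  have hAB : A ≤ B := Subgroup.map_mono hMK
  have hZn : (A ⊓ Subgroup.centralizer (B : Set (G ⧸ H.normalCore))).Normal := inferInstance
  have hZ1 : A ⊓ Subgroup.centralizer (B : Set (G ⧸ H.normalCore)) ≠ ⊥ := by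
    obtain ⟨a, haA, ha1, hab⟩ := chief_exists_fixed p A B hB hAB hA1
    intro h
    apply ha1
    have : a ∈ A ⊓ Subgroup.centralizer (B : Set (G ⧸ H.normalCore)) := by
      refine ⟨haA, ?_⟩
      change a ∈ Subgroup.centralizer (B : Set (G ⧸ H.normalCore))
      rw [Subgroup.mem_centralizer_iff]
      intro b hb
      have := hab b hb
      calc b * a = (b * a * b⁻¹) * b := by group
        _ = a * b := by rw [this]
    rw [h] at this
    exact Subgroup.mem_bot.mp this
  have hM' := hMmin ((A ⊓ Subgroup.centralizer (B : Set (G ⧸ H.normalCore))).comap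
    (QuotientGroup.mk' H.normalCore)) (hZn.comap _) (by
      intro x hx
      rw [Subgroup.mem_comap]
      have : QuotientGroup.mk' H.normalCore x = 1 := (QuotientGroup.eq_one_iff x).mpr hx
      rw [this]; exact Subgroup.one_mem _) (by
      intro x hx
      rw [Subgroup.mem_comap] at hx
      obtain ⟨y, hy, hxy⟩ := hx.1
      have h1 : y⁻¹ * x ∈ H.normalCore := by
        apply (QuotientGroup.eq_one_iff _).mp
        change QuotientGroup.mk' H.normalCore (y⁻¹ * x) = 1
        rw [map_mul, map_inv, hxy]; group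
      have : x = y * (y⁻¹ * x) := by group
      rw [this]
      exact M.mul_mem hy (hLM h1))
  rcases hM' with h | h
  · exfalso
    apply hZ1
    have := Subgroup.map_comap_eq_self_of_surjective hmk
      (A ⊓ Subgroup.centralizer (B : Set (G ⧸ H.normalCore)))
    rw [h] at this
    rw [← this, eq_bot_iff]
    rintro _ ⟨x, hx, rfl⟩
    exact Subgroup.mem_bot.mpr ((QuotientGroup.eq_one_iff x).mpr hx)
  · intro m hm x hx
    have hm' : m ∈ (A ⊓ Subgroup.centralizer (B : Set (G ⧸ H.normalCore))).comap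
        (QuotientGroup.mk' H.normalCore) := by rw [h]; exact hm
    rw [Subgroup.mem_comap] at hm'
    have hcen : QuotientGroup.mk' H.normalCore m ∈
        Subgroup.centralizer (B : Set (G ⧸ H.normalCore)) := hm'.2
    rw [Subgroup.mem_centralizer_iff] at hcen
    have h2 := hcen (QuotientGroup.mk' H.normalCore x) ⟨x, hx.1, rfl⟩
    apply (QuotientGroup.eq_one_iff _).mp
    change QuotientGroup.mk' H.normalCore (m * x * m⁻¹ * x⁻¹) = 1
    rw [map_mul, map_mul, map_mul, map_inv, map_inv, ← h2]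
    group

end ChiefGT

end Cfsg.Agent.Helper15
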