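import Mathlib
import Cfsg.Prelude.Def_Characters
import Cfsg.Agent.Helper15.RelM1

set_option autoImplicit false

namespace Cfsg.Agent.Helper15

open Cfsg
open scoped ComplexConjugate

section RelM2

variable {G : Type*} [Group G] [Fintype G]

/-- Ramification over an abelian chief factor: an invariant irreducible character of `M` whose
restriction to `N` is homogeneous either restricts irreducibly or is fully ramified. -/
theorem chief_ramification (N M : Subgroup G) [hN : N.Normal]
    [hM : M.Normal] (hNM : N ≤ M) (hcomm : ∀ a ∈ M, ∀ b ∈ M, a * b * a⁻¹ * b⁻¹ ∈ N)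
    (hchief : ∀ M' : Subgroup G, M'.Normal → N ≤ M' → M' ≤ M → M' = N ∨ M' = M)
    (θ : M → ℂ) (hθ : IsIrrCharacter M θ) (hinv : ∀ g : G, Cfsg.Agent.Helper75.conjFun M g θ = θ)
    (φ : N → ℂ) (hφ : IsIrrCharacter N φ) (e : ℕ)
    (he : Cfsg.Agent.Helper75.resTo hNM θ = (e : ℂ) • φ) :
    e = 1 ∨ e * e = N.relIndex M := by
  classical
  have : Fintype M := Fintype.ofFinite _
  have : Fintype N := Fintype.ofFinite _
  have : Fintype (N.subgroupOf M) := Fintype.ofFinite _
  have hnorm : classInner (Cfsg.Agent.Helper75.resTo hNM θ) (Cfsg.Agent.Helper75.resTo hNM θ) =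
      ((e * e : ℕ) : ℂ) := by
    rw [he, classInner_smul_left, classInner_smul_right, irr_inner_self hφ, Complex.conj_natCast]
    push_cast
    ring
  let s : Set G := {g | ∃ hg : g ∈ M, θ ⟨g, hg⟩ ≠ 0} ∪ (N : Set G)
  have hs : ∀ g : G, ∀ x ∈ s, g * x * g⁻¹ ∈ s := by
    intro g x hx
    rcases hx with ⟨hxM, hx0⟩ | hxN
    · left
      refine ⟨hM.conj_mem x hxM g, ?_⟩
      have h1 := congrFun (hinv g) ⟨x, hxM⟩
      rw [Cfsg.Agent.Helper75.conjFun_apply] at h1
      rw [h1]
      exact hx0
    · right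
      exact hN.conj_mem x hxN g
  have hsM : s ⊆ M := by
    intro x hx
    rcases hx with ⟨hxM, -⟩ | hxN
    · exact hxM
    · exact hNM hxN
  have hNs : (N : Set G) ⊆ s := Set.subset_union_right
  rcases hchief (Subgroup.normalClosure s) inferInstance
    (fun x hx => Subgroup.subset_normalClosure (hNs hx))
    (Subgroup.normalClosure_le_normal hsM) with hS | hS
  · right
    have hvan : ∀ m : M, (m : G) ∉ N → θ m = 0 := by
      intro m hm
      by_contra h0
      apply hm
      have : (m : G) ∈ Subgroup.normalClosure s :=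
        Subgroup.subset_normalClosure (Or.inl ⟨m.2, h0⟩)
      rwa [hS] at this
    have h1 : ∑ m : M, Complex.normSq (θ m) = (Nat.card M : ℝ) := by
      have h := sum_normSq_eq_inner θ
      rw [irr_inner_self hθ, mul_one] at h
      exact_mod_cast h
    have h2 : ∑ n : N, Complex.normSq (Cfsg.Agent.Helper75.resTo hNM θ n) =
        (Nat.card N : ℝ) * ((e * e : ℕ) : ℝ) := by
      have h := sum_normSq_eq_inner (Cfsg.Agent.Helper75.resTo hNM θ)
      rw [hnorm] at h
      exact_mod_cast h
    have h3 : ∑ n : N, Complex.normSq (Cfsg.Agent.Helper75.resTo hNM θ n) =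
        ∑ m : M, Complex.normSq (θ m) := by
      apply Fintype.sum_of_injective (fun n : N => (⟨n, hNM n.2⟩ : M))
      · intro a b hab
        apply Subtype.ext
        exact congrArg (fun m : M => (m : G)) hab
      · intro m hm
        rw [hvan m, map_zero]
        intro hmN
        exact hm ⟨⟨m, hmN⟩, rfl⟩
      · intro n
        rfl
    have h4 : Nat.card N * N.relIndex M = Nat.card M := by
      have := Subgroup.relIndex_mul_relIndex (⊥ : Subgroup G) N M bot_le hNM
      rwa [Subgroup.relIndex_bot_left, Subgroup.relIndex_bot_left] at this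
    have h5 : (Nat.card N : ℝ) * ((e * e : ℕ) : ℝ) = (Nat.card N : ℝ) * (N.relIndex M : ℝ) := by
      rw [← h2, h3, h1, ← h4]
      push_cast
      ring
    have hN0 : (Nat.card N : ℝ) ≠ 0 := by exact_mod_cast Nat.card_pos.ne'
    have h6 := mul_left_cancel₀ hN0 h5
    exact_mod_cast h6
  · left
    have hcl : Subgroup.normalClosure s = Subgroup.closure s :=
      normalClosure_eq_closure_of_invariant s hs
    have hgen : ∀ U : Subgroup M, N.subgroupOf M ≤ U → (∀ x, θ x ≠ 0 → x ∈ U) → U = ⊤ := by
      intro U hYU hsupp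
      have h1 : Subgroup.closure s ≤ U.map M.subtype := by
        rw [Subgroup.closure_le]
        intro x hx
        rcases hx with ⟨hxM, hx0⟩ | hxN
        · exact Subgroup.mem_map.mpr ⟨⟨x, hxM⟩, hsupp _ hx0, rfl⟩
        · exact Subgroup.mem_map.mpr ⟨⟨x, hNM hxN⟩, hYU (Subgroup.mem_subgroupOf.mpr hxN), rfl⟩
      rw [← hcl, hS] at h1
      rw [eq_top_iff]
      intro m _
      obtain ⟨u, hu, hum⟩ := Subgroup.mem_map.mp (h1 m.2)
      have : u = m := Subtype.ext hum
      rwa [← this]
    have hcomm' : ∀ a b : M, a * b * a⁻¹ * b⁻¹ ∈ N.subgroupOf M := by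
      intro a b
      rw [Subgroup.mem_subgroupOf]
      exact hcomm a a.2 b b.2
    have h1 := ram_count (N.subgroupOf M) hcomm' θ hθ hgen
    have h2 := Cfsg.Agent.Helper75.classInner_subgroupOf hNM θ (Cfsg.Agent.Helper75.resTo hNM θ)
    have h3 : (fun x : ↥(N.subgroupOf M) =>
        Cfsg.Agent.Helper75.resTo hNM θ (Subgroup.subgroupOfEquivOfLe hNM x)) =
        fun x : ↥(N.subgroupOf M) => θ x := by
      funext x
      rfl
    rw [h3, h1, hnorm] at h2
    have h4 : e * e = 1 := by exact_mod_cast h2.symm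
    exact Nat.eq_one_of_mul_eq_one_right h4

end RelM2

end Cfsg.Agent.Helper15
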