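import Mathlib
import Cfsg.Prelude.Def_Characters
import Cfsg.Agent.Helper15.RelM2
import Cfsg.Agent.Helper15.ChiefGT
import Cfsg.Agent.Helper3.BrauerQE
import Cfsg.Agent.Helper3.IndFun
import Cfsg.Agent.Helper75.Ito
import Cfsg.Agent.Helper79.Quotient

set_option autoImplicit false

namespace Cfsg.Agent.Helper15

open Cfsg
open scoped ComplexConjugate

section RelM3

/-- The hypothesis that chief factors of all subgroups above `N` have non-square order. -/
def NonSqChief {G : Type*} [Group G] (N : Subgroup G) : Prop :=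
  ∀ (H K L : Subgroup G), N ≤ L → L < K → K ≤ H → (∀ h ∈ H, ∀ k ∈ K, h * k * h⁻¹ ∈ K) →
    (∀ h ∈ H, ∀ l ∈ L, h * l * h⁻¹ ∈ L) →
    (∀ M : Subgroup G, L ≤ M → M ≤ K → (∀ h ∈ H, ∀ m ∈ M, h * m * h⁻¹ ∈ M) → M = L ∨ M = K) →
    ¬ IsSquare (L.relIndex K)

/-- `χ` is a relative M-character with respect to `N`. -/
def RelM {G : Type*} [Group G] [Fintype G] (N : Subgroup G) (χ : G → ℂ) : Prop :=
  ∃ (H : Subgroup G) (hNH : N ≤ H) (ψ : H → ℂ), IsIrrCharacter H ψ ∧ indFun H ψ = χ ∧
    IsIrrCharacter N (fun n : N => ψ ⟨(n : G), hNH n.2⟩)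

variable {G : Type*} [Group G]

theorem nonSqChief_of_le (N M : Subgroup G) (hNM : N ≤ M) (h : NonSqChief N) : NonSqChief M :=
  fun H K L hML => h H K L (le_trans hNM hML)

theorem nonSqChief_subgroupOf (N T : Subgroup G) (hNT : N ≤ T) (h : NonSqChief N) :
    NonSqChief (N.subgroupOf T) := by
  intro H' K' L' hNL hLK hKH hK hL hch
  have hinj := T.subtype_injective
  have h1 := h (H'.map T.subtype) (K'.map T.subtype) (L'.map T.subtype)
    (fun n hn => Subgroup.mem_map.mpr ⟨⟨n, hNT hn⟩, hNL (Subgroup.mem_subgroupOf.mpr hn), rfl⟩)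
    ((Subgroup.map_lt_map_iff_of_injective hinj).mpr hLK)
    (Subgroup.map_mono hKH)
    (by
      rintro _ ⟨h', hh', rfl⟩ _ ⟨k', hk', rfl⟩
      exact Subgroup.mem_map.mpr ⟨h' * k' * h'⁻¹, hK h' hh' k' hk', rfl⟩)
    (by
      rintro _ ⟨h', hh', rfl⟩ _ ⟨l', hl', rfl⟩
      exact Subgroup.mem_map.mpr ⟨h' * l' * h'⁻¹, hL h' hh' l' hl', rfl⟩)
    (by
      intro M hLM hMK hM
      have hMT : M ≤ T := le_trans hMK (Subgroup.map_subtype_le K')
      have h2 := hch (M.subgroupOf T)
        (fun l hl => Subgroup.mem_subgroupOf.mpr (hLM (Subgroup.mem_map.mpr ⟨l, hl, rfl⟩)))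
        (fun m hm => by
          obtain ⟨k, hk, hkm⟩ := Subgroup.mem_map.mp (hMK (Subgroup.mem_subgroupOf.mp hm))
          have : k = m := Subtype.ext hkm
          rwa [← this])
        (fun h' hh' m hm => by
          rw [Subgroup.mem_subgroupOf] at hm ⊢
          exact hM h' (Subgroup.mem_map.mpr ⟨h', hh', rfl⟩) m hm)
      rcases h2 with h2 | h2
      · left
        rw [← h2, Subgroup.map_subgroupOf_eq_of_le hMT]
      · right
        rw [← h2, Subgroup.map_subgroupOf_eq_of_le hMT])
  rwa [Subgroup.relIndex_map_map_of_injective _ _ hinj] at h1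

theorem isSolvable_quot_subgroupOf (N T : Subgroup G) [hN : N.Normal]
    [(N.subgroupOf T).Normal] (h : Group.IsSolvable (G ⧸ N)) :
    Group.IsSolvable (↥T ⧸ N.subgroupOf T) := by
  let f : ↥T ⧸ N.subgroupOf T →* G ⧸ N :=
    QuotientGroup.map (N.subgroupOf T) N T.subtype (fun x hx => hx)
  have hf : Function.Injective f := by
    rw [injective_iff_map_eq_one]
    intro x hx
    induction x using QuotientGroup.induction_on with
    | H t =>
      have h1 : f (QuotientGroup.mk t) = QuotientGroup.mk (t : G) := rfl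
      rw [h1, QuotientGroup.eq_one_iff] at hx
      rw [QuotientGroup.eq_one_iff]
      exact Subgroup.mem_subgroupOf.mpr hx
  exact Group.isSolvable_of_isSolvable_injective hf

theorem isSolvable_quot_of_le (N M : Subgroup G) [hN : N.Normal] [hM : M.Normal] (hNM : N ≤ M)
    (h : Group.IsSolvable (G ⧸ N)) : Group.IsSolvable (G ⧸ M) := by
  let f : G ⧸ N →* G ⧸ M := QuotientGroup.map N M (MonoidHom.id G) (fun x hx => hNM hx)
  have hf : Function.Surjective f := by
    intro y
    induction y using QuotientGroup.induction_on with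
    | H g => exact ⟨QuotientGroup.mk g, rfl⟩
  exact Group.isSolvable_of_surjective hf

variable [Fintype G]

/-- Induction from the whole group. -/
theorem indFun_top_restrict (χ : G → ℂ) (hχ : IsClassFunction G χ) :
    indFun (⊤ : Subgroup G) (fun h => χ h) = χ := by
  funext g
  unfold indFun
  have : ∀ x : G, extendByZero (⊤ : Subgroup G) (fun h => χ h) (x⁻¹ * g * x) = χ g := by
    intro x
    rw [Cfsg.Agent.Helper3.extendByZero_of_mem _ _ (Subgroup.mem_top _)]
    have := hχ g x⁻¹
    rwa [inv_inv] at this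
  simp only [this, Finset.sum_const, Finset.card_univ, nsmul_eq_mul]
  rw [Subgroup.card_top, Nat.card_eq_fintype_card]
  have hG0 : (Fintype.card G : ℂ) ≠ 0 := by exact_mod_cast Fintype.card_ne_zero
  field_simp

theorem relM_of_restrict_irr (N : Subgroup G) (χ : G → ℂ) (hχ : IsIrrCharacter G χ)
    (hN : IsIrrCharacter N (fun n : N => χ n)) : RelM N χ := by
  refine ⟨⊤, le_top, fun h => χ h, ?_, ?_, hN⟩
  · exact (Cfsg.Agent.Helper79.isIrrCharacter_mulEquiv (Subgroup.topEquiv (G := G))).mpr hχ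
  · exact indFun_top_restrict χ (isClassFunction_of_isChar (isChar_of_irr hχ))

/-- Transport of a relative M-character of a subgroup. -/
theorem relM_of_subgroup (N T : Subgroup G) (hNT : N ≤ T) [Fintype T] (ψ : T → ℂ) (χ : G → ℂ)
    (hind : indFun T ψ = χ) (h : RelM (N.subgroupOf T) ψ) : RelM N χ := by
  obtain ⟨H', hNH', ψ', hψ', hind', hres'⟩ := h
  have hNH : N ≤ H'.map T.subtype := fun n hn =>
    Subgroup.mem_map.mpr ⟨⟨n, hNT hn⟩, hNH' (Subgroup.mem_subgroupOf.mpr hn), rfl⟩
  refine ⟨H'.map T.subtype, hNH,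
    fun h => ψ' ((H'.equivMapOfInjective T.subtype T.subtype_injective).symm h), ?_, ?_, ?_⟩
  · exact (Cfsg.Agent.Helper79.isIrrCharacter_mulEquiv
      (H'.equivMapOfInjective T.subtype T.subtype_injective).symm).mpr hψ'
  · rw [← Cfsg.Agent.Helper3.indFun_trans_map_fun T H' ψ', hind', hind]
  · have h1 : (fun n : N => ψ' ((H'.equivMapOfInjective T.subtype T.subtype_injective).symm
        ⟨(n : G), hNH n.2⟩)) =
        fun n : N => (fun n' : N.subgroupOf T => ψ' ⟨(n' : T), hNH' n'.2⟩)
          ((Subgroup.subgroupOfEquivOfLe hNT).symm n) := by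
      funext n
      congr 1
      apply Subtype.ext
      apply Subtype.ext
      have h3 := Subgroup.coe_equivMapOfInjective_apply H' T.subtype
        T.subtype_injective ((H'.equivMapOfInjective T.subtype
          T.subtype_injective).symm ⟨(n : G), hNH n.2⟩)
      rw [MulEquiv.apply_symm_apply] at h3
      exact h3.symm
    rw [h1]
    exact (Cfsg.Agent.Helper79.isIrrCharacter_mulEquiv
      (Subgroup.subgroupOfEquivOfLe hNT).symm).mpr hres'

end RelM3

end Cfsg.Agent.Helper15
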