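import Mathlib
import Cfsg.Prelude.Def_Characters
import Cfsg.Agent.Helper15.RelM3

set_option autoImplicit false

namespace Cfsg.Agent.Helper15

open Cfsg
open scoped ComplexConjugate
open Cfsg.Agent.Helper75

section RelM4

variable {G : Type*} [Group G] [Fintype G]

/-- The Clifford dichotomy: either the restriction to a normal subgroup is homogeneous with an
invariant constituent, or the character is induced from a proper subgroup containing it. -/
theorem clifford_step (N : Subgroup G) [hN : N.Normal] [Fintype N] (χ : G → ℂ)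
    (hχ : IsIrrCharacter G χ) (φ : N → ℂ) (hφ : IsIrrCharacter N φ)
    (hne : classInner (fun n : N => χ n) φ ≠ 0) :
    ((∀ g : G, conjFun N g φ = φ) ∧ ∃ e : ℕ, 0 < e ∧ (fun n : N => χ n) = (e : ℂ) • φ) ∨
    ∃ (T : Subgroup G) (ψ : T → ℂ), T ≠ ⊤ ∧ N ≤ T ∧ IsIrrCharacter T ψ ∧ indFun T ψ = χ := by
  classical
  have hχc : IsCharacter G χ := isChar_of_irr hχ
  by_cases hT : inertia N φ = ⊤
  · left
    have hinv : ∀ g : G, conjFun N g φ = φ := by
      intro g
      apply (mem_inertia N φ g).mp
      rw [hT]; trivial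
    obtain ⟨e, he0, he, -⟩ := restrict_eq_natCast_smul_of_invariant N hχ hφ hne hinv
    exact ⟨hinv, e, he0, he⟩
  · right
    have : Fintype (inertia N φ) := Fintype.ofFinite _
    have hNT : N ≤ inertia N φ :=
      le_inertia N φ (isClassFunction_of_isChar (isChar_of_irr hφ))
    obtain ⟨τ, hτ, hτ1, hτ2⟩ := exists_irr_over hNT (isChar_of_irr hφ) hχc hne
    have hcl := clifford_correspondence hNT hφ (fun g => mem_inertia N φ g) hτ hχ hτ2 hτ1
    exact ⟨_, τ, hT, hNT, hτ, hcl.1⟩

/-- Passing from a relative M-character with respect to `M` to one with respect to `N ≤ M`. -/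
theorem relM_step_up (N M : Subgroup G) (hNM : N ≤ M) [Fintype M] (χ : G → ℂ)
    (hχ : IsIrrCharacter G χ) (θ : M → ℂ) (hθ : IsIrrCharacter M θ) (e₁ : ℕ)
    (he₁ : (fun m : M => χ m) = (e₁ : ℂ) • θ) (hθN : IsIrrCharacter N (resTo hNM θ))
    (h : RelM M χ) : RelM N χ := by
  classical
  obtain ⟨H, hMH, ψ, hψ, hind, hres⟩ := h
  have : Fintype H := Fintype.ofFinite _
  have : Fintype (IrrCharacter H) := Fintype.ofFinite _
  refine ⟨H, le_trans hNM hMH, ψ, hψ, hind, ?_⟩
  have hχc := isChar_of_irr hχ
  have hχcl := isClassFunction_of_isChar hχc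
  obtain ⟨m, k, hm, hk, hsum⟩ := exists_restrict_mults hMH (isChar_of_irr hres) hχc
  have hm1 : m ⟨ψ, hψ⟩ = 1 := by
    have h1 := hm ⟨ψ, hψ⟩
    have h2 := Cfsg.Agent.Helper3.frobenius_reciprocity H ψ χ hχcl
    rw [hind, irr_inner_self hχ] at h2
    rw [classInner_conj_symm, ← h2] at h1
    simp only [map_one] at h1
    exact_mod_cast h1.symm
  have hk1 : k ⟨ψ, hψ⟩ = 1 := by
    have h1 := hk ⟨ψ, hψ⟩
    have h2 : classInner (resTo hMH ψ) (fun n : M => ψ ⟨(n : G), hMH n.2⟩) = 1 :=
      irr_inner_self hres
    rw [h2] at h1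
    exact_mod_cast h1.symm
  have hpos : classInner (fun n : M => χ n) (fun n : M => ψ ⟨(n : G), hMH n.2⟩) ≠ 0 := by
    rw [hsum]
    have h1 : 1 ≤ ∑ ψ' : IrrCharacter H, m ψ' * k ψ' := by
      calc 1 = m ⟨ψ, hψ⟩ * k ⟨ψ, hψ⟩ := by rw [hm1, hk1]
        _ ≤ _ := Finset.single_le_sum (f := fun ψ' => m ψ' * k ψ')
            (fun _ _ => Nat.zero_le _) (Finset.mem_univ _)
    have h2 : (∑ ψ' : IrrCharacter H, m ψ' * k ψ') ≠ 0 := by omega
    exact_mod_cast h2
  have heq : θ = fun n : M => ψ ⟨(n : G), hMH n.2⟩ := by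
    by_contra hne
    apply hpos
    rw [he₁, classInner_smul_left, irr_inner_ne hθ hres hne, mul_zero]
  have h3 : (fun n : N => ψ ⟨(n : G), (le_trans hNM hMH) n.2⟩) = resTo hNM θ := by
    funext n
    rw [resTo_apply, heq]
  rw [h3]
  exact hθN

end RelM4

section RelMInd

universe u

/-- The statement of the theorem on relative M-groups for a fixed index. -/
def RelMP (k : ℕ) : Prop :=
  ∀ (G : Type u) [Group G] [Fintype G] (N : Subgroup G) [N.Normal], N.index = k →
    Group.IsSolvable (G ⧸ N) → NonSqChief N → ∀ χ : G → ℂ, IsIrrCharacter G χ → RelM N χ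

theorem relM_reduce {G : Type u} [Group G] [Fintype G] (N : Subgroup G) [hN : N.Normal]
    (hsolv : Group.IsSolvable (G ⧸ N)) (hns : NonSqChief N)
    (IH : ∀ k' < N.index, RelMP.{u} k') (χ : G → ℂ) (T : Subgroup G) (ψ : T → ℂ) (hT : T ≠ ⊤)
    (hNT : N ≤ T) (hψ : IsIrrCharacter T ψ) (hind : indFun T ψ = χ) : RelM N χ := by
  classical
  have : Fintype T := Fintype.ofFinite _
  have hnorm : (N.subgroupOf T).Normal := hN.subgroupOf T
  have hidx : (N.subgroupOf T).index < N.index := by
    have h1 : N.relIndex T * T.index = N.index := Subgroup.relIndex_mul_index hNT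
    have h2 : T.index ≠ 1 := fun h => hT (Subgroup.index_eq_one.mp h)
    have h3 : T.index ≠ 0 := Subgroup.index_ne_zero_of_finite
    have h4 : N.index ≠ 0 := Subgroup.index_ne_zero_of_finite
    have h5 : N.relIndex T ≠ 0 := fun h => h4 (by rw [← h1, h, zero_mul])
    show N.relIndex T < N.index
    rw [← h1]
    have h6 : 2 ≤ T.index := by omega
    nlinarith [Nat.pos_of_ne_zero h5]
  have h := IH _ hidx ↥T (N.subgroupOf T) rfl (isSolvable_quot_subgroupOf N T hsolv)
    (nonSqChief_subgroupOf N T hNT hns) ψ hψ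
  exact relM_of_subgroup N T hNT ψ χ hind h

theorem relM_all (k : ℕ) : RelMP.{u} k := by
  induction k using Nat.strong_induction_on with
  | _ k IH =>
    intro G _ _ N hN hidx hsolv hns χ hχ
    classical
    subst hidx
    have : Fintype N := Fintype.ofFinite _
    have hχc := isChar_of_irr hχ
    have hχcl := isClassFunction_of_isChar hχc
    by_cases hirrN : IsIrrCharacter N (fun n : N => χ n)
    · exact relM_of_restrict_irr N χ hχ hirrN
    · have hχN0 : (fun n : N => χ n) ≠ 0 := fun h =>
        Cfsg.Agent.Helper80.irr_one_ne_zero ⟨χ, hχ⟩ (congrFun h 1)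
      obtain ⟨φ, hφ⟩ := exists_constituent
        (isClassFunction_of_isChar (Cfsg.Agent.Helper79.isCharacter_restrict hχc N)) hχN0
      rcases clifford_step N χ hχ φ φ.2 hφ with ⟨-, e, he0, he⟩ | ⟨T, ψ, hT, hNT, hψ, hind⟩
      · -- homogeneous over `N`
        have hNtop : N ≠ ⊤ := by
          intro hN'
          apply hirrN
          have hsurj : Function.Surjective N.subtype := by
            intro g
            exact ⟨⟨g, by rw [hN']; exact Subgroup.mem_top g⟩, rfl⟩
          exact Cfsg.Agent.Helper79.isIrrCharacter_comp N.subtype hsurj hχ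
        obtain ⟨M, p, n, hMn, hNM, hMne, hchief, hcomm, -, -, -⟩ :=
          exists_chief_over N hsolv hNtop
        have : Fintype M := Fintype.ofFinite _
        have hχM0 : (fun m : M => χ m) ≠ 0 := fun h =>
          Cfsg.Agent.Helper80.irr_one_ne_zero ⟨χ, hχ⟩ (congrFun h 1)
        obtain ⟨θ, hθ⟩ := exists_constituent
          (isClassFunction_of_isChar (Cfsg.Agent.Helper79.isCharacter_restrict hχc M)) hχM0
        rcases clifford_step M χ hχ θ θ.2 hθ with
          ⟨hinv, e₁, he₁0, he₁⟩ | ⟨T, ψ, hT, hMT, hψ, hind⟩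
        · -- homogeneous over `M`
          obtain ⟨e', he'⟩ := inner_nat (isCharacter_resTo hNM (isChar_of_irr θ.2))
            (isChar_of_irr φ.2)
          have he₁c : (e₁ : ℂ) ≠ 0 := by exact_mod_cast he₁0.ne'
          have hres : resTo hNM (θ : M → ℂ) = ((e : ℂ) / (e₁ : ℂ)) • (φ : N → ℂ) := by
            funext x
            have h1 := congrFun he₁ ⟨x, hNM x.2⟩
            have h2 := congrFun he x
            simp only [Pi.smul_apply, smul_eq_mul] at h1 h2 ⊢
            have h3 : (e₁ : ℂ) * (θ : M → ℂ) ⟨x, hNM x.2⟩ = (e : ℂ) * (φ : N → ℂ) x := by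
              rw [← h1]; exact h2
            rw [resTo_apply]
            field_simp
            rw [mul_comm]
            exact h3
          have hres' : resTo hNM (θ : M → ℂ) = (e' : ℂ) • (φ : N → ℂ) := by
            rw [hres, classInner_smul_left, irr_inner_self φ.2, mul_one] at he'
            rw [hres, he']
          rcases chief_ramification N M hNM hcomm hchief θ θ.2 hinv φ φ.2 e' hres' with h1 | h1
          · -- the restriction of `θ` is irreducible
            have hθN : IsIrrCharacter N (resTo hNM (θ : M → ℂ)) := by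
              rw [hres', h1, Nat.cast_one, one_smul]
              exact φ.2
            have hidx : M.index < N.index := by
              have h2 : N.relIndex M * M.index = N.index := Subgroup.relIndex_mul_index hNM
              have h3 : M.index ≠ 0 := Subgroup.index_ne_zero_of_finite
              have h4 : N.relIndex M ≠ 1 := by
                intro h
                exact hMne (le_antisymm (Subgroup.relIndex_eq_one.mp h) hNM)
              have h5 : N.index ≠ 0 := Subgroup.index_ne_zero_of_finite
              have h6 : N.relIndex M ≠ 0 := fun h => h5 (by rw [← h2, h, zero_mul])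
              rw [← h2]
              have h7 : 2 ≤ N.relIndex M := by omega
              nlinarith [Nat.pos_of_ne_zero h3]
            have h2 := IH _ hidx G M rfl (isSolvable_quot_of_le N M hNM hsolv)
              (nonSqChief_of_le N M hNM hns) χ hχ
            exact relM_step_up N M hNM χ hχ θ θ.2 e₁ he₁ hθN h2
          · -- fully ramified: contradiction
            exfalso
            apply hns ⊤ M N le_rfl (lt_of_le_of_ne hNM (Ne.symm hMne)) le_top
              (fun h _ k hk => hMn.conj_mem k hk h) (fun h _ l hl => hN.conj_mem l hl h)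
              (fun M' hNM' hM'M hM' =>
                hchief M' ⟨fun m hm g => hM' g (Subgroup.mem_top g) m hm⟩ hNM' hM'M)
            exact ⟨e', h1.symm⟩
        · exact relM_reduce N hsolv hns IH χ T ψ hT (le_trans hNM hMT) hψ hind
      · exact relM_reduce N hsolv hns IH χ T ψ hT hNT hψ hind

end RelMInd

end Cfsg.Agent.Helper15
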