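import Mathlib
import Cfsg.Prelude.Def_Characters
import Cfsg.Agent.Helper15.AGrp1
import Cfsg.Agent.Helper15.RelM4
import Cfsg.Agent.Helper15.MassM
import Cfsg.Agent.Helper3.Burnside2

set_option autoImplicit false

namespace Cfsg.Agent.Helper15

open Cfsg
open scoped ComplexConjugate
open Cfsg.Agent.Helper75

section AGrp2

variable {H : Type*} [Group H] [Fintype H]

/-- If an irreducible character `ψ` restricting irreducibly to the normal subgroup `N` is
induced from `η` on `T`, then `η` restricts irreducibly to `N ⊓ T`. -/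
theorem restrict_irr_of_induced (N T : Subgroup H) [hN : N.Normal] (η : T → ℂ)
    (hη : IsIrrCharacter T η) (ψ : H → ℂ) (hψ : IsIrrCharacter H ψ) (hind : indFun T η = ψ)
    (hφ : IsIrrCharacter N (fun n : N => ψ n)) :
    IsIrrCharacter ↥(N ⊓ T) (resTo (inf_le_right : N ⊓ T ≤ T) η) := by
  classical
  have : Fintype N := Fintype.ofFinite _
  have : Fintype T := Fintype.ofFinite _
  have : Fintype ↥(N ⊓ T) := Fintype.ofFinite _
  have : Fintype (IrrCharacter T) := Fintype.ofFinite _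
  have hψc := isChar_of_irr hψ
  have hψcl := isClassFunction_of_isChar hψc
  have hθc : IsCharacter ↥(N ⊓ T) (resTo (inf_le_right : N ⊓ T ≤ T) η) :=
    isCharacter_resTo _ (isChar_of_irr hη)
  have hM := subInner_indFun_normal N T η ψ hψcl
  rw [hind, subInner_eq_classInner N, irr_inner_self hφ, mul_one,
    subInner_eq_classInner (N ⊓ T)] at hM
  have hfun : (fun n : ↥(N ⊓ T) => extendByZero T η n) =
      resTo (inf_le_right : N ⊓ T ≤ T) η := by
    funext n
    rw [Cfsg.Agent.Helper3.extendByZero_of_mem T η (inf_le_right (a := N) n.2)]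
    rfl
  rw [hfun] at hM
  obtain ⟨m, k, hm, hk, hsum⟩ := exists_restrict_mults (inf_le_right : N ⊓ T ≤ T) hθc hψc
  have hm1 : m ⟨η, hη⟩ = 1 := by
    have h1 := hm ⟨η, hη⟩
    have h2 := Cfsg.Agent.Helper3.frobenius_reciprocity T η ψ hψcl
    rw [hind, irr_inner_self hψ] at h2
    rw [classInner_conj_symm, ← h2] at h1
    simp only [map_one] at h1
    exact_mod_cast h1.symm
  have hk0 : k ⟨η, hη⟩ ≠ 0 := by
    intro h0
    have h1 := hk ⟨η, hη⟩
    rw [h0, Nat.cast_zero] at h1
    have h2 := classInner_self_eq_zero h1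
    have h3 := congrFun h2 1
    have h4 : resTo (inf_le_right : N ⊓ T ≤ T) η 1 = η 1 := rfl
    rw [h4] at h3
    exact Cfsg.Agent.Helper80.irr_one_ne_zero ⟨η, hη⟩ h3
  have hle : k ⟨η, hη⟩ ≤ ∑ γ : IrrCharacter T, m γ * k γ := by
    calc k ⟨η, hη⟩ = m ⟨η, hη⟩ * k ⟨η, hη⟩ := by rw [hm1, one_mul]
      _ ≤ _ := Finset.single_le_sum (f := fun γ => m γ * k γ)
          (fun _ _ => Nat.zero_le _) (Finset.mem_univ _)
  have hconj : classInner (resTo (inf_le_right : N ⊓ T ≤ T) η) (fun n : ↥(N ⊓ T) => ψ n) =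
      ((∑ γ : IrrCharacter T, m γ * k γ : ℕ) : ℂ) := by
    rw [classInner_conj_symm, hsum, Complex.conj_natCast]
  rw [hconj] at hM
  -- the counting
  have hT0 : (Nat.card T : ℂ) ≠ 0 := by exact_mod_cast Nat.card_pos.ne'
  have hnat : Nat.card N * Nat.card T =
      Nat.card H * (Nat.card ↥(N ⊓ T) * ∑ γ : IrrCharacter T, m γ * k γ) := by
    have h1 : (Nat.card N : ℂ) * (Nat.card T : ℂ) = (Nat.card H : ℂ) *
        ((Nat.card ↥(N ⊓ T) : ℂ) * ((∑ γ : IrrCharacter T, m γ * k γ : ℕ) : ℂ)) := by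
      rw [hM]
      field_simp
    exact_mod_cast h1
  have hidx : Nat.card T ≤ Nat.card ↥(N ⊓ T) * N.index := by
    have h1 := Subgroup.relIndex_mul_relIndex (⊥ : Subgroup H) (N ⊓ T) T bot_le inf_le_right
    rw [Subgroup.relIndex_bot_left, Subgroup.relIndex_bot_left, Subgroup.inf_relIndex_right] at h1
    rw [← h1]
    apply Nat.mul_le_mul_left
    exact Nat.le_of_dvd (Nat.pos_of_ne_zero Subgroup.index_ne_zero_of_finite)
      (Subgroup.relIndex_dvd_index_of_normal N T)
  have hcard : Nat.card N * N.index = Nat.card H := Subgroup.card_mul_index N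
  have hsum1 : ∑ γ : IrrCharacter T, m γ * k γ ≤ 1 := by
    by_contra hcon
    push Not at hcon
    have h1 : Nat.card N * Nat.card T ≤ Nat.card H * Nat.card ↥(N ⊓ T) := by
      calc Nat.card N * Nat.card T ≤ Nat.card N * (Nat.card ↥(N ⊓ T) * N.index) :=
            Nat.mul_le_mul_left _ hidx
        _ = Nat.card H * Nat.card ↥(N ⊓ T) := by rw [← hcard]; ring
    have h2 : 0 < Nat.card H * Nat.card ↥(N ⊓ T) :=
      Nat.mul_pos Nat.card_pos Nat.card_pos
    rw [hnat, ← mul_assoc] at h1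
    nlinarith
  have hk1 : k ⟨η, hη⟩ = 1 := by omega
  apply isIrr_of_inner_one hθc
  have h1 := hk ⟨η, hη⟩
  rw [hk1] at h1
  simpa using h1

end AGrp2

end Cfsg.Agent.Helper15
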