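import Mathlib
import Cfsg.Prelude.Def_Characters
import Cfsg.Agent.Helper15.AGrp2

set_option autoImplicit false

namespace Cfsg.Agent.Helper15

open Cfsg
open scoped ComplexConjugate
open Cfsg.Agent.Helper75

section AGrp3

variable {H : Type*} [Group H] [Fintype H]

/-- If `ψ` restricts irreducibly to the normal subgroup `N` with abelian Sylow subgroups and
homogeneously to every normal subgroup of `H` inside `N`, then `ψ` is linear. -/
theorem linear_of_all_homog [Group.IsSolvable H] (N : Subgroup H) [hN : N.Normal]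
    (hab : ∀ (p : ℕ) [Fact p.Prime] (P : Sylow p N), ∀ a ∈ P, ∀ b ∈ P, a * b = b * a)
    (ψ : H → ℂ) (hψ : IsIrrCharacter H ψ) (hφ : IsIrrCharacter N (fun n : N => ψ n))
    (hall : ∀ K : Subgroup H, K.Normal → K ≤ N →
      ∃ (ϑ : K → ℂ) (e : ℕ), IsIrrCharacter K ϑ ∧ (fun k : K => ψ k) = (e : ℂ) • ϑ) :
    ψ 1 = 1 := by
  classical
  have hψ1 : ψ 1 ≠ 0 := Cfsg.Agent.Helper80.irr_one_ne_zero ⟨ψ, hψ⟩
  obtain ⟨d, ρ, hirr, rfl⟩ := hψ
  have := hirr
  have hMn : (N ⊓ (ρ : H →* Module.End ℂ (Fin d → ℂ)).ker).Normal :=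
    Subgroup.normal_inf_normal _ _
  have hMmem : ∀ g, g ∈ N ⊓ (ρ : H →* Module.End ℂ (Fin d → ℂ)).ker ↔ g ∈ N ∧ ρ g = 1 := by
    intro g
    rw [Subgroup.mem_inf, MonoidHom.mem_ker]
  have hchar1 : ∀ g : H, ρ g = 1 → ρ.character g = ρ.character 1 := by
    intro g hg
    unfold Representation.character
    rw [hg, map_one ρ]
  -- the key step
  have step : ∀ K : Subgroup H, K.Normal → K ≤ N → K ≤ ⁅N, N⁆ →
      ⁅K, K⁆ ≤ N ⊓ (ρ : H →* Module.End ℂ (Fin d → ℂ)).ker →
      K ≤ N ⊓ (ρ : H →* Module.End ℂ (Fin d → ℂ)).ker := by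
    intro K hKn hKN hKc hKK
    have : Fintype K := Fintype.ofFinite _
    obtain ⟨ϑ, e, hϑ, he⟩ := hall K hKn hKN
    have hval : ∀ k : K, ρ.character (k : H) = (e : ℂ) * ϑ k := fun k => congrFun he k
    have he0 : (e : ℂ) ≠ 0 := by
      intro h0
      apply hψ1
      have := hval 1
      rw [h0, zero_mul] at this
      exact this
    have hk : ∀ y ∈ (⁅K, K⁆).subgroupOf K, ϑ y = ϑ 1 := by
      intro y hy
      have hyM := hKK (Subgroup.mem_subgroupOf.mp hy)
      have h1 : ρ.character (y : H) = ρ.character 1 := hchar1 _ ((hMmem _).mp hyM).2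
      have h2 := hval y
      have h3 := hval 1
      apply mul_left_cancel₀ he0
      rw [← h2, ← h3, h1]
      rfl
    have hcomm : ∀ a b : K, a * b * a⁻¹ * b⁻¹ ∈ (⁅K, K⁆).subgroupOf K := by
      intro a b
      rw [Subgroup.mem_subgroupOf]
      exact Subgroup.commutator_mem_commutator a.2 b.2
    have hϑ1 := irr_linear_of_comm_ker _ hcomm ϑ hϑ hk
    obtain ⟨f, hf⟩ := linChar_exists_hom ϑ ⟨isChar_of_irr hϑ, hϑ1⟩
    have hed : (e : ℂ) = (Module.finrank ℂ (Fin d → ℂ) : ℂ) := by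
      have h3 := hval 1
      rw [hϑ1, mul_one] at h3
      rw [← h3]
      exact Representation.char_one ρ
    have hscal : ∀ k ∈ K, ∃ ω : ℂ, ρ k = ω • (LinearMap.id : (Fin d → ℂ) →ₗ[ℂ] (Fin d → ℂ)) := by
      intro k hk'
      apply Cfsg.Agent.Helper3.rep_scalar_of_norm_eq ρ k
      have h2 := hval ⟨k, hk'⟩
      rw [h2, norm_mul, hf, Cfsg.Agent.Helper79.norm_hom_apply f, mul_one, hed]
      simp
    intro k hk'
    obtain ⟨ω, hω⟩ := hscal k hk'
    apply relTaunt N _ hab (hKc hk')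
    intro n hn
    rw [hMmem]
    refine ⟨?_, ?_⟩
    · have h1 : k * n * k⁻¹ * n⁻¹ = k * (n * k⁻¹ * n⁻¹) := by group
      rw [h1]
      exact N.mul_mem (hKN hk') (hN.conj_mem _ (N.inv_mem (hKN hk')) n)
    · have hkn : ρ (k * n) = ρ (n * k) := by
        rw [map_mul, map_mul, hω]
        ext v
        simp
      have h1 : k * n * k⁻¹ * n⁻¹ = (k * n) * (n * k)⁻¹ := by group
      rw [h1, map_mul, hkn, ← map_mul, mul_inv_cancel, map_one]
  -- the derived chain of `N`
  obtain ⟨D, hD0, hDs⟩ : ∃ D : ℕ → Subgroup H, D 0 = N ∧ ∀ j, D (j + 1) = ⁅D j, D j⁆ :=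
    ⟨fun j => Nat.rec N (fun _ A => ⁅A, A⁆) j, rfl, fun _ => rfl⟩
  have hDn : ∀ j, (D j).Normal := by
    intro j
    induction j with
    | zero => rw [hD0]; exact hN
    | succ j ih =>
      rw [hDs]
      exact Subgroup.commutator_normal (D j) (D j)
  have hDle : ∀ j, D (j + 1) ≤ D j := fun j => by
    rw [hDs]
    have := hDn j
    exact Subgroup.commutator_le_left (D j) (D j)
  have hDN : ∀ j, D j ≤ N := by
    intro j
    induction j with
    | zero => rw [hD0]
    | succ j ih => exact le_trans (hDle j) ih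
  have hD1 : ∀ j, 1 ≤ j → D j ≤ ⁅N, N⁆ := by
    intro j hj
    induction j, hj using Nat.le_induction with
    | base => rw [hDs, hD0]
    | succ j _ ih => exact le_trans (hDle j) ih
  have hDder : ∀ j, D j ≤ derivedSeries H j := by
    intro j
    induction j with
    | zero => rw [derivedSeries_zero]; exact le_top
    | succ j ih =>
      rw [hDs, derivedSeries_succ]
      exact Subgroup.commutator_mono ih ih
  obtain ⟨r, hr⟩ := (Group.IsSolvable.solvable : ∃ n, derivedSeries H n = ⊥)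
  have hQ : ∀ c, 1 ≤ r - c → D (r - c) ≤ N ⊓ (ρ : H →* Module.End ℂ (Fin d → ℂ)).ker := by
    intro c
    induction c with
    | zero =>
      intro _
      rw [Nat.sub_zero]
      exact le_trans (hDder r) (by rw [hr]; exact bot_le)
    | succ c ih =>
      intro h1
      have h2 : r - c = (r - (c + 1)) + 1 := by omega
      have h3 : D ((r - (c + 1)) + 1) ≤ N ⊓ (ρ : H →* Module.End ℂ (Fin d → ℂ)).ker := by
        rw [← h2]
        exact ih (by omega)
      exact step (D (r - (c + 1))) (hDn _) (hDN _) (hD1 _ h1) (by rw [← hDs]; exact h3)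
  have hNN : ⁅N, N⁆ ≤ N ⊓ (ρ : H →* Module.End ℂ (Fin d → ℂ)).ker := by
    rcases Nat.eq_zero_or_pos r with h0 | hpos
    · rw [h0, derivedSeries_zero] at hr
      intro x _
      have h1 : x ∈ (⊤ : Subgroup H) := Subgroup.mem_top x
      rw [hr] at h1
      rw [Subgroup.mem_bot.mp h1]
      exact Subgroup.one_mem _
    · have h1 := hQ (r - 1) (by omega)
      have h2 : r - (r - 1) = 1 := by omega
      rw [h2, hDs, hD0] at h1
      exact h1
  have : Fintype N := Fintype.ofFinite _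
  have hcommN : ∀ a b : N, a * b * a⁻¹ * b⁻¹ ∈
      (N ⊓ (ρ : H →* Module.End ℂ (Fin d → ℂ)).ker).subgroupOf N := by
    intro a b
    rw [Subgroup.mem_subgroupOf]
    exact hNN (Subgroup.commutator_mem_commutator a.2 b.2)
  have hkN : ∀ y ∈ (N ⊓ (ρ : H →* Module.End ℂ (Fin d → ℂ)).ker).subgroupOf N,
      (fun n : N => ρ.character n) y = (fun n : N => ρ.character n) 1 := by
    intro y hy
    exact hchar1 _ ((hMmem _).mp (Subgroup.mem_subgroupOf.mp hy)).2
  exact irr_linear_of_comm_ker _ hcommN _ hφ hkN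

end AGrp3

end Cfsg.Agent.Helper15
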