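import Mathlib
import Cfsg.Prelude.Def_Characters
import Cfsg.Agent.Helper15.AGrp3

set_option autoImplicit false

namespace Cfsg.Agent.Helper15

open Cfsg
open scoped ComplexConjugate
open Cfsg.Agent.Helper75

section AGrp4

/-- Transport of monomiality from a subgroup. -/
theorem mono_of_subgroup {H : Type*} [Group H] [Fintype H] (T : Subgroup H) [Fintype T]
    (η : T → ℂ) (ψ : H → ℂ) (hind : indFun T η = ψ)
    (h : ∃ (U : Subgroup T) (lam : U → ℂ), IsCharacter U lam ∧ lam 1 = 1 ∧ indFun U lam = η) :
    ∃ (U : Subgroup H) (lam : U → ℂ), IsCharacter U lam ∧ lam 1 = 1 ∧ indFun U lam = ψ := by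
  obtain ⟨U, lam, hlam, hlam1, hindU⟩ := h
  refine ⟨U.map T.subtype,
    fun h => lam ((U.equivMapOfInjective T.subtype T.subtype_injective).symm h), ?_, ?_, ?_⟩
  · exact Cfsg.Agent.Helper79.isCharacter_comp hlam
      (U.equivMapOfInjective T.subtype T.subtype_injective).symm.toMonoidHom
  · show lam ((U.equivMapOfInjective T.subtype T.subtype_injective).symm 1) = 1
    rw [map_one]
    exact hlam1
  · rw [← Cfsg.Agent.Helper3.indFun_trans_map_fun T U lam, hindU, hind]

universe u

/-- The statement that characters restricting irreducibly to a normal subgroup with abelian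
Sylow subgroups are monomial, for solvable groups of a fixed order. -/
def MonoP (k : ℕ) : Prop :=
  ∀ (H : Type u) [Group H] [Fintype H] [Group.IsSolvable H] (N : Subgroup H) [N.Normal],
    Nat.card H = k →
    (∀ (p : ℕ) [Fact p.Prime] (P : Sylow p N), ∀ a ∈ P, ∀ b ∈ P, a * b = b * a) →
    ∀ ψ : H → ℂ, IsIrrCharacter H ψ → IsIrrCharacter N (fun n : N => ψ n) →
    ∃ (U : Subgroup H) (lam : U → ℂ), IsCharacter U lam ∧ lam 1 = 1 ∧ indFun U lam = ψ

theorem mono_all (k : ℕ) : MonoP.{u} k := by
  induction k using Nat.strong_induction_on with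
  | _ k IH =>
    intro H _ _ _ N hN hcard hab ψ hψ hφ
    classical
    subst hcard
    have hψc := isChar_of_irr hψ
    by_cases hall : ∀ K : Subgroup H, K.Normal → K ≤ N →
        ∃ (ϑ : K → ℂ) (e : ℕ), IsIrrCharacter K ϑ ∧ (fun k : K => ψ k) = (e : ℂ) • ϑ
    · have h1 := linear_of_all_homog N hab ψ hψ hφ hall
      exact ⟨⊤, fun u => ψ u, Cfsg.Agent.Helper79.isCharacter_restrict hψc ⊤, h1,
        indFun_top_restrict ψ (isClassFunction_of_isChar hψc)⟩
    · push Not at hall
      obtain ⟨K, hKn, hKN, hK⟩ := hall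
      have : Fintype K := Fintype.ofFinite _
      have hψK0 : (fun k : K => ψ k) ≠ 0 := fun h =>
        Cfsg.Agent.Helper80.irr_one_ne_zero ⟨ψ, hψ⟩ (congrFun h 1)
      obtain ⟨ϑ, hϑ⟩ := exists_constituent
        (isClassFunction_of_isChar (Cfsg.Agent.Helper79.isCharacter_restrict hψc K)) hψK0
      rcases clifford_step K ψ hψ ϑ ϑ.2 hϑ with ⟨-, e, -, he⟩ | ⟨T, η, hT, hKT, hη, hind⟩
      · exact absurd he (hK ϑ e ϑ.2)
      · have : Fintype T := Fintype.ofFinite _
        have hθ := restrict_irr_of_induced N T η hη ψ hψ hind hφ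
        have hNn' : ((N ⊓ T).subgroupOf T).Normal := by
          rw [Subgroup.inf_subgroupOf_right]
          exact hN.subgroupOf T
        have hcardT : Nat.card T < Nat.card H := by
          have h1 := Subgroup.card_mul_index T
          have h2 : T.index ≠ 1 := fun h => hT (Subgroup.index_eq_one.mp h)
          have h3 : T.index ≠ 0 := Subgroup.index_ne_zero_of_finite
          have h4 : 0 < Nat.card T := Nat.card_pos
          have h5 : 2 ≤ T.index := by omega
          nlinarith
        let f : ((N ⊓ T).subgroupOf T) →* N :=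
          ((T.subtype).comp ((N ⊓ T).subgroupOf T).subtype).codRestrict N
            (fun x => (Subgroup.mem_subgroupOf.mp x.2).1)
        have hf : Function.Injective f := by
          intro x y hxy
          have h1 : ((x : T) : H) = ((y : T) : H) := congrArg (fun n : N => (n : H)) hxy
          exact Subtype.ext (Subtype.ext h1)
        have habT := sylow_abelian_of_injective f hf hab
        have hirrT : IsIrrCharacter ((N ⊓ T).subgroupOf T)
            (fun r : ((N ⊓ T).subgroupOf T) => η r) :=
          (Cfsg.Agent.Helper79.isIrrCharacter_mulEquiv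
            (Subgroup.subgroupOfEquivOfLe (inf_le_right : N ⊓ T ≤ T))).mpr hθ
        have h := IH _ hcardT ↥T ((N ⊓ T).subgroupOf T) rfl habT η hη hirrT
        exact mono_of_subgroup T η ψ hind h

/-- Dornhoff's theorem: relative M-groups with respect to a normal subgroup with abelian Sylow
subgroups are M-groups. -/
theorem dornhoff_mono {G : Type u} [Group G] [Fintype G] [Group.IsSolvable G] (N : Subgroup G)
    [hN : N.Normal]
    (hab : ∀ (p : ℕ) [Fact p.Prime] (P : Sylow p N), ∀ a ∈ P, ∀ b ∈ P, a * b = b * a)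
    (χ : G → ℂ) (h : RelM N χ) :
    ∃ (U : Subgroup G) (lam : U → ℂ), IsCharacter U lam ∧ lam 1 = 1 ∧ indFun U lam = χ := by
  obtain ⟨H, hNH, ψ, hψ, hind, hres⟩ := h
  have : Fintype H := Fintype.ofFinite _
  have hn' : (N.subgroupOf H).Normal := hN.subgroupOf H
  have hab' := sylow_abelian_of_injective (Subgroup.subgroupOfEquivOfLe hNH).toMonoidHom
    (Subgroup.subgroupOfEquivOfLe hNH).injective hab
  have hirr' : IsIrrCharacter (N.subgroupOf H) (fun r : N.subgroupOf H => ψ r) :=
    (Cfsg.Agent.Helper79.isIrrCharacter_mulEquiv (Subgroup.subgroupOfEquivOfLe hNH)).mpr hres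
  have h1 := mono_all (Nat.card H) ↥H (N.subgroupOf H) rfl hab' ψ hψ hirr'
  exact mono_of_subgroup H ψ χ hind h1

end AGrp4

end Cfsg.Agent.Helper15
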