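import Mathlib
import Cfsg.Prelude.Def_OddOrderLocal

/-!
# CALL S1390 (helper24), piece SW (helper15): swap the factors of a complement.
-/

set_option autoImplicit false

namespace Cfsg.Agent.Helper15

open Cfsg Subgroup

universe u

variable {G : Type u} [Group G] [Finite G]

/-- SW (pure). Swap the two factors of a complement when the first one is normalized by `M`:
`m = a b = b (b⁻¹ a b)`. -/
theorem bg90_compl_swap {A B M : Subgroup G} (h : IsComplIn A B M)
    (hn : M ≤ normalizer (A : Set G)) : IsComplIn B A M := by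
  obtain ⟨hA, hB, hAB, hprod⟩ := h
  refine ⟨hB, hA, by rw [inf_comm]; exact hAB, ?_⟩
  intro m hm
  obtain ⟨a, ha, b, hb, rfl⟩ := hprod m hm
  refine ⟨b, hb, b⁻¹ * a * b, ?_, by group⟩
  have h1 : b⁻¹ ∈ normalizer (A : Set G) := hn (M.inv_mem (hB hb))
  have h2 := (mem_normalizer_iff.mp h1 a).mp ha
  simpa using h2

end Cfsg.Agent.Helper15
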