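import Mathlib
import Cfsg.Prelude.Def_OddOrderLocal

/-!
# CALL S1390 (helper24), piece UN (helper15): `U = E ⊓ D`, so `E` normalizes `U`.
-/

set_option autoImplicit false

namespace Cfsg.Agent.Helper15

open Cfsg Subgroup

universe u

variable {G : Type u} [Group G] [Finite G]

/-- UN (pure). `E` a complement of `S` in `M`, `U ≤ E` a complement of `S` in `D`, `D` normalized
by `M`: then `U = E ⊓ D` (if `e = s u ∈ E ⊓ D` then `s = e u⁻¹ ∈ E ⊓ S = ⊥`), so `E` normalizes
`U`. -/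
theorem bg90_compl_normal {S E U M D : Subgroup G} (hE : IsComplIn E S M)
    (hU : IsComplIn S U D) (hDM : D ≤ M) (hDn : M ≤ normalizer (D : Set G)) (hUE : U ≤ E) :
    E ≤ normalizer (U : Set G) := by
  obtain ⟨hEM, -, hES, -⟩ := hE
  obtain ⟨-, hUD, -, hprod⟩ := hU
  have key : ∀ e : G, e ∈ E → e ∈ D → e ∈ U := by
    intro e heE heD
    obtain ⟨s, hs, u, hu, rfl⟩ := hprod e heD
    have h1 : s ∈ E := by
      have h2 : s = s * u * u⁻¹ := by group
      rw [h2]
      exact E.mul_mem heE (E.inv_mem (hUE hu))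
    have h3 : s ∈ E ⊓ S := Subgroup.mem_inf.mpr ⟨h1, hs⟩
    rw [hES, Subgroup.mem_bot] at h3
    rw [h3, one_mul]
    exact hu
  intro g hg
  have hgD : g ∈ normalizer (D : Set G) := hDn (hEM hg)
  have hgD' : g⁻¹ ∈ normalizer (D : Set G) := hDn (hEM (E.inv_mem hg))
  rw [mem_normalizer_iff]
  intro h
  constructor
  · intro hh
    exact key _ (E.mul_mem (E.mul_mem hg (hUE hh)) (E.inv_mem hg))
      ((mem_normalizer_iff.mp hgD h).mp (hUD hh))
  · intro hh
    have h1 : h = g⁻¹ * (g * h * g⁻¹) * g⁻¹⁻¹ := by group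
    rw [h1]
    exact key _ (E.mul_mem (E.mul_mem (E.inv_mem hg) (hUE hh)) (E.inv_mem (E.inv_mem hg)))
      ((mem_normalizer_iff.mp hgD' _).mp (hUD hh))

end Cfsg.Agent.Helper15
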