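import Mathlib
import Cfsg.Prelude.Def_Characters
import Cfsg.Agent.Helper15.FinLift
import Cfsg.Agent.Helper15.MassM
import Cfsg.Agent.Helper15.BergerGal
import Cfsg.Agent.Helper15.BergerTools

set_option autoImplicit false

namespace Cfsg.Agent.Helper15

open Cfsg
open scoped ComplexConjugate

section BergerLift

universe u

/-- The finite central lift attached to an invariant irreducible character `θ` of a normal
subgroup `N`: a finite group `Γ` with a surjection onto `G` with central kernel, a normal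
subgroup `N₀` mapped isomorphically onto `N`, and an irreducible character `σ` of `Γ`
extending the inflation of `θ` from `N₀`. -/
theorem exists_central_lift {G : Type u} [Group G] [Finite G] (N : Subgroup G) [hN : N.Normal]
    (θ : N → ℂ) (hθ : IsIrrCharacter N θ)
    (hinv : ∀ (g : G) (n : N), θ ⟨g * n * g⁻¹, hN.conj_mem n n.2 g⟩ = θ n) :
    ∃ (Γ : Type u) (_ : Group Γ) (_ : Finite Γ) (pr : Γ →* G) (N₀ : Subgroup Γ) (σ : Γ → ℂ),
      Function.Surjective pr ∧ pr.ker ≤ Subgroup.center Γ ∧ N₀.Normal ∧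
      (∀ x ∈ N₀, pr x = 1 → x = 1) ∧ N₀.map pr = N ∧ IsIrrCharacter Γ σ ∧
      (∀ x ∈ N₀, σ x = extendByZero N θ (pr x)) := by
  obtain ⟨d, ρ, hρ, rfl⟩ := hθ
  have hρ' := hρ
  have hd : 0 < d := by simpa using Cfsg.Agent.Helper80.rep_finrank_pos ρ
  have hinv' : ∀ (g : G) (n : N), ρ.character (conjN g n) = ρ.character n := hinv
  have hfin : Finite (finLift ρ (Nat.card N)) := finite_finLift ρ hρ hinv' _ Nat.card_pos
  refine ⟨finLift ρ (Nat.card N), inferInstance, hfin, finLiftPr ρ (Nat.card N),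
    (finLiftBase ρ).range, (finLiftRep ρ (Nat.card N)).character,
    finLiftPr_surjective ρ hinv' _ hd, ?_, inferInstance, ?_, ?_, ?_, ?_⟩
  · intro a ha
    have h1 : a.1.1 = 1 := ha
    have h2 : ((1 : G), a.1.2) ∈ finLift ρ (Nat.card N) := by
      rw [← h1]; exact a.2
    obtain ⟨c, hc, -⟩ := finLift_ker ρ hρ _ h2
    rw [Subgroup.mem_center_iff]
    intro y
    apply Subtype.ext
    refine Prod.ext ?_ ?_
    · show y.1.1 * a.1.1 = a.1.1 * y.1.1
      rw [h1, mul_one, one_mul]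
    · show y.1.2 * a.1.2 = a.1.2 * y.1.2
      rw [hc, scalarUnit_comm]
  · rintro _ ⟨n, rfl⟩ h
    have h1 : (n : G) = 1 := h
    have hn : n = 1 := Subtype.ext h1
    rw [hn, map_one]
  · ext g
    constructor
    · rintro ⟨_, ⟨n, rfl⟩, rfl⟩
      exact n.2
    · intro hg
      exact ⟨finLiftBase ρ ⟨g, hg⟩, ⟨_, rfl⟩, rfl⟩
  · exact ⟨d, _, isIrreducible_of_image ρ _ hρ (fun n => ⟨finLiftBase ρ n, rfl⟩), rfl⟩
  · rintro _ ⟨n, rfl⟩
    rw [Cfsg.Agent.Helper3.extendByZero_of_mem N _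
      (show finLiftPr ρ (Nat.card N) (finLiftBase ρ n) ∈ N from n.2)]
    rfl

/-- A central extension of a solvable group is solvable. -/
theorem isSolvable_of_central_ker {Γ G : Type*} [Group Γ] [Group G] (pr : Γ →* G)
    (hker : pr.ker ≤ Subgroup.center Γ) [Group.IsSolvable G] : Group.IsSolvable Γ := by
  have : Group.IsSolvable pr.ker := Group.isSolvable_of_comm (fun a b => by
    apply Subtype.ext
    exact (Subgroup.mem_center_iff.mp (hker a.2) b).symm)
  exact Group.isSolvable_of_ker_le_range pr.ker.subtype pr (by simp)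

/-- The central lift together with the Gallagher factorization of the inflation of an
irreducible character `χ` of `G` lying over `θ`. -/
theorem exists_central_lift_factor {G : Type u} [Group G] [Fintype G] (N : Subgroup G)
    [hN : N.Normal] (θ : N → ℂ) (hθ : IsIrrCharacter N θ) (χ : G → ℂ)
    (hχ : IsIrrCharacter G χ) (e : ℕ) (hχN : (fun n : N => χ n) = (e : ℂ) • θ) :
    ∃ (Γ : Type u) (_ : Group Γ) (_ : Fintype Γ) (pr : Γ →* G) (N₀ : Subgroup Γ)
      (σ β : Γ → ℂ),
      Function.Surjective pr ∧ pr.ker ≤ Subgroup.center Γ ∧ N₀.Normal ∧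
      (∀ x ∈ N₀, pr x = 1 → x = 1) ∧ N₀.map pr = N ∧ IsIrrCharacter Γ σ ∧
      (∀ x ∈ N₀, σ x = extendByZero N θ (pr x)) ∧ IsIrrCharacter N₀ (fun x : N₀ => σ x) ∧
      IsIrrCharacter Γ β ∧ (∀ x ∈ N₀, β x = β 1) ∧ (∀ x, χ (pr x) = β x * σ x) := by
  classical
  have hχ1 : χ 1 ≠ 0 := Cfsg.Agent.Helper80.irr_one_ne_zero ⟨χ, hχ⟩
  have he : e ≠ 0 := homog_ne_zero N χ hχ1 θ e hχN
  have he' : (e : ℂ) ≠ 0 := by exact_mod_cast he
  have hχcf : IsClassFunction G χ := isClassFunction_of_isChar (isChar_of_irr hχ)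
  have hval : ∀ n : N, χ n = (e : ℂ) * θ n := fun n => congrFun hχN n
  have hinv : ∀ (g : G) (n : N), θ ⟨g * n * g⁻¹, hN.conj_mem n n.2 g⟩ = θ n := by
    intro g n
    have h1 := hval ⟨g * n * g⁻¹, hN.conj_mem n n.2 g⟩
    have h2 := hval n
    have h3 : χ (g * n * g⁻¹) = χ n := hχcf n g
    rw [h3, h2] at h1
    exact (mul_left_cancel₀ he' h1).symm
  obtain ⟨Γ, iG, iF, pr, N₀, σ, hsurj, hker, hN₀, hinj, hmap, hσ, hσN⟩ :=
    exists_central_lift N θ hθ hinv
  let _ : Fintype Γ := Fintype.ofFinite Γ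
  have hmem : ∀ x : N₀, pr x ∈ N := fun x => hmap ▸ Subgroup.mem_map_of_mem pr x.2
  let f : N₀ →* N := (pr.comp N₀.subtype).codRestrict N hmem
  have hf : Function.Surjective f := by
    intro n
    have : (n : G) ∈ N₀.map pr := hmap ▸ n.2
    obtain ⟨x, hx, hxn⟩ := this
    exact ⟨⟨x, hx⟩, Subtype.ext hxn⟩
  have hσN' : ∀ x : N₀, σ x = θ (f x) := by
    intro x
    rw [hσN x x.2, Cfsg.Agent.Helper3.extendByZero_of_mem N θ (hmem x)]
    rfl
  have hσirr : IsIrrCharacter N₀ (fun x : N₀ => σ x) := by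
    have := Cfsg.Agent.Helper79.isIrrCharacter_comp f hf hθ
    rw [show (fun x : N₀ => σ x) = fun x => θ (f x) from funext hσN']
    exact this
  have hχhat : IsIrrCharacter Γ (fun x => χ (pr x)) :=
    Cfsg.Agent.Helper79.isIrrCharacter_comp pr hsurj hχ
  have hres : (fun x : N₀ => (fun x => χ (pr x)) x) = (e : ℂ) • (fun x : N₀ => σ x) := by
    funext x
    have := hval (f x)
    simp only [Pi.smul_apply, smul_eq_mul]
    rw [hσN' x, ← this]
    rfl
  have hne : classInner (fun x : N₀ => (fun x => χ (pr x)) x) (fun x : N₀ => σ x) ≠ 0 := by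
    rw [hres, classInner_smul_left, irr_inner_self hσirr, mul_one]
    exact he'
  obtain ⟨hβ, hβN, hβeq⟩ := (gallagher_average N₀ σ hσ hσirr _ hχhat).1 hne
  exact ⟨Γ, iG, inferInstance, pr, N₀, σ, _, hsurj, hker, hN₀, hinj, hmap, hσ, hσN, hσirr, hβ,
    hβN, fun x => congrFun hβeq x⟩

end BergerLift

end Cfsg.Agent.Helper15
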