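import Mathlib
import Cfsg.Prelude.Def_Characters
import Cfsg.Agent.Helper15.MassM
import Cfsg.Agent.Helper15.BergerGal
import Cfsg.Agent.Helper15.BergerTools

set_option autoImplicit false

namespace Cfsg.Agent.Helper15

open Cfsg
open scoped ComplexConjugate

section BergerQP

/-- Transfer of homogeneity through a lift: if `χ ∈ Irr(G)` restricts homogeneously to every
normal subgroup, `pr : Γ → G` is surjective and `χ ∘ pr = β * σ` with `σ ∈ Irr(Γ)` restricting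
irreducibly to the normal subgroup `N₀` and `β` trivial on `N₀`, then `β` restricts
homogeneously to every subgroup `N'` such that `N' ⊔ N₀` is normal. -/
theorem homog_transfer {G Γ : Type*} [Group G] [Group Γ] [Fintype G] [Fintype Γ]
    (pr : Γ →* G) (hsurj : Function.Surjective pr) (N₀ : Subgroup Γ) [hN₀ : N₀.Normal]
    (σ β : Γ → ℂ) (hσ : IsIrrCharacter Γ σ) (hσN : IsIrrCharacter N₀ (fun x : N₀ => σ x))
    (hβ : IsIrrCharacter Γ β) (hβN : ∀ x ∈ N₀, β x = β 1) (χ : G → ℂ)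
    (hχ : IsIrrCharacter G χ) (hfac : ∀ x, χ (pr x) = β x * σ x)
    (hqp : ∀ D : Subgroup G, D.Normal →
      ∃ (μ : D → ℂ) (e : ℕ), IsIrrCharacter D μ ∧ (fun n : D => χ n) = (e : ℂ) • μ)
    (N' : Subgroup Γ) (hA : (N' ⊔ N₀).Normal) :
    ∃ (κ : N' → ℂ) (e : ℕ), IsIrrCharacter N' κ ∧ (fun n : N' => β n) = (e : ℂ) • κ := by
  classical
  have hχ1 : χ 1 ≠ 0 := Cfsg.Agent.Helper80.irr_one_ne_zero ⟨χ, hχ⟩
  have hβ1 : β 1 ≠ 0 := Cfsg.Agent.Helper80.irr_one_ne_zero ⟨β, hβ⟩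
  have hβc : IsCharacter Γ β := isChar_of_irr hβ
  obtain ⟨μ, e', hμ, hD⟩ := hqp ((N' ⊔ N₀).map pr) (hA.map pr hsurj)
  have he' : e' ≠ 0 := homog_ne_zero _ χ hχ1 μ e' hD
  have he'' : (e' : ℂ) ≠ 0 := by exact_mod_cast he'
  have hmem : ∀ a : (N' ⊔ N₀ : Subgroup Γ), pr a ∈ (N' ⊔ N₀).map pr :=
    fun a => Subgroup.mem_map_of_mem pr a.2
  let prA : (N' ⊔ N₀ : Subgroup Γ) →* ((N' ⊔ N₀).map pr : Subgroup G) :=
    (pr.comp (N' ⊔ N₀).subtype).codRestrict _ hmem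
  have hprA : Function.Surjective prA := by
    rintro ⟨_, x, hx, rfl⟩
    exact ⟨⟨x, hx⟩, rfl⟩
  have hμA : IsIrrCharacter (N' ⊔ N₀ : Subgroup Γ) (fun a => μ (prA a)) :=
    Cfsg.Agent.Helper79.isIrrCharacter_comp prA hprA hμ
  have hχA : ∀ a : (N' ⊔ N₀ : Subgroup Γ), χ (pr a) = (e' : ℂ) * μ (prA a) :=
    fun a => congrFun hD (prA a)
  have hN₀A : N₀ ≤ N' ⊔ N₀ := le_sup_right
  have hσAc : IsCharacter (N' ⊔ N₀ : Subgroup Γ) (fun a : (N' ⊔ N₀ : Subgroup Γ) => σ a) :=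
    Cfsg.Agent.Helper79.isCharacter_restrict (isChar_of_irr hσ) _
  have hσA : IsIrrCharacter (N' ⊔ N₀ : Subgroup Γ) (fun a : (N' ⊔ N₀ : Subgroup Γ) => σ a) :=
    isIrr_of_comp_isIrr (Subgroup.inclusion hN₀A) _ hσAc hσN
  have hres : (fun n : N₀ => (fun a : (N' ⊔ N₀ : Subgroup Γ) => μ (prA a)) ⟨n, hN₀A n.2⟩) =
      (β 1 / (e' : ℂ)) • (fun n : N₀ => σ n) := by
    funext n
    have h1 := hχA ⟨n, hN₀A n.2⟩
    have h2 := hfac n
    rw [hβN n n.2] at h2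
    simp only [Pi.smul_apply, smul_eq_mul]
    have h3 : (e' : ℂ) * μ (prA ⟨n, hN₀A n.2⟩) = β 1 * σ n := by
      rw [← h1]; exact h2
    field_simp
    rw [mul_comm]
    exact h3
  have hne : classInner
      (fun n : N₀ => (fun a : (N' ⊔ N₀ : Subgroup Γ) => μ (prA a)) ⟨n, hN₀A n.2⟩)
      (fun n : N₀ => (fun a : (N' ⊔ N₀ : Subgroup Γ) => σ a) ⟨n, hN₀A n.2⟩) ≠ 0 := by
    rw [hres, classInner_smul_left]
    have : classInner (fun n : N₀ => σ n)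
        (fun n : N₀ => (fun a : (N' ⊔ N₀ : Subgroup Γ) => σ a) ⟨n, hN₀A n.2⟩) = 1 :=
      irr_inner_self hσN
    rw [this, mul_one]
    exact div_ne_zero hβ1 he''
  obtain ⟨γ, hγ, hγN, hγeq⟩ := gallagher_rel hN₀A _ hσA hσN _ hμA hne
  have hcancel : (fun a : (N' ⊔ N₀ : Subgroup Γ) => β a) = fun a => (e' : ℂ) * γ a := by
    apply gallagher_cancel_rel hN₀A _ hσA hσN
    · intro n t
      exact Cfsg.Agent.Helper79.isCharacter_ker_mul hβc (hβN n n.2) t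
    · intro n t
      show (e' : ℂ) * γ (⟨n, hN₀A n.2⟩ * t) = (e' : ℂ) * γ t
      rw [hγN n t]
    · intro t
      have h1 := hχA t
      have h2 := hfac t
      have h3 := congrFun hγeq t
      simp only [Pi.mul_apply] at h3
      rw [← h2, h1, h3]
      ring
  refine ⟨fun n : N' => γ (Subgroup.inclusion le_sup_left n), e', ?_, ?_⟩
  · apply isIrr_comp_of_ker_mul (Subgroup.inclusion (le_sup_left : N' ≤ N' ⊔ N₀)) hγ
    intro a
    have ha : (a : Γ) ∈ ((N₀ ⊔ N' : Subgroup Γ) : Set Γ) := by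
      rw [sup_comm]; exact a.2
    rw [Subgroup.normal_mul] at ha
    obtain ⟨n₀, hn₀, n', hn', hmul⟩ := ha
    refine ⟨⟨n₀, hN₀A hn₀⟩, ?_, ⟨n', hn'⟩, ?_⟩
    · have := hγN ⟨n₀, hn₀⟩ 1
      rwa [mul_one] at this
    · apply Subtype.ext
      exact hmul.symm
  · funext n
    exact congrFun hcancel (Subgroup.inclusion le_sup_left n)

end BergerQP

end Cfsg.Agent.Helper15
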