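import Mathlib
import Cfsg.Prelude.Def_Characters
import Cfsg.Prelude.Def_Blocks
import Cfsg.Agent.Helper3.IndFun
import Cfsg.Agent.Helper75.ConjFun
import Cfsg.Agent.Helper15.MassM
import Cfsg.Agent.Helper15.BergerGal
import Cfsg.Agent.Helper15.BergerTools
import Cfsg.Agent.Helper15.BergerLift
import Cfsg.Agent.Helper15.BergerQP
import Cfsg.Agent.Helper15.BergerB1
import Cfsg.Agent.Helper15.BergerB3Tools

set_option autoImplicit false

namespace Cfsg.Agent.Helper15

open Cfsg
open scoped ComplexConjugate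

section BergerB2

universe u

/-- Quasi-primitivity: homogeneous restriction to every normal subgroup. -/
def QPrim (G : Type*) [Group G] (χ : G → ℂ) : Prop :=
  ∀ N : Subgroup G, N.Normal →
    ∃ (ϑ : N → ℂ) (e : ℕ), IsIrrCharacter N ϑ ∧ (fun n : N => χ n) = (e : ℂ) • ϑ

/-- Berger's theorem for characters of degree `d` of solvable groups in a fixed universe. -/
def BergerP (d : ℕ) : Prop :=
  ∀ (G : Type u) [Group G] [Fintype G] [Group.IsSolvable G] (χ : G → ℂ),
    IsIrrCharacter G χ → QPrim G χ → charDegree χ = d →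
    ∀ K : Subgroup G, K ≠ ⊤ → ∀ ψ : K → ℂ, IsCharacter K ψ → indFun K ψ ≠ χ

/-- The index as a quotient of orders. -/
theorem card_div_card_eq_index {G : Type*} [Group G] [Finite G] (H : Subgroup G) :
    (Nat.card G : ℂ) / (Nat.card H : ℂ) = (H.index : ℂ) := by
  have hH : (Nat.card H : ℂ) ≠ 0 := by exact_mod_cast Nat.card_pos.ne'
  rw [← Subgroup.index_mul_card H]
  push_cast
  field_simp

/-- Multiplicities over the core of `H` for an irreducible character induced from `H` whose
restriction to the core is homogeneous. -/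
theorem berger_core_mult {G : Type*} [Group G] [Fintype G] (H : Subgroup G) (ϑ : H → ℂ)
    (hϑ : IsIrrCharacter H ϑ) (χ : G → ℂ) (hχ : IsIrrCharacter G χ) (hind : indFun H ϑ = χ)
    [Fintype H.normalCore]
    (ξ : H.normalCore → ℂ) (hξ : IsIrrCharacter H.normalCore ξ) (e₀ : ℕ)
    (hC : (fun n : H.normalCore => χ n) = (e₀ : ℂ) • ξ) :
    ∃ a : ℕ, a ≠ 0 ∧
      classInner (fun x : H.normalCore => ϑ ⟨(x : G), H.normalCore_le x.2⟩) ξ = a ∧
      e₀ = H.index * a ∧ ϑ 1 = (a : ℂ) * ξ 1 ∧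
      subInner H.normalCore (extendByZero H ϑ) χ = ((Nat.card H.normalCore * e₀ * a : ℕ) : ℂ) := by
  classical
  have hχcf : IsClassFunction G χ := isClassFunction_of_isChar (isChar_of_irr hχ)
  have hχ1 : χ 1 ≠ 0 := Cfsg.Agent.Helper80.irr_one_ne_zero ⟨χ, hχ⟩
  have he₀ : e₀ ≠ 0 := homog_ne_zero _ χ hχ1 ξ e₀ hC
  have hϑCc : IsCharacter H.normalCore
      (fun x : H.normalCore => ϑ ⟨(x : G), H.normalCore_le x.2⟩) :=
    Cfsg.Agent.Helper79.isCharacter_comp (isChar_of_irr hϑ) (Subgroup.inclusion H.normalCore_le)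
  obtain ⟨a, ha⟩ := inner_nat hϑCc (isChar_of_irr hξ)
  have hLM := subInner_indFun_normal H.normalCore H ϑ χ hχcf
  rw [hind, inf_eq_left.mpr H.normalCore_le, card_div_card_eq_index,
    subInner_homog H.normalCore χ ξ hξ e₀ hC] at hLM
  have hξeq : (fun x : H.normalCore => extendByZero H ϑ x) =
      fun x : H.normalCore => ϑ ⟨(x : G), H.normalCore_le x.2⟩ :=
    funext fun x => Cfsg.Agent.Helper3.extendByZero_of_mem H ϑ (H.normalCore_le x.2)
  have h1 : subInner H.normalCore (extendByZero H ϑ) χ =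
      ((Nat.card H.normalCore * e₀ * a : ℕ) : ℂ) := by
    rw [subInner_eq_classInner, hξeq, hC, classInner_smul_right, Complex.conj_natCast, ha]
    push_cast
    ring
  rw [h1] at hLM
  have hcardC : 0 < Nat.card H.normalCore := Nat.card_pos
  have h2 : Nat.card H.normalCore * e₀ * e₀ = H.index * (Nat.card H.normalCore * e₀ * a) := by
    exact_mod_cast hLM
  have h3 : e₀ = H.index * a := by
    have : Nat.card H.normalCore * e₀ * e₀ = Nat.card H.normalCore * e₀ * (H.index * a) := by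
      rw [h2]; ring
    exact Nat.eq_of_mul_eq_mul_left (Nat.mul_pos hcardC (Nat.pos_of_ne_zero he₀)) this
  have ha0 : a ≠ 0 := by
    rintro rfl
    exact he₀ (by rw [h3, mul_zero])
  refine ⟨a, ha0, ha, h3, ?_, h1⟩
  have h4 := Cfsg.Agent.Helper75.indFun_one H ϑ
  rw [hind, card_div_card_eq_index] at h4
  have h5 : χ 1 = (e₀ : ℂ) * ξ 1 := congrFun hC 1
  have hidx : (H.index : ℂ) ≠ 0 := by
    have : H.index ≠ 0 := Subgroup.index_ne_zero_of_finite
    exact_mod_cast this
  have h6 : (H.index : ℂ) * ϑ 1 = (H.index : ℂ) * ((a : ℂ) * ξ 1) := by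
    rw [← h4, h5, h3]
    push_cast
    ring
  exact mul_left_cancel₀ hidx h6

/-- Berger's theorem, inductive step, when the irreducible constituent of the restriction to
the core of `H` is not linear. -/
theorem berger_nonlinear_core {G : Type u} [Group G] [Fintype G] [Group.IsSolvable G]
    (χ : G → ℂ) (hχ : IsIrrCharacter G χ) (hqp : QPrim G χ)
    (IH : ∀ d' < charDegree χ, BergerP.{u} d') (H : Subgroup G) (hH : H ≠ ⊤) (ϑ : H → ℂ)
    (hϑ : IsIrrCharacter H ϑ) (hind : indFun H ϑ = χ) (ξ : H.normalCore → ℂ)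
    (hξ : IsIrrCharacter H.normalCore ξ) (e₀ : ℕ)
    (hC : (fun n : H.normalCore => χ n) = (e₀ : ℂ) • ξ) (hξ1 : charDegree ξ ≠ 1) : False := by
  classical
  obtain ⟨a, ha0, ha, -, -, -⟩ := berger_core_mult H ϑ hϑ χ hχ hind ξ hξ e₀ hC
  obtain ⟨Γ, iG, iF, pr, N₀, σ, β, hsurj, hker, hN₀, hinj, hmap, hσ, hσN, hσirr, hβ, hβN, hfac⟩ :=
    exists_central_lift_factor H.normalCore ξ hξ χ hχ e₀ hC
  have hsolv : Group.IsSolvable Γ := isSolvable_of_central_ker pr hker
  have hβqp : QPrim Γ β := fun N' hN' =>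
    homog_transfer pr hsurj N₀ σ β hσ hσirr hβ hβN χ hχ hfac hqp N' inferInstance
  -- degrees
  have hσ1 : σ 1 = ξ 1 := by
    rw [hσN 1 N₀.one_mem, map_one,
      Cfsg.Agent.Helper3.extendByZero_of_mem H.normalCore ξ H.normalCore.one_mem]
    rfl
  have hdeg : charDegree χ = charDegree β * charDegree ξ := by
    have h1 := hfac 1
    rw [map_one, hσ1, Cfsg.Agent.Helper80.isCharacter_one_eq (isChar_of_irr hχ),
      Cfsg.Agent.Helper80.isCharacter_one_eq (isChar_of_irr hβ),
      Cfsg.Agent.Helper80.isCharacter_one_eq (isChar_of_irr hξ)] at h1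
    exact_mod_cast h1
  have hβpos : 0 < charDegree β := Cfsg.Agent.Helper80.irr_degree_pos ⟨β, hβ⟩
  have hξpos : 0 < charDegree ξ := Cfsg.Agent.Helper80.irr_degree_pos ⟨ξ, hξ⟩
  have hlt : charDegree β < charDegree χ := by
    rw [hdeg]
    have : 2 ≤ charDegree ξ := by omega
    nlinarith
  have hprim := IH (charDegree β) hlt Γ β hβ hβqp rfl
  -- the preimage of `H`
  have hHh : H.comap pr ≠ ⊤ := by
    intro h
    apply hH
    rw [eq_top_iff]
    intro g _
    obtain ⟨x, rfl⟩ := hsurj g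
    have : x ∈ H.comap pr := by rw [h]; trivial
    exact this
  let prH : (H.comap pr : Subgroup Γ) →* H :=
    (pr.comp (H.comap pr).subtype).codRestrict H (fun h => h.2)
  have hprH : Function.Surjective prH := by
    rintro ⟨g, hg⟩
    obtain ⟨x, rfl⟩ := hsurj g
    exact ⟨⟨x, hg⟩, rfl⟩
  have hϑh : IsIrrCharacter (H.comap pr : Subgroup Γ) (fun h => ϑ (prH h)) :=
    Cfsg.Agent.Helper79.isIrrCharacter_comp prH hprH hϑ
  have hindh : ∀ x : Γ, indFun (H.comap pr) (fun h => ϑ (prH h)) x = χ (pr x) := by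
    intro x
    rw [← hind]
    exact indFun_comap_surj pr hsurj H ϑ x
  have hN₀H : N₀ ≤ H.comap pr := by
    intro x hx
    rw [Subgroup.mem_comap]
    have : pr x ∈ N₀.map pr := Subgroup.mem_map_of_mem pr hx
    rw [hmap] at this
    exact H.normalCore_le this
  have hσHc : IsCharacter (H.comap pr : Subgroup Γ)
      (fun h : (H.comap pr : Subgroup Γ) => σ h) :=
    Cfsg.Agent.Helper79.isCharacter_restrict (isChar_of_irr hσ) _
  have hσH : IsIrrCharacter (H.comap pr : Subgroup Γ)
      (fun h : (H.comap pr : Subgroup Γ) => σ h) :=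
    isIrr_of_comp_isIrr (Subgroup.inclusion hN₀H) _ hσHc hσirr
  -- the inner product over `N₀`
  have hmem : ∀ x : N₀, pr x ∈ H.normalCore := by
    intro x
    rw [← hmap]
    exact Subgroup.mem_map_of_mem pr x.2
  let f : N₀ →* H.normalCore := (pr.comp N₀.subtype).codRestrict H.normalCore hmem
  have hf : Function.Surjective f := by
    intro n
    have : (n : G) ∈ N₀.map pr := by rw [hmap]; exact n.2
    obtain ⟨x, hx, hxn⟩ := this
    exact ⟨⟨x, hx⟩, Subtype.ext hxn⟩
  have hne : classInner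
      (fun n : N₀ => (fun h : (H.comap pr : Subgroup Γ) => ϑ (prH h)) ⟨n, hN₀H n.2⟩)
      (fun n : N₀ => (fun h : (H.comap pr : Subgroup Γ) => σ h) ⟨n, hN₀H n.2⟩) ≠ 0 := by
    have h1 : (fun n : N₀ => (fun h : (H.comap pr : Subgroup Γ) => σ h) ⟨n, hN₀H n.2⟩) =
        fun n : N₀ => ξ (f n) := by
      funext n
      show σ n = ξ (f n)
      rw [hσN n n.2, Cfsg.Agent.Helper3.extendByZero_of_mem H.normalCore ξ (hmem n)]
      rfl
    have h2 : (fun n : N₀ => (fun h : (H.comap pr : Subgroup Γ) => ϑ (prH h)) ⟨n, hN₀H n.2⟩) =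
        fun n : N₀ => (fun x : H.normalCore => ϑ ⟨(x : G), H.normalCore_le x.2⟩) (f n) := rfl
    have h3 := classInner_comp_surj f hf
      (fun x : H.normalCore => ϑ ⟨(x : G), H.normalCore_le x.2⟩) ξ
    rw [h1, h2, h3, ha]
    exact_mod_cast ha0
  obtain ⟨γ, hγ, hγN, hγeq⟩ := gallagher_rel hN₀H _ hσH hσirr _ hϑh hne
  have hσcf : IsClassFunction Γ σ := isClassFunction_of_isChar (isChar_of_irr hσ)
  have hprod : indFun (H.comap pr) γ * σ = fun x => χ (pr x) := by
    rw [← indFun_mul_restrict (H.comap pr) γ hσcf]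
    have : (fun h : (H.comap pr : Subgroup Γ) => γ h * σ h) = fun h => ϑ (prH h) := by
      rw [hγeq]; rfl
    rw [this]
    funext x
    exact hindh x
  have hfinal : indFun (H.comap pr) γ = β := by
    apply gallagher_cancel N₀ σ hσ hσirr
    · intro n hn g
      exact indFun_left_invariant N₀ (H.comap pr) hN₀H γ hγN n hn g
    · intro n hn g
      exact Cfsg.Agent.Helper79.isCharacter_ker_mul (isChar_of_irr hβ) (hβN n hn) g
    · intro g
      have := congrFun hprod g
      simp only [Pi.mul_apply] at this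
      rw [this, hfac g]
  exact hprim (H.comap pr) hHh γ (isChar_of_irr hγ) hfinal

end BergerB2

end Cfsg.Agent.Helper15
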