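import Mathlib
import Cfsg.Prelude.Def_Characters
import Cfsg.Prelude.Def_Blocks
import Cfsg.Agent.Helper3.IndFun
import Cfsg.Agent.Helper3.Burnside2
import Cfsg.Agent.Helper4.IndNormal
import Cfsg.Agent.Helper75.ConjFun
import Cfsg.Agent.Helper15.CharScalar
import Cfsg.Agent.Helper15.LinChar
import Cfsg.Agent.Helper15.ChiefGT
import Cfsg.Agent.Helper15.MassM
import Cfsg.Agent.Helper15.BergerGal
import Cfsg.Agent.Helper15.BergerTools
import Cfsg.Agent.Helper15.BergerLift
import Cfsg.Agent.Helper15.BergerQP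
import Cfsg.Agent.Helper15.BergerB1
import Cfsg.Agent.Helper15.BergerB2
import Cfsg.Agent.Helper15.BergerB3Tools

set_option autoImplicit false

namespace Cfsg.Agent.Helper15

open Cfsg
open scoped ComplexConjugate

section BergerB3

universe u

/-- A quasi-primitive irreducible character is not induced from a proper normal subgroup. -/
theorem berger_not_normal {G : Type*} [Group G] [Fintype G] (χ : G → ℂ)
    (hχ : IsIrrCharacter G χ) (hqp : QPrim G χ) (H : Subgroup G) (hH : H ≠ ⊤) (ϑ : H → ℂ)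
    (hϑ : IsIrrCharacter H ϑ) (hind : indFun H ϑ = χ) : ¬ H.Normal := by
  classical
  intro hHn
  have hχcf : IsClassFunction G χ := isClassFunction_of_isChar (isChar_of_irr hχ)
  obtain ⟨φ, e₁, hφ, hHe⟩ := hqp H hHn
  have hfrob := Cfsg.Agent.Helper3.frobenius_reciprocity H ϑ χ hχcf
  rw [hind, irr_inner_self hχ, hHe, classInner_smul_right, Complex.conj_natCast] at hfrob
  by_cases h : ϑ = φ
  · rw [h, irr_inner_self hφ, mul_one] at hfrob
    have h1 := congrFun hHe 1
    simp only [Pi.smul_apply, smul_eq_mul] at h1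
    rw [← hfrob, one_mul, ← h] at h1
    have h2 := Cfsg.Agent.Helper75.indFun_one H ϑ
    rw [hind, card_div_card_eq_index] at h2
    have h3 : χ ((1 : H) : G) = χ 1 := rfl
    rw [h3, h2] at h1
    have hϑ1 : ϑ 1 ≠ 0 := Cfsg.Agent.Helper80.irr_one_ne_zero ⟨ϑ, hϑ⟩
    have h4 : (H.index : ℂ) = 1 := by
      have : (H.index : ℂ) * ϑ 1 = 1 * ϑ 1 := by rw [h1, one_mul]
      exact mul_right_cancel₀ hϑ1 this
    have h5 : H.index = 1 := by exact_mod_cast h4
    exact hH (Subgroup.index_eq_one.mp h5)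
  · rw [irr_inner_ne hϑ hφ h, mul_zero] at hfrob
    exact one_ne_zero hfrob

/-- The fully ramified section above the core of `H` when the constituent over the core is
linear. -/
theorem berger_ramified {G : Type*} [Group G] [Fintype G] (H : Subgroup G) (ϑ : H → ℂ)
    (hϑ : IsIrrCharacter H ϑ) (χ : G → ℂ) (hχ : IsIrrCharacter G χ) (hind : indFun H ϑ = χ)
    [Fintype H.normalCore] (ξ : H.normalCore → ℂ) (hξ : IsIrrCharacter H.normalCore ξ) (e₀ : ℕ)
    (hC : (fun n : H.normalCore => χ n) = (e₀ : ℂ) • ξ) (hξ1 : ξ 1 = 1)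
    (M : Subgroup G) [hMn : M.Normal] (hCM : H.normalCore ≤ M) (hinf : M ⊓ H = H.normalCore)
    (hsup : M ⊔ H = ⊤) (q : ℕ) (hMc : Nat.card M = Nat.card H.normalCore * q)
    [Fintype M] (φ : M → ℂ) (hφ : IsIrrCharacter M φ) (eM : ℕ)
    (hM : (fun m : M => χ m) = (eM : ℂ) • φ) :
    ∃ a c₁ : ℕ, a ≠ 0 ∧ c₁ * c₁ = q ∧ eM = a * c₁ ∧ φ 1 = (c₁ : ℂ) ∧ ϑ 1 = (a : ℂ) ∧
      e₀ = q * a ∧ H.index = q ∧ (∀ m : M, φ m = φ 1 → (m : G) ∈ H.normalCore) ∧
      (∀ y : H.normalCore, φ ⟨(y : G), hCM y.2⟩ = (c₁ : ℂ) * ξ y) := by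
  classical
  have hχcf : IsClassFunction G χ := isClassFunction_of_isChar (isChar_of_irr hχ)
  have hχ1 : χ 1 ≠ 0 := Cfsg.Agent.Helper80.irr_one_ne_zero ⟨χ, hχ⟩
  obtain ⟨a, ha0, ha, he₀, hϑ1, hsub⟩ := berger_core_mult H ϑ hϑ χ hχ hind ξ hξ e₀ hC
  have heM0 : eM ≠ 0 := homog_ne_zero _ χ hχ1 φ eM hM
  have hcardC : 0 < Nat.card H.normalCore := Nat.card_pos
  have hcardH : 0 < Nat.card H := Nat.card_pos
  have hcardM : 0 < Nat.card M := Nat.card_pos
  have hq0 : 0 < q := by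
    rcases Nat.eq_zero_or_pos q with h | h
    · rw [h, mul_zero] at hMc; omega
    · exact h
  have hc1 := chief_card_mul_of_sup_eq_top M H hsup
  rw [hinf, ← Subgroup.index_mul_card H] at hc1
  have hidxC : H.index * Nat.card H.normalCore = Nat.card M := by
    have : Nat.card H * (H.index * Nat.card H.normalCore) = Nat.card H * Nat.card M := by
      rw [← hc1]; ring
    exact Nat.eq_of_mul_eq_mul_left hcardH this
  have hidx : H.index = q := by
    have : Nat.card H.normalCore * H.index = Nat.card H.normalCore * q := by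
      rw [← hMc, ← hidxC]; ring
    exact Nat.eq_of_mul_eq_mul_left hcardC this
  have hMM := subInner_indFun_normal M H ϑ χ hχcf
  rw [hind, hinf, card_div_card_eq_index, subInner_homog M χ φ hφ eM hM, hsub] at hMM
  have hMM' : Nat.card M * eM * eM = H.index * (Nat.card H.normalCore * e₀ * a) := by
    exact_mod_cast hMM
  have heMsq : eM * eM = q * a * a := by
    have : Nat.card M * (eM * eM) = Nat.card M * (q * a * a) := by
      rw [← mul_assoc, hMM', ← hidxC, he₀, hidx]; ring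
    exact Nat.eq_of_mul_eq_mul_left hcardM this
  have hadvd : a ∣ eM := by
    have : a ^ 2 ∣ eM ^ 2 := ⟨q, by rw [pow_two, pow_two, heMsq]; ring⟩
    exact (Nat.pow_dvd_pow_iff (by norm_num)).mp this
  obtain ⟨c₁, hc₁⟩ := hadvd
  have hapos : 0 < a := Nat.pos_of_ne_zero ha0
  have hc₁q : c₁ * c₁ = q := by
    have : a * a * (c₁ * c₁) = a * a * q := by
      rw [hc₁] at heMsq
      calc a * a * (c₁ * c₁) = a * c₁ * (a * c₁) := by ring
        _ = q * a * a := heMsq
        _ = a * a * q := by ring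
    exact Nat.eq_of_mul_eq_mul_left (Nat.mul_pos hapos hapos) this
  have hc₁0 : c₁ ≠ 0 := by
    rintro rfl
    rw [mul_zero] at hc₁q; omega
  have ha' : (a : ℂ) ≠ 0 := by exact_mod_cast ha0
  have hc₁' : (c₁ : ℂ) ≠ 0 := by exact_mod_cast hc₁0
  have hϑ1' : ϑ 1 = (a : ℂ) := by rw [hϑ1, hξ1, mul_one]
  have hφ1 : φ 1 = (c₁ : ℂ) := by
    have h1 := congrFun hM 1
    have h2 := congrFun hC 1
    simp only [Pi.smul_apply, smul_eq_mul] at h1 h2
    have h3 : χ ((1 : M) : G) = χ ((1 : H.normalCore) : G) := rfl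
    rw [h3, h2, hξ1, mul_one, hc₁, he₀, hidx, ← hc₁q] at h1
    have h4 : (a : ℂ) * (c₁ : ℂ) * φ 1 = (a : ℂ) * (c₁ : ℂ) * (c₁ : ℂ) := by
      push_cast at h1
      rw [← h1]; ring
    exact mul_left_cancel₀ (mul_ne_zero ha' hc₁') h4
  have hφC : ∀ y : H.normalCore, φ ⟨(y : G), hCM y.2⟩ = (c₁ : ℂ) * ξ y := by
    intro y
    have h1 := congrFun hM ⟨(y : G), hCM y.2⟩
    have h2 := congrFun hC y
    simp only [Pi.smul_apply, smul_eq_mul] at h1 h2
    have h3 : χ ((⟨(y : G), hCM y.2⟩ : M) : G) = χ (y : G) := rfl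
    rw [h3, h2, hc₁, he₀, hidx, ← hc₁q] at h1
    have h4 : (a : ℂ) * (c₁ : ℂ) * φ ⟨(y : G), hCM y.2⟩ =
        (a : ℂ) * (c₁ : ℂ) * ((c₁ : ℂ) * ξ y) := by
      push_cast at h1
      rw [← h1]; ring
    exact mul_left_cancel₀ (mul_ne_zero ha' hc₁') h4
  -- vanishing off the core
  have hnormeq : subNorm M χ = subNorm H.normalCore χ := by
    have h1 := subInner_self M χ
    have h2 := subInner_self H.normalCore χ
    rw [subInner_homog M χ φ hφ eM hM] at h1
    rw [subInner_homog H.normalCore χ ξ hξ e₀ hC] at h2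
    have h3 : Nat.card M * eM * eM = Nat.card H.normalCore * e₀ * e₀ := by
      rw [mul_assoc, heMsq, he₀, hidx, hMc]; ring
    rw [h3, h2] at h1
    exact_mod_cast h1.symm
  have hvan := vanish_of_subNorm_le H.normalCore M hCM χ hnormeq.le
  refine ⟨a, c₁, ha0, hc₁q, hc₁, hφ1, hϑ1', by rw [he₀, hidx], hidx, ?_, hφC⟩
  intro m hm
  by_contra hmC
  have h1 := hvan m m.2 hmC
  have h2 := congrFun hM m
  simp only [Pi.smul_apply, smul_eq_mul] at h2
  rw [h1, hm, hφ1] at h2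
  have heM' : (eM : ℂ) ≠ 0 := by exact_mod_cast heM0
  exact mul_ne_zero heM' hc₁' h2.symm

end BergerB3

end Cfsg.Agent.Helper15
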