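import Mathlib
import Cfsg.Prelude.Def_Characters
import Cfsg.Prelude.Def_Blocks
import Cfsg.Agent.Helper15.BergerB3

set_option autoImplicit false
set_option maxHeartbeats 1000000

namespace Cfsg.Agent.Helper15

open Cfsg
open scoped ComplexConjugate

section BergerB3Main

universe u

/-- Berger's theorem, inductive step, when the irreducible constituent of the restriction to
the core of the maximal subgroup `H` is linear. -/
theorem berger_linear_core {G : Type u} [Group G] [Fintype G] [Group.IsSolvable G]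
    (χ : G → ℂ) (hχ : IsIrrCharacter G χ) (hqp : QPrim G χ)
    (IH : ∀ d' < charDegree χ, BergerP.{u} d') (H : Subgroup G) (hH : IsCoatom H) (ϑ : H → ℂ)
    (hϑ : IsIrrCharacter H ϑ) (hind : indFun H ϑ = χ) (ξ : H.normalCore → ℂ)
    (hξ : IsIrrCharacter H.normalCore ξ) (e₀ : ℕ)
    (hC : (fun n : H.normalCore => χ n) = (e₀ : ℂ) • ξ) (hξ1 : ξ 1 = 1) : False := by
  classical
  have hχc : IsCharacter G χ := isChar_of_irr hχ
  have hnn : ¬ H.Normal := berger_not_normal χ hχ hqp H hH.1 ϑ hϑ hind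
  have hnorm : H.normalCore ≠ H := fun h => hnn (h ▸ (inferInstance : H.normalCore.Normal))
  have hsolvQ : Group.IsSolvable (G ⧸ H.normalCore) := inferInstance
  obtain ⟨M, K, q, s, hMn, hKn, hCM, hMK, hMK', hinf, hsup, hMc, hKc, hcop, hq1, hMab, hnc⟩ :=
    coatom_chief_package H hH hsolvQ hnorm
  obtain ⟨φ, eM, hφ, hM⟩ := hqp M hMn
  obtain ⟨a, c₁, ha0, hc₁q, heM, hφ1, hϑ1, he₀, hidx, hkerφ, hφC⟩ :=
    berger_ramified H ϑ hϑ χ hχ hind ξ hξ e₀ hC hξ1 M hCM hinf hsup q hMc φ hφ eM hM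
  have hapos : 0 < a := Nat.pos_of_ne_zero ha0
  have hc₁2 : 2 ≤ c₁ := by
    by_contra hlt
    push Not at hlt
    have : c₁ * c₁ ≤ 1 := by nlinarith
    omega
  have hc₁' : (c₁ : ℂ) ≠ 0 := by
    have : c₁ ≠ 0 := by omega
    exact_mod_cast this
  -- the lift over `M`
  obtain ⟨Γ, iG, iF, pr, M₀, σ, β, hsurj, hker, hM₀, hinj, hmap, hσ, hσM, hσirr, hβ, hβM, hfac⟩ :=
    exists_central_lift_factor M φ hφ χ hχ eM hM
  have hsolv : Group.IsSolvable Γ := isSolvable_of_central_ker pr hker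
  have hσ1 : σ 1 = (c₁ : ℂ) := by
    rw [hσM 1 M₀.one_mem, map_one, Cfsg.Agent.Helper3.extendByZero_of_mem M φ M.one_mem]
    exact hφ1
  have hχ1 : χ 1 = ((c₁ * c₁ * a : ℕ) : ℂ) := by
    have h2 := congrFun hC 1
    simp only [Pi.smul_apply, smul_eq_mul, hξ1, mul_one] at h2
    have h3 : χ ((1 : H.normalCore) : G) = χ 1 := rfl
    rw [h3] at h2
    rw [h2, he₀, hc₁q]
  have hβ1 : β 1 = ((c₁ * a : ℕ) : ℂ) := by
    have h1 := hfac 1
    rw [map_one, hσ1, hχ1] at h1
    apply mul_right_cancel₀ hc₁'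
    rw [← h1]
    push_cast
    ring
  have hdegβ : charDegree β = c₁ * a := by
    have := Cfsg.Agent.Helper80.isCharacter_one_eq (isChar_of_irr hβ)
    rw [hβ1] at this
    exact_mod_cast this.symm
  have hdegχ : charDegree χ = c₁ * c₁ * a := by
    have := Cfsg.Agent.Helper80.isCharacter_one_eq hχc
    rw [hχ1] at this
    exact_mod_cast this.symm
  have hlt : charDegree β < charDegree χ := by
    rw [hdegβ, hdegχ]
    nlinarith
  -- the preimage of `H`
  have hcover : ∀ x : Γ, ∃ m ∈ M₀, ∃ h ∈ H.comap pr, x = m * h := by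
    intro x
    have hx : pr x ∈ ((M ⊔ H : Subgroup G) : Set G) := by rw [hsup]; trivial
    rw [Subgroup.normal_mul] at hx
    obtain ⟨m, hm, h, hh, hmh⟩ := hx
    have hm' : m ∈ M₀.map pr := by rw [hmap]; exact hm
    obtain ⟨m₀, hm₀, rfl⟩ := hm'
    refine ⟨m₀, hm₀, m₀⁻¹ * x, ?_, by group⟩
    show pr (m₀⁻¹ * x) ∈ H
    rw [map_mul, map_inv, ← hmh, inv_mul_cancel_left]
    exact hh
  have hβ' : IsIrrCharacter (H.comap pr : Subgroup Γ)
      (fun h : (H.comap pr : Subgroup Γ) => β h) := by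
    apply isIrr_comp_of_ker_mul (H.comap pr).subtype hβ
    intro g
    obtain ⟨m, hm, h, hh, rfl⟩ := hcover g
    exact ⟨m, hβM m hm, ⟨h, hh⟩, rfl⟩
  have hβ'qp : QPrim (H.comap pr : Subgroup Γ) (fun h : (H.comap pr : Subgroup Γ) => β h) := by
    intro N' hN'
    have hnormal : (N'.map (H.comap pr).subtype ⊔ M₀).Normal := by
      apply sup_normal_of_cover M₀ (H.comap pr) (N'.map (H.comap pr).subtype) hcover
      rintro h hh _ ⟨n, hn, rfl⟩
      exact ⟨⟨h, hh⟩ * n * ⟨h, hh⟩⁻¹, hN'.conj_mem n hn _, rfl⟩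
    obtain ⟨κ, e, hκ, hκe⟩ := homog_transfer pr hsurj M₀ σ β hσ hσirr hβ hβM χ hχ hfac hqp
      (N'.map (H.comap pr).subtype) hnormal
    refine ⟨fun n : N' => κ (N'.equivMapOfInjective (H.comap pr).subtype
      (H.comap pr).subtype_injective n), e,
      (Cfsg.Agent.Helper79.isIrrCharacter_mulEquiv _).mpr hκ, ?_⟩
    funext n
    exact congrFun hκe (N'.equivMapOfInjective (H.comap pr).subtype
      (H.comap pr).subtype_injective n)
  have hprim := IH (charDegree β) hlt (H.comap pr : Subgroup Γ)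
    (fun h : (H.comap pr : Subgroup Γ) => β h) hβ' hβ'qp rfl
  -- the inflation of `ϑ`
  let prH : (H.comap pr : Subgroup Γ) →* H :=
    (pr.comp (H.comap pr).subtype).codRestrict H (fun h => h.2)
  have hprH : Function.Surjective prH := by
    rintro ⟨g, hg⟩
    obtain ⟨x, rfl⟩ := hsurj g
    exact ⟨⟨x, hg⟩, rfl⟩
  have hϑh : IsIrrCharacter (H.comap pr : Subgroup Γ) (fun h => ϑ (prH h)) :=
    Cfsg.Agent.Helper79.isIrrCharacter_comp prH hprH hϑ
  have hϑhc : IsCharacter (H.comap pr : Subgroup Γ) (fun h => ϑ (prH h)) := isChar_of_irr hϑh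
  have hindh : indFun (H.comap pr) (fun h => ϑ (prH h)) = fun x => χ (pr x) := by
    funext x
    rw [← hind]
    exact indFun_comap_surj pr hsurj H ϑ x
  have hχh : IsIrrCharacter Γ (fun x => χ (pr x)) :=
    Cfsg.Agent.Helper79.isIrrCharacter_comp pr hsurj hχ
  have hσ'c : IsCharacter (H.comap pr : Subgroup Γ)
      (fun h : (H.comap pr : Subgroup Γ) => σ h) :=
    Cfsg.Agent.Helper79.isCharacter_restrict (isChar_of_irr hσ) _
  -- Claim 1: `β' = ϑ̂ * conj σ'`
  have hΨc : IsCharacter (H.comap pr : Subgroup Γ)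
      ((fun h => ϑ (prH h)) * (fun h : (H.comap pr : Subgroup Γ) => conj (σ h))) :=
    Cfsg.Agent.Helper79.isCharacter_mul hϑhc (Cfsg.Agent.Helper79.isCharacter_conj hσ'c)
  have hΨβ : classInner
      ((fun h => ϑ (prH h)) * (fun h : (H.comap pr : Subgroup Γ) => conj (σ h)))
      (fun h : (H.comap pr : Subgroup Γ) => β h) = 1 := by
    have h1 : classInner
        ((fun h => ϑ (prH h)) * (fun h : (H.comap pr : Subgroup Γ) => conj (σ h)))
        (fun h : (H.comap pr : Subgroup Γ) => β h) =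
        classInner (fun h => ϑ (prH h))
          (fun h : (H.comap pr : Subgroup Γ) => (fun x => χ (pr x)) h) := by
      unfold classInner
      congr 1
      apply Finset.sum_congr rfl
      intro h _
      simp only [Pi.mul_apply]
      rw [hfac h, map_mul]
      ring
    rw [h1, ← Cfsg.Agent.Helper3.frobenius_reciprocity (H.comap pr) _ _
      (isClassFunction_of_isChar (isChar_of_irr hχh)), hindh]
    exact irr_inner_self hχh
  have hΨeq : ((fun h => ϑ (prH h)) * (fun h : (H.comap pr : Subgroup Γ) => conj (σ h))) =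
      fun h : (H.comap pr : Subgroup Γ) => β h := by
    have h1 : ((fun h => ϑ (prH h)) *
        (fun h : (H.comap pr : Subgroup Γ) => conj (σ h))) 1 =
        (fun h : (H.comap pr : Subgroup Γ) => β h) 1 := by
      show ϑ (prH 1) * conj (σ ((1 : (H.comap pr : Subgroup Γ)) : Γ)) =
        β ((1 : (H.comap pr : Subgroup Γ)) : Γ)
      rw [map_one, hϑ1]
      have h2 : σ ((1 : (H.comap pr : Subgroup Γ)) : Γ) = σ 1 := rfl
      have h3 : β ((1 : (H.comap pr : Subgroup Γ)) : Γ) = β 1 := rfl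
      rw [h2, h3, hσ1, hβ1, Complex.conj_natCast]
      push_cast
      ring
    have h4 := char_eq_smul_of_degree_le _ hΨc _ hβ' 1 (by rw [hΨβ]; simp) (by
      unfold charDegree
      rw [h1, one_mul])
    rw [h4, Nat.cast_one, one_smul]
  -- Claim 2: `σ'` is irreducible
  have hσ'irr : IsIrrCharacter (H.comap pr : Subgroup Γ)
      (fun h : (H.comap pr : Subgroup Γ) => σ h) := by
    let _ : Fintype (IrrCharacter (H.comap pr : Subgroup Γ)) := Fintype.ofFinite _
    refine isIrr_of_map_isIrr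
      (fun (ψ : ↥(H.comap pr) → ℂ) (h : ↥(H.comap pr)) =>
        ϑ (prH h) * conj (ψ h)) ?_ ?_ ?_ _ hσ'c ?_
    · intro m
      funext h
      simp only [Finset.sum_apply, Pi.smul_apply, smul_eq_mul, map_sum, map_mul,
        Complex.conj_natCast, Finset.mul_sum]
      apply Finset.sum_congr rfl
      intro φ' _
      ring
    · intro φ'
      exact Cfsg.Agent.Helper79.isCharacter_mul hϑhc
        (Cfsg.Agent.Helper79.isCharacter_conj (isChar_of_irr φ'.2))
    · intro φ' h0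
      have h1 := congrFun h0 1
      have h2 : ϑ (prH 1) * conj ((φ' : ↥(H.comap pr) → ℂ) 1) = 0 := h1
      rw [map_one, hϑ1] at h2
      rcases mul_eq_zero.mp h2 with h3 | h3
      · exact ha0 (by exact_mod_cast h3)
      · have h4 := congrArg conj h3
        rw [Complex.conj_conj, map_zero] at h4
        exact Cfsg.Agent.Helper80.irr_one_ne_zero φ' h4
    · have : (fun h : (H.comap pr : Subgroup Γ) => ϑ (prH h) * conj (σ h)) =
          fun h : (H.comap pr : Subgroup Γ) => β h := hΨeq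
      rw [this]
      exact hβ'
  -- the representation affording `σ`
  obtain ⟨dσ, ρ, hρ, hρσ⟩ := hσ
  have hρi : ρ.IsIrreducible := hρ
  have hnt : Nontrivial (Fin dσ → ℂ) := ((Cfsg.Agent.Helper79.isIrreducible_iff ρ).mp hρ).1
  have hfin : Module.finrank ℂ (Fin dσ → ℂ) = c₁ := by
    have h1 : ρ.character 1 = (c₁ : ℂ) := by rw [hρσ]; exact hσ1
    rw [Representation.char_one] at h1
    exact_mod_cast h1
  obtain ⟨fξ, hfξ⟩ := linChar_exists_hom ξ ⟨isChar_of_irr hξ, hξ1⟩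
  have hscalM : ∀ m₀ ∈ M₀, pr m₀ ∈ H.normalCore →
      ‖ρ.character m₀‖ = (Module.finrank ℂ (Fin dσ → ℂ) : ℝ) := by
    intro m₀ hm₀ hx
    rw [hρσ, hσM m₀ hm₀, Cfsg.Agent.Helper3.extendByZero_of_mem M φ (hCM hx),
      hφC ⟨pr m₀, hx⟩, norm_mul, hfξ, Cfsg.Agent.Helper79.norm_hom_apply fξ, mul_one, hfin]
    simp
  have hscal : ∀ x : Γ, pr x ∈ H.normalCore →
      ∃ ω : ℂ, ρ x = ω • (1 : Module.End ℂ (Fin dσ → ℂ)) := by
    intro x hx
    have hx' : pr x ∈ M₀.map pr := by rw [hmap]; exact hCM hx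
    obtain ⟨m₀, hm₀, hm₀x⟩ := hx'
    have hz : x * m₀⁻¹ ∈ Subgroup.center Γ := by
      apply hker
      rw [MonoidHom.mem_ker, map_mul, map_inv, hm₀x, mul_inv_cancel]
    obtain ⟨ωz, hωz⟩ := rep_central_scalar (ρ := ρ) hz
    obtain ⟨ωm, hωm⟩ := Cfsg.Agent.Helper3.rep_scalar_of_norm_eq ρ m₀
      (hscalM m₀ hm₀ (hm₀x ▸ hx))
    refine ⟨ωz * ωm, ?_⟩
    have h1 : x = (x * m₀⁻¹) * m₀ := by group
    rw [h1, map_mul, hωz, hωm]
    ext v
    simp [smul_smul, mul_comm]
  -- the two normal subgroups of the preimage of `H`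
  let pr' : (H.comap pr : Subgroup Γ) →* G := pr.comp (H.comap pr).subtype
  have hXR : H.normalCore.comap pr' ≤ K.comap pr' := Subgroup.comap_mono (hCM.trans hMK)
  obtain ⟨fX, hfX⟩ := exists_scalar_char (ρ.comp (H.comap pr).subtype)
    (H.normalCore.comap pr') (fun x hx => hscal x hx)
  have hσX : (fun x : (H.normalCore.comap pr' : Subgroup ↥(H.comap pr)) =>
      (fun h : ↥(H.comap pr) => σ h) x) = (c₁ : ℂ) • (fun x => ((fX x : ℂˣ) : ℂ)) := by
    funext x
    have h1 := char_of_rep_scalar (ρ := ρ) (x := ((x : ↥(H.comap pr)) : Γ)) (hfX x)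
    simp only [Pi.smul_apply, smul_eq_mul]
    rw [← hρσ, h1, hfin]
    ring
  have hsupK : K ⊔ H = ⊤ := top_le_iff.mp (hsup ▸ sup_le_sup_right hMK H)
  have hq0 : 0 < q := by omega
  have hcardKH : Nat.card (K ⊓ H : Subgroup G) = Nat.card H.normalCore * s := by
    have hc2 := chief_card_mul_of_sup_eq_top K H hsupK
    rw [← Subgroup.index_mul_card H, hidx, hKc, hMc] at hc2
    have hcardH : 0 < Nat.card H := Nat.card_pos
    have : (q * Nat.card H) * Nat.card (K ⊓ H : Subgroup G) =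
        (q * Nat.card H) * (Nat.card H.normalCore * s) := by
      rw [hc2]; ring
    exact Nat.eq_of_mul_eq_mul_left (Nat.mul_pos hq0 hcardH) this
  have hrange : pr'.range = H := by
    ext g
    constructor
    · rintro ⟨x, rfl⟩
      exact x.2
    · intro hg
      obtain ⟨x, rfl⟩ := hsurj g
      exact ⟨⟨x, hg⟩, rfl⟩
  have hrel : (H.normalCore.comap pr').relIndex (K.comap pr') = s := by
    rw [Subgroup.relIndex_comap, Subgroup.map_comap_eq, hrange]
    have h5 := Subgroup.relIndex_mul_relIndex (⊥ : Subgroup G) H.normalCore (K ⊓ H) bot_le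
      (le_inf (hCM.trans hMK) H.normalCore_le)
    rw [Subgroup.relIndex_bot_left, Subgroup.relIndex_bot_left, hcardKH] at h5
    rw [inf_comm]
    exact Nat.eq_of_mul_eq_mul_left Nat.card_pos h5
  have hcop' : Nat.Coprime c₁ ((H.normalCore.comap pr').relIndex (K.comap pr')) := by
    rw [hrel]
    exact Nat.Coprime.coprime_dvd_left (Dvd.intro c₁ hc₁q) hcop
  rcases homog_or_induced (H.normalCore.comap pr') (K.comap pr') hXR
    (fun h : ↥(H.comap pr) => σ h) hσ'irr (fun x => ((fX x : ℂˣ) : ℂ))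
    (Cfsg.Agent.Helper79.isIrrCharacter_of_hom fX) (by simp) c₁ hσX hcop' with
    hA | ⟨T, τ, hT, hτ, hτσ⟩
  · apply hnc
    intro m hm r hr
    have hm' : m ∈ M₀.map pr := by rw [hmap]; exact hm
    obtain ⟨m₀, hm₀, rfl⟩ := hm'
    obtain ⟨x, rfl⟩ := hsurj r
    have hxH : x ∈ H.comap pr := hr.2
    have hxR : (⟨x, hxH⟩ : ↥(H.comap pr)) ∈ K.comap pr' := hr.1
    have h1 : σ x * conj (σ x) = (c₁ : ℂ) * c₁ := hA ⟨x, hxH⟩ hxR
    have hnormx : ‖ρ.character x‖ = (Module.finrank ℂ (Fin dσ → ℂ) : ℝ) := by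
      rw [hfin, hρσ]
      rw [Complex.mul_conj, Complex.normSq_eq_norm_sq] at h1
      have h3 : ‖σ x‖ ^ 2 = (c₁ : ℝ) ^ 2 := by
        have : ((‖σ x‖ ^ 2 : ℝ) : ℂ) = (((c₁ : ℝ) ^ 2 : ℝ) : ℂ) := by
          rw [h1]; push_cast; ring
        exact_mod_cast this
      exact (sq_eq_sq₀ (norm_nonneg _) (Nat.cast_nonneg _)).mp h3
    obtain ⟨ωx, hωx⟩ := Cfsg.Agent.Helper3.rep_scalar_of_norm_eq ρ x hnormx
    have hy : m₀ * x * m₀⁻¹ * x⁻¹ ∈ M₀ := by
      have h2 := hM₀.conj_mem m₀⁻¹ (M₀.inv_mem hm₀) x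
      have h3 : m₀ * x * m₀⁻¹ * x⁻¹ = m₀ * (x * m₀⁻¹ * x⁻¹) := by group
      rw [h3]
      exact M₀.mul_mem hm₀ h2
    have hcomm : ρ m₀ * ρ x = ρ x * ρ m₀ := by
      rw [hωx]
      ext v
      simp
    have hρy : ρ (m₀ * x * m₀⁻¹ * x⁻¹) = 1 := by
      rw [map_mul, map_mul, map_mul, hcomm, ← map_mul, ← map_mul, ← map_mul]
      have : x * m₀ * m₀⁻¹ * x⁻¹ = 1 := by group
      rw [this, map_one]
    have hρy' : ρ (m₀ * x * m₀⁻¹ * x⁻¹) = ρ 1 := by rw [hρy, map_one]
    have hσy : σ (m₀ * x * m₀⁻¹ * x⁻¹) = σ 1 := by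
      rw [← hρσ]
      unfold Representation.character
      rw [hρy']
    have hprM : pr (m₀ * x * m₀⁻¹ * x⁻¹) ∈ M := by
      rw [← hmap]
      exact Subgroup.mem_map_of_mem pr hy
    have hpr1 : pr 1 ∈ M := by rw [map_one]; exact M.one_mem
    rw [hσM _ hy, hσM 1 M₀.one_mem, Cfsg.Agent.Helper3.extendByZero_of_mem M φ hprM,
      Cfsg.Agent.Helper3.extendByZero_of_mem M φ hpr1] at hσy
    have h4 : (⟨pr 1, hpr1⟩ : M) = 1 := Subtype.ext (map_one pr)
    rw [h4] at hσy
    have h5 := hkerφ ⟨_, hprM⟩ hσy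
    simpa [map_mul, map_inv] using h5
  · have hϑhcf : IsClassFunction ↥(H.comap pr) (fun h => ϑ (prH h)) :=
      isClassFunction_of_isChar hϑhc
    have hωc : IsCharacter T
        (fun t : T => conj (τ t) * (fun h : ↥(H.comap pr) => ϑ (prH h)) t) :=
      Cfsg.Agent.Helper79.isCharacter_mul
        (Cfsg.Agent.Helper79.isCharacter_conj (isChar_of_irr hτ))
        (Cfsg.Agent.Helper79.isCharacter_restrict hϑhc T)
    apply hprim T hT _ hωc
    rw [indFun_mul_restrict T (fun t => conj (τ t)) hϑhcf]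
    have h1 : indFun T (fun t => conj (τ t)) = fun h : ↥(H.comap pr) => conj (σ h) := by
      funext g
      rw [← Cfsg.Agent.Helper4.conj_indFun, hτσ]
    rw [h1, ← hΨeq]
    funext h
    simp only [Pi.mul_apply]
    ring

end BergerB3Main

end Cfsg.Agent.Helper15
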