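import Mathlib
import Cfsg.Prelude.Def_Characters
import Cfsg.Prelude.Def_Blocks
import Cfsg.Agent.Helper15.BergerB3Main

set_option autoImplicit false

namespace Cfsg.Agent.Helper15

open Cfsg
open scoped ComplexConjugate

section Berger

universe u

/-- Berger's theorem: a quasi-primitive irreducible character of a finite solvable group is
primitive. -/
theorem berger_all (d : ℕ) : BergerP.{u} d := by
  induction d using Nat.strong_induction_on with
  | _ d IH =>
    intro G _ _ _ χ hχ hqp hdeg K hK ψ hψ hind
    subst hdeg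
    obtain ⟨H, ϑ, hH, hϑ, hindH⟩ := exists_max_irr_ind χ hχ K hK ψ hψ hind
    obtain ⟨ξ, e₀, hξ, hC⟩ := hqp H.normalCore inferInstance
    by_cases hlin : charDegree ξ = 1
    · have hξ1 : ξ 1 = 1 := by
        rw [Cfsg.Agent.Helper80.isCharacter_one_eq (isChar_of_irr hξ), hlin]
        simp
      exact berger_linear_core χ hχ hqp IH H hH ϑ hϑ hindH ξ hξ e₀ hC hξ1
    · exact berger_nonlinear_core χ hχ hqp IH H hH.1 ϑ hϑ hindH ξ hξ e₀ hC hlin

end Berger

end Cfsg.Agent.Helper15
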