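import Mathlib
import Cfsg.Prelude.Def_Characters
import Cfsg.Prelude.Def_Blocks

/-!
# Isaacs 12.15 (three character degrees): a definition used by the pieces
-/

set_option autoImplicit false

namespace Cfsg.Agent.Helper15

open Cfsg

universe u

/-- The set `X = {1_R} ∪ {constituents of χ_R : χ ∈ Irr(G | R), χ(1) = m}`. -/
def cd3X {G : Type u} [Group G] (R : Subgroup G) [Fintype R] (m : ℕ) : Set (IrrCharacter R) :=
  {θ | (θ : R → ℂ) = (fun _ => 1) ∨ ∃ χ : IrrCharacter G, charDegree (χ : G → ℂ) = m ∧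
      (∃ x ∈ R, (χ : G → ℂ) x ≠ (χ : G → ℂ) 1) ∧
      classInner (fun r : R => (χ : G → ℂ) r) (θ : R → ℂ) ≠ 0}

end Cfsg.Agent.Helper15
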