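import Mathlib
import Cfsg.Prelude.Def_Characters
import Cfsg.Prelude.Def_Blocks
import Cfsg.Agent.Helper75.ConjFun
import Cfsg.Agent.Helper80.LinExt
import Cfsg.Agent.Helper15.CD3Defs
import Cfsg.Agent.Helper74.CD3MGroup
import Cfsg.Agent.Helper74.CD3Taketa
import Cfsg.Agent.Helper51.CD3FrobAbelian
import Cfsg.Agent.Helper51.CD3FrobCenter
import Cfsg.Agent.Helper51.CD3FrobFpf
import Cfsg.Agent.Helper80.CD3Tate
import Cfsg.Agent.Helper80.CD3BB
import Cfsg.Agent.Helper34.CD3LemmaW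
import Cfsg.Agent.Helper74.CD3Ind
import Cfsg.Agent.Helper81.CD3XClosed
import Cfsg.Agent.Helper74.CD3Purity

/-!
# Isaacs 12.15 (three character degrees): the leaf lemmas, collected from the pieces of CALL S4460
-/

set_option autoImplicit false

namespace Cfsg.Agent.Helper15

open Cfsg

universe u

/-- P1. A group with an abelian normal subgroup with nilpotent quotient is an M-group. -/
theorem cd3_mgroup {G : Type u} [Group G] [Fintype G] (L : Subgroup G) [L.Normal]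
    (hLab : ∀ a ∈ L, ∀ b ∈ L, a * b = b * a) (hnil : Group.IsNilpotent (G ⧸ L))
    (χ : G → ℂ) (hχ : IsIrrCharacter G χ) :
    ∃ (H : Subgroup G) (lam : H →* ℂˣ), χ = indFun H (fun h => ((lam h : ℂˣ) : ℂ)) :=
  Helper74.cd3_mgroup L hLab hnil χ hχ

/-- P2. Taketa for three degrees: an M-group all of whose irreducible character degrees lie in
`{1, a, b}` has derived length at most 3. -/
theorem cd3_taketa {G : Type u} [Group G] [Fintype G]
    (hM : ∀ χ : G → ℂ, IsIrrCharacter G χ → ∃ (H : Subgroup G) (lam : H →* ℂˣ),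
      χ = indFun H (fun h => ((lam h : ℂˣ) : ℂ)))
    (a b : ℕ)
    (hcd : ∀ χ : IrrCharacter G, charDegree (χ : G → ℂ) = 1 ∨ charDegree (χ : G → ℂ) = a ∨
      charDegree (χ : G → ℂ) = b) :
    derivedSeries G 3 = ⊥ :=
  Helper74.cd3_taketa hM a b hcd

/-- P3a. `Q'` is an abelian `p`-group. -/
theorem cd3_frob_abelian {Q : Type u} [Group Q] [Finite Q] (hsol : Group.IsSolvable Q)
    (hna : ∃ x y : Q, x * y ≠ y * x)
    (hmin : ∀ N : Subgroup Q, N.Normal → N ≠ ⊥ → commutator Q ≤ N) :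
    ∃ p : ℕ, p.Prime ∧ IsPGroup p (commutator Q) ∧
      (∀ x ∈ commutator Q, ∀ y ∈ commutator Q, x * y = y * x) :=
  Helper51.cd3_frob_abelian hsol hna hmin

/-- P3b. If the centre is nontrivial, `Q` is a `p`-group. -/
theorem cd3_frob_center {Q : Type u} [Group Q] [Finite Q]
    (hmin : ∀ N : Subgroup Q, N.Normal → N ≠ ⊥ → commutator Q ≤ N)
    (p : ℕ) (hp : p.Prime) (hM : IsPGroup p (commutator Q)) (hM1 : commutator Q ≠ ⊥)
    (hZ : Subgroup.center Q ≠ ⊥) : IsPGroup p Q :=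
  Helper51.cd3_frob_center hmin p hp hM hM1 hZ

/-- P3c. If the centre is trivial, `Q` is a Frobenius group with kernel `Q'`. -/
theorem cd3_frob_fpf {Q : Type u} [Group Q] [Finite Q]
    (hmin : ∀ N : Subgroup Q, N.Normal → N ≠ ⊥ → commutator Q ≤ N)
    (p : ℕ) (hp : p.Prime) (hM : IsPGroup p (commutator Q)) (hM1 : commutator Q ≠ ⊥)
    (hMab : ∀ x ∈ commutator Q, ∀ y ∈ commutator Q, x * y = y * x)
    (hZ : Subgroup.center Q = ⊥) :
    ¬ p ∣ (commutator Q).index ∧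
      ∀ g : Q, g ∉ commutator Q → ∀ x ∈ commutator Q, g * x = x * g → x = 1 :=
  Helper51.cd3_frob_fpf hmin p hp hM hM1 hMab hZ

/-- P4. "Lemma W". -/
theorem cd3_lemmaW {G : Type u} [Group G] [Finite G] (N K : Subgroup G) [N.Normal] [K.Normal]
    (hKN : K ≤ N) (hab : ∀ x y : G, x * y * x⁻¹ * y⁻¹ ∈ N)
    (hfpf : ∀ g : G, g ∉ N → ∀ μ : N →* ℂˣ, (∀ x : N, (x : G) ∈ K → μ x = 1) →
      Helper75.conjFun N g (fun x => ((μ x : ℂˣ) : ℂ)) = (fun x => ((μ x : ℂˣ) : ℂ)) → μ = 1)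
    (ψ : N → ℂ) (hψ : IsClassFunction N ψ)
    (hfix : ∀ μ : N →* ℂˣ, (∀ x : N, (x : G) ∈ K → μ x = 1) →
      ∃ g : G, g ∉ N ∧ Helper75.conjFun N g (fun x => ψ x * ((μ x : ℂˣ) : ℂ)) =
        fun x => ψ x * ((μ x : ℂˣ) : ℂ))
    (μ : N →* ℂˣ) (hμ : ∀ x : N, (x : G) ∈ K → μ x = 1) (x : N) :
    ψ x * ((μ x : ℂˣ) : ℂ) = ψ x :=
  Helper34.cd3_lemmaW N K hKN hab hfpf ψ hψ hfix μ hμ x

/-- P5a. An irreducible character of a normal subgroup whose inertia group is the subgroup itself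
induces irreducibly. -/
theorem cd3_ind_irr {G : Type u} [Group G] [Fintype G] (N : Subgroup G) [N.Normal] [Fintype N]
    (θ : N → ℂ) (hθ : IsIrrCharacter N θ)
    (hT : ∀ g : G, Helper75.conjFun N g θ = θ → g ∈ N) :
    IsIrrCharacter G (indFun N θ) :=
  Helper74.cd3_ind_irr N θ hθ hT

/-- P5b. Linear characters of `N` trivial on `K` separate the points of `N / K` (abelian). -/
theorem cd3_exists_hom_sep {G : Type u} [Group G] [Finite G] (N K : Subgroup G)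
    [N.Normal] [K.Normal] (hKN : K ≤ N)
    (hNK : ∀ x ∈ N, ∀ y ∈ N, x * y * x⁻¹ * y⁻¹ ∈ K) (x : N) (hx : (x : G) ∉ K) :
    ∃ μ : N →* ℂˣ, (∀ y : N, (y : G) ∈ K → μ y = 1) ∧ μ x ≠ 1 :=
  Helper74.cd3_exists_hom_sep N K hKN hNK x hx

/-- P5c. Fixed-point-free action on `N / K` gives fixed-point-free action on its dual. -/
theorem cd3_fpf_dual {G : Type u} [Group G] [Finite G] (N K : Subgroup G) [N.Normal] [K.Normal]
    (hKN : K ≤ N) (hNK : ∀ x ∈ N, ∀ y ∈ N, x * y * x⁻¹ * y⁻¹ ∈ K)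
    (hfp : ∀ g : G, g ∉ N → ∀ x ∈ N, g * x * g⁻¹ * x⁻¹ ∈ K → x ∈ K)
    (g : G) (hg : g ∉ N) (μ : N →* ℂˣ) (hμ : ∀ x : N, (x : G) ∈ K → μ x = 1)
    (hfix : Helper75.conjFun N g (fun x => ((μ x : ℂˣ) : ℂ)) = (fun x => ((μ x : ℂˣ) : ℂ))) :
    μ = 1 :=
  Helper74.cd3_fpf_dual N K hKN hNK hfp g hg μ hμ hfix

/-- P5d. In the Frobenius situation, `|G : N|` is a character degree of `G`. -/
theorem cd3_exists_degree_index {G : Type u} [Group G] [Finite G] (N K : Subgroup G)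
    [N.Normal] [K.Normal] (hKN : K ≤ N) (hne : K ≠ N)
    (hNK : ∀ x ∈ N, ∀ y ∈ N, x * y * x⁻¹ * y⁻¹ ∈ K)
    (hfp : ∀ g : G, g ∉ N → ∀ x ∈ N, g * x * g⁻¹ * x⁻¹ ∈ K → x ∈ K) :
    ∃ χ : IrrCharacter G, charDegree (χ : G → ℂ) = N.index :=
  Helper74.cd3_exists_degree_index N K hKN hne hNK hfp

/-- P6. If `R` is a nontrivial perfect normal subgroup of `G`, the irreducible characters of `G`
not containing `R` in their kernel cannot all have the same degree. -/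
theorem cd3_not_all_same {G : Type u} [Group G] [Finite G] (R : Subgroup G) [R.Normal]
    (hperf : commutator R = ⊤) (hR : R ≠ ⊥) (d : ℕ)
    (h : ∀ χ : IrrCharacter G, (∃ x ∈ R, (χ : G → ℂ) x ≠ (χ : G → ℂ) 1) →
      charDegree (χ : G → ℂ) = d) : False :=
  Helper80.cd3_not_all_same R hperf hR d h

/-- P7. Purity of the product `χ ψ`. -/
theorem cd3_purity {G : Type u} [Group G] [Fintype G] (R : Subgroup G) [R.Normal]
    (hperf : commutator R = ⊤) (hmin : ∀ N : Subgroup G, N.Normal → N ≠ ⊥ → R ≤ N)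
    (m n : ℕ) (hm : 1 < m) (hmn : m < n) (hcop : Nat.Coprime m n)
    (hcd : ∀ χ : IrrCharacter G, charDegree (χ : G → ℂ) = 1 ∨ charDegree (χ : G → ℂ) = m ∨
      charDegree (χ : G → ℂ) = n)
    (χ ψ : IrrCharacter G) (hχ : charDegree (χ : G → ℂ) = m) (hψ : charDegree (ψ : G → ℂ) = n)
    (hχR : ∃ x ∈ R, (χ : G → ℂ) x ≠ (χ : G → ℂ) 1)
    (hψR : ∃ x ∈ R, (ψ : G → ℂ) x ≠ (ψ : G → ℂ) 1)
    (ξ : IrrCharacter G)
    (hξ : classInner ((χ : G → ℂ) * (ψ : G → ℂ)) (ξ : G → ℂ) ≠ 0) :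
    charDegree (ξ : G → ℂ) = n :=
  Helper74.cd3_purity R hperf hmin m n hm hmn hcop hcd χ ψ hχ hψ hχR hψR ξ hξ

/-- P8. Burnside–Brauer for a product-closed set of irreducible characters with trivial common
kernel. -/
theorem cd3_burnside_brauer {R : Type u} [Group R] [Fintype R] (X : Set (IrrCharacter R))
    (h1 : ∀ θ : IrrCharacter R, (θ : R → ℂ) = (fun _ => 1) → θ ∈ X)
    (hmul : ∀ θ₁ ∈ X, ∀ θ₂ ∈ X, ∀ η : IrrCharacter R,
      classInner ((θ₁ : R → ℂ) * (θ₂ : R → ℂ)) (η : R → ℂ) ≠ 0 → η ∈ X)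
    (hfaith : ∀ x : R, (∀ θ ∈ X, (θ : R → ℂ) x = (θ : R → ℂ) 1) → x = 1)
    (η : IrrCharacter R) : η ∈ X :=
  Helper80.cd3_burnside_brauer X h1 hmul hfaith η

/-- P10a. `X` is closed under taking constituents of products (given purity). -/
theorem cd3_X_closed {G : Type u} [Group G] [Fintype G] (R : Subgroup G) [R.Normal] [Fintype R]
    (hperf : commutator R = ⊤) (m n : ℕ) (hmn : m ≠ n)
    (hcd : ∀ χ : IrrCharacter G, charDegree (χ : G → ℂ) = 1 ∨ charDegree (χ : G → ℂ) = m ∨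
      charDegree (χ : G → ℂ) = n)
    (hpure : ∀ χ ψ ξ : IrrCharacter G, charDegree (χ : G → ℂ) = m →
      charDegree (ψ : G → ℂ) = n → (∃ x ∈ R, (χ : G → ℂ) x ≠ (χ : G → ℂ) 1) →
      (∃ x ∈ R, (ψ : G → ℂ) x ≠ (ψ : G → ℂ) 1) →
      classInner ((χ : G → ℂ) * (ψ : G → ℂ)) (ξ : G → ℂ) ≠ 0 → charDegree (ξ : G → ℂ) = n)
    (θ₁ θ₂ : IrrCharacter R) (h₁ : θ₁ ∈ cd3X R m) (h₂ : θ₂ ∈ cd3X R m) (η : IrrCharacter R)
    (hη : classInner ((θ₁ : R → ℂ) * (θ₂ : R → ℂ)) (η : R → ℂ) ≠ 0) : η ∈ cd3X R m :=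
  Helper81.cd3_X_closed R hperf m n hmn hcd hpure θ₁ θ₂ h₁ h₂ η hη

end Cfsg.Agent.Helper15
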