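import Mathlib
import Cfsg.Agent.Helper15.CD3Leaves
import Cfsg.Agent.Helper78.CD3CaseB

/-!
# Isaacs 12.15 (three character degrees): the Frobenius case (piece P9 of CALL S4460, proved by helper78)
-/

set_option autoImplicit false

namespace Cfsg.Agent.Helper15

open Cfsg

universe u

/-- P9. The Frobenius case: every irreducible character of `N` has degree `1` or `d`. -/
theorem cd3_caseB {G : Type u} [Group G] [Finite G] (N K : Subgroup G) [N.Normal] [K.Normal]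
    (hKN : K ≤ N) (hab : ∀ x y : G, x * y * x⁻¹ * y⁻¹ ∈ N)
    (hNK : ∀ x ∈ N, ∀ y ∈ N, x * y * x⁻¹ * y⁻¹ ∈ K)
    (p : ℕ) (hp : p.Prime) (hpNK : ∀ x ∈ N, ∃ k : ℕ, x ^ p ^ k ∈ K) (hne : K ≠ N)
    (hpf : ¬ p ∣ N.index) (hf : N.index ≠ 1)
    (hfp : ∀ g : G, g ∉ N → ∀ x ∈ N, g * x * g⁻¹ * x⁻¹ ∈ K → x ∈ K)
    (d : ℕ) (hd : d ≠ 1) (hcop : Nat.Coprime N.index d)
    (hcd : ∀ χ : IrrCharacter G, charDegree (χ : G → ℂ) = 1 ∨
      charDegree (χ : G → ℂ) = N.index ∨ charDegree (χ : G → ℂ) = d)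
    (ψ : IrrCharacter N) : charDegree (ψ : N → ℂ) = 1 ∨ charDegree (ψ : N → ℂ) = d :=
  Helper78.cd3_caseB N K hKN hab hNK p hp hpNK hne hpf hf hfp d hd hcop hcd ψ

end Cfsg.Agent.Helper15
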