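import Mathlib
import Cfsg.Agent.Helper15.RamGen
import Cfsg.Agent.Helper15.Gallagher
import Cfsg.Agent.Helper15.Gallagher2
import Cfsg.Agent.Helper15.CharInner
import Cfsg.Agent.Helper80.ResExt
import Cfsg.Agent.Helper75.CliffordCorr
import Cfsg.Agent.Helper79.Linear
import Cfsg.Agent.Helper79.Induced
import Cfsg.Agent.Helper79.Quotient
import Cfsg.Agent.S4458

/-!
# Isaacs 12.15 (three character degrees): glue tools (helper15)
-/

set_option autoImplicit false

namespace Cfsg.Agent.Helper15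

open Cfsg

universe u

/-- Every irreducible character of a subgroup lies under some irreducible character. -/
theorem cd3_exists_over {G : Type u} [Group G] [Fintype G] (N : Subgroup G) [Fintype N]
    (θ : N → ℂ) (hθ : IsIrrCharacter N θ) :
    ∃ χ : IrrCharacter G, classInner (fun n : N => (χ : G → ℂ) n) θ ≠ 0 := by
  have hθc := isChar_of_irr hθ
  have hΦ := Helper3.isCharacter_indFun N θ hθc
  have h1 : indFun N θ 1 ≠ 0 := by
    rw [Helper79.indFun_apply_one]
    have h2 : θ 1 ≠ 0 := Helper3.irr_apply_one_ne_zero hθ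
    have h3 : (N.index : ℂ) ≠ 0 := by
      exact_mod_cast Subgroup.index_ne_zero_of_finite
    exact mul_ne_zero h3 h2
  obtain ⟨χ, hχ, hne⟩ := Helper75.exists_irr_constituent hΦ h1
  refine ⟨⟨χ, hχ⟩, ?_⟩
  rw [Helper3.frobenius_reciprocity N θ χ (isClassFunction_of_isChar (isChar_of_irr hχ))] at hne
  intro h0
  apply hne
  rw [classInner_conj_symm, h0, map_zero]

/-- If `χ(1)` is coprime to `|G : N|`, then `χ_N` is the constituent `θ`. -/
theorem cd3_restrict_eq_of_coprime {G : Type u} [Group G] [Fintype G] (N : Subgroup G)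
    [N.Normal] [Fintype N] (χ : G → ℂ) (hχ : IsIrrCharacter G χ)
    (hcop : (charDegree χ).Coprime N.index)
    (θ : N → ℂ) (hθ : IsIrrCharacter N θ) (hne : classInner (fun n : N => χ n) θ ≠ 0) :
    (fun n : N => χ n) = θ := by
  obtain ⟨k, hk, hkd⟩ := degree_eq_mul_of_constituent N χ hχ θ hθ hne
  have hχ1 := Helper80.isCharacter_one_eq (isChar_of_irr hχ)
  have hθ1 := Helper80.isCharacter_one_eq (isChar_of_irr hθ)
  have hdeg : charDegree χ = k * charDegree θ := by
    rw [hχ1, hθ1] at hk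
    exact_mod_cast hk
  have hk1 : k = 1 := by
    have h1 : k ∣ charDegree χ := ⟨_, hdeg⟩
    exact Nat.eq_one_of_dvd_coprimes hcop h1 hkd
  apply Helper80.eq_of_constituent_of_degree_eq (Helper79.isCharacter_restrict (isChar_of_irr hχ) N)
    hθ hne
  show χ 1 = θ 1
  rw [hk, hk1]
  simp

/-- Gallagher: if `χ(1)` is coprime to `|G : K|` and `β` is an irreducible character of `G / K`,
then `χ β` is irreducible. -/
theorem cd3_gallagher {G : Type u} [Group G] [Finite G] (K : Subgroup G) [K.Normal]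
    (χ β : IrrCharacter G) (hcop : (charDegree (χ : G → ℂ)).Coprime K.index)
    (hβ : ∀ k ∈ K, (β : G → ℂ) k = (β : G → ℂ) 1) :
    ∃ ξ : IrrCharacter G,
      charDegree (ξ : G → ℂ) = charDegree (χ : G → ℂ) * charDegree (β : G → ℂ) := by
  classical
  have : Fintype G := Fintype.ofFinite G
  have : Fintype K := Fintype.ofFinite K
  have hχc := isChar_of_irr χ.2
  have hres := Helper79.isCharacter_restrict hχc K
  have h1 : (fun k : K => (χ : G → ℂ) k) 1 ≠ 0 := Helper3.irr_apply_one_ne_zero χ.2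
  obtain ⟨θ, hθ, hne⟩ := Helper75.exists_irr_constituent hres h1
  have heq := cd3_restrict_eq_of_coprime K χ χ.2 hcop θ hθ hne
  have hirr : IsIrrCharacter K (fun k : K => (χ : G → ℂ) k) := by rw [heq]; exact hθ
  have hprod : IsIrrCharacter K ((fun _ : K => (1 : ℂ)) * (fun k : K => (χ : G → ℂ) k)) := by
    have : ((fun _ : K => (1 : ℂ)) * (fun k : K => (χ : G → ℂ) k)) =
        (fun k : K => (χ : G → ℂ) k) := by
      funext k
      simp
    rw [this]
    exact hirr
  have hβ' : classInner (indFun K (fun _ => (1 : ℂ))) (β : G → ℂ) ≠ 0 :=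
    (inner_ind_one_ne_zero_iff K β.2).mpr hβ
  have hmain := gallagher_mul_irr K (fun _ : K => (1 : ℂ)) (fun k : K => (χ : G → ℂ) k)
    Helper80.trivial_isIrrCharacter (fun _ _ => rfl) hprod (χ : G → ℂ) hχc (fun _ => rfl)
    (β : G → ℂ) β.2 hβ'
  refine ⟨⟨(β : G → ℂ) * (χ : G → ℂ), hmain.1⟩, ?_⟩
  apply Helper75.charDegree_of_one_eq_nat
  show (β : G → ℂ) 1 * (χ : G → ℂ) 1 = _
  rw [Helper80.irr_one_eq β, Helper80.irr_one_eq χ]
  push_cast
  ring

/-- At most two character degrees: the second derived subgroup is trivial. -/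
theorem cd3_two {G : Type u} [Group G] [Finite G] (c : ℕ)
    (hcd : ∀ χ : IrrCharacter G, charDegree (χ : G → ℂ) = 1 ∨ charDegree (χ : G → ℂ) = c) :
    derivedSeries G 2 = ⊥ := by
  have hds1 : derivedSeries G 1 = commutator G := by
    rw [derivedSeries_succ, derivedSeries_zero, commutator_def]
  by_cases hc : c ≠ 1 ∧ ∃ χ : IrrCharacter G, charDegree (χ : G → ℂ) = c
  · have hab := Cfsg.Agent.S4458.result c hcd hc.2 hc.1
    rw [derivedSeries_succ, hds1, eq_bot_iff, Subgroup.commutator_le]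
    intro a ha b hb
    rw [Subgroup.mem_bot, commutatorElement_eq_one_iff_commute]
    exact hab a ha b hb
  · have hall : ∀ χ : IrrCharacter G, charDegree (χ : G → ℂ) = 1 := by
      intro χ
      rcases hcd χ with h | h
      · exact h
      · by_contra h1
        exact hc ⟨fun hc1 => h1 (h.trans hc1), χ, h⟩
    have hcomm : commutator G = ⊥ := by
      by_contra hne
      obtain ⟨χ, hχ⟩ := Helper79.exists_nonlinear_of_commutator_ne_bot hne
      exact hχ (hall χ)
    rw [derivedSeries_succ, hds1, hcomm]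
    exact Subgroup.commutator_bot_left ⊥

/-- Inflation of an irreducible character of a quotient. -/
theorem cd3_quotient_irr {G : Type u} [Group G] [Finite G] (N : Subgroup G) [N.Normal]
    (ψ : IrrCharacter (G ⧸ N)) :
    ∃ χ : IrrCharacter G, charDegree (χ : G → ℂ) = charDegree (ψ : G ⧸ N → ℂ) ∧
      ∀ g : G, (χ : G → ℂ) g = (ψ : G ⧸ N → ℂ) (g : G ⧸ N) :=
  ⟨⟨fun g => (ψ : G ⧸ N → ℂ) (g : G ⧸ N), (Helper79.isIrrCharacter_quotient_iff N _).mp ψ.2⟩,
    rfl, fun _ => rfl⟩

/-- Degrees pass to quotients. -/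
theorem cd3_quotient {G : Type u} [Group G] [Finite G] (N : Subgroup G) [N.Normal] (a b : ℕ)
    (hcd : ∀ χ : IrrCharacter G, charDegree (χ : G → ℂ) = 1 ∨ charDegree (χ : G → ℂ) = a ∨
      charDegree (χ : G → ℂ) = b) (ψ : IrrCharacter (G ⧸ N)) :
    charDegree (ψ : G ⧸ N → ℂ) = 1 ∨ charDegree (ψ : G ⧸ N → ℂ) = a ∨
      charDegree (ψ : G ⧸ N → ℂ) = b := by
  obtain ⟨χ, hχ, -⟩ := cd3_quotient_irr N ψ
  rw [← hχ]
  exact hcd χ

/-- The `r'`-part of `r ^ j * t`. -/
theorem cd3_ordc (r j t : ℕ) (hr : r.Prime) (ht : ¬ r ∣ t) :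
    (r ^ j * t) / r ^ ((r ^ j * t).factorization r) = t := by
  have ht0 : t ≠ 0 := fun h => ht (h ▸ dvd_zero r)
  have h1 : (r ^ j * t).factorization r = j := by
    rw [Nat.factorization_mul (pow_ne_zero _ hr.ne_zero) ht0, Finsupp.add_apply,
      Nat.Prime.factorization_pow hr, Nat.factorization_eq_zero_of_not_dvd ht]
    simp
  rw [h1, Nat.mul_div_cancel_left _ (pow_pos hr.pos j)]

/-- Irreducible characters of a normal `r`-complement: degree is the `r'`-part of a degree of
`G`. -/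
theorem cd3_rcompl {G : Type u} [Group G] [Finite G] (r : ℕ) (hr : r.Prime) (L : Subgroup G)
    [L.Normal] (hL : (Nat.card L).Coprime r) (k : ℕ) (hk : L.index = r ^ k)
    (θ : IrrCharacter L) :
    ∃ χ : IrrCharacter G, charDegree (θ : L → ℂ) =
      charDegree (χ : G → ℂ) / r ^ ((charDegree (χ : G → ℂ)).factorization r) := by
  classical
  have : Fintype G := Fintype.ofFinite G
  have : Fintype L := Fintype.ofFinite L
  obtain ⟨χ, hne⟩ := cd3_exists_over L (θ : L → ℂ) θ.2
  obtain ⟨c, hc, hcd⟩ := degree_eq_mul_of_constituent L (χ : G → ℂ) χ.2 (θ : L → ℂ) θ.2 hne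
  rw [hk] at hcd
  obtain ⟨j, -, rfl⟩ := (Nat.dvd_prime_pow hr).mp hcd
  have hdeg : charDegree (χ : G → ℂ) = r ^ j * charDegree (θ : L → ℂ) := by
    rw [Helper80.irr_one_eq χ, Helper80.irr_one_eq θ] at hc
    exact_mod_cast hc
  have hndvd : ¬ r ∣ charDegree (θ : L → ℂ) := by
    intro h
    have h1 : r ∣ Nat.card L := h.trans (Helper79.irr_charDegree_dvd_card θ)
    have h2 : r ∣ Nat.gcd (Nat.card L) r := Nat.dvd_gcd h1 dvd_rfl
    rw [hL] at h2
    exact hr.one_lt.ne' (Nat.dvd_one.mp h2)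
  refine ⟨χ, ?_⟩
  rw [hdeg, cd3_ordc r j _ hr hndvd]

end Cfsg.Agent.Helper15
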