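import Mathlib
import Cfsg.Agent.Helper15.CD3Tools
import Cfsg.Agent.Helper15.CD3Leaves
import Cfsg.Agent.Helper75.Ito
import Cfsg.Agent.S4456

/-!
# Isaacs 12.15 (three character degrees): the case of a common prime divisor (helper15)
-/

set_option autoImplicit false

namespace Cfsg.Agent.Helper15

open Cfsg

open scoped commutatorElement

universe u

theorem cd3_ds_le_map {G : Type u} [Group G] (L : Subgroup G) (k j : ℕ)
    (h : derivedSeries G k ≤ (derivedSeries L j).map L.subtype) (i : ℕ) :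
    derivedSeries G (k + i) ≤ (derivedSeries L (j + i)).map L.subtype := by
  induction i with
  | zero => simpa using h
  | succ i ih =>
    rw [← add_assoc, ← add_assoc, derivedSeries_succ, derivedSeries_succ, Subgroup.map_commutator]
    exact Subgroup.commutator_mono ih ih

theorem cd3_ds_le_of_quotient {G : Type u} [Group G] (M : Subgroup G) [M.Normal] (k : ℕ)
    (h : derivedSeries (G ⧸ M) k = ⊥) : derivedSeries G k ≤ M := by
  have h1 := map_derivedSeries_eq (f := QuotientGroup.mk' M) (QuotientGroup.mk'_surjective M) k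
  rw [h, Subgroup.map_eq_bot_iff, QuotientGroup.ker_mk'] at h1
  exact h1

theorem cd3_ds_one {G : Type u} [Group G] : derivedSeries G 1 = commutator G := by
  rw [derivedSeries_succ, derivedSeries_zero, commutator_def]

theorem cd3_map_ds_zero {G : Type u} [Group G] (L : Subgroup G) :
    (derivedSeries L 0).map L.subtype = L := by
  rw [derivedSeries_zero, ← MonoidHom.range_eq_map, Subgroup.range_subtype]

theorem cd3_map_ds_one {G : Type u} [Group G] (L : Subgroup G) :
    (derivedSeries L 1).map L.subtype = ⁅L, L⁆ := by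
  rw [derivedSeries_succ, Subgroup.map_commutator, cd3_map_ds_zero]

/-- All irreducible characters linear: the group is abelian. -/
theorem cd3_one {G : Type u} [Group G] [Finite G]
    (h : ∀ χ : IrrCharacter G, charDegree (χ : G → ℂ) = 1) : commutator G = ⊥ := by
  by_contra hne
  obtain ⟨χ, hχ⟩ := Helper79.exists_nonlinear_of_commutator_ne_bot hne
  exact hχ (h χ)

/-- Thompson's normal `r`-complement and its character degrees. -/
theorem cd3_thompson {G : Type u} [Group G] [Finite G] (a b : ℕ)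
    (hcd : ∀ χ : IrrCharacter G, charDegree (χ : G → ℂ) = 1 ∨ charDegree (χ : G → ℂ) = a ∨
      charDegree (χ : G → ℂ) = b)
    (ha : ∃ χ : IrrCharacter G, charDegree (χ : G → ℂ) = a)
    (r : ℕ) (hr : r.Prime) (hra : r ∣ a) (hrb : r ∣ b) :
    ∃ L : Subgroup G, L.Normal ∧ (∃ k : ℕ, L.index = r ^ k) ∧ Nat.card L < Nat.card G ∧
      ∀ θ : IrrCharacter L, charDegree (θ : L → ℂ) = 1 ∨
        charDegree (θ : L → ℂ) = a / r ^ (a.factorization r) ∨
        charDegree (θ : L → ℂ) = b / r ^ (b.factorization r) := by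
  obtain ⟨L, hLn, hLcop, k, hk⟩ := Cfsg.Agent.S4456.result (G := G) r hr (by
    intro χ hχ
    rcases hcd χ with h | h | h
    · exact absurd h hχ
    · rw [h]; exact hra
    · rw [h]; exact hrb)
  have := hLn
  refine ⟨L, hLn, ⟨k, hk⟩, ?_, ?_⟩
  · obtain ⟨χ, hχ⟩ := ha
    have h1 : r ∣ Nat.card G := (hχ ▸ hra).trans (Helper79.irr_charDegree_dvd_card χ)
    have h2 : ¬ r ∣ Nat.card L := by
      intro h
      have h3 : r ∣ Nat.gcd (Nat.card L) r := Nat.dvd_gcd h dvd_rfl
      rw [hLcop] at h3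
      exact hr.one_lt.ne' (Nat.dvd_one.mp h3)
    have h3 : Nat.card L ≤ Nat.card G := Subgroup.card_le_card_group L
    rcases h3.lt_or_eq with h | h
    · exact h
    · rw [h] at h2
      exact absurd h1 h2
  · intro θ
    obtain ⟨χ, hχ⟩ := cd3_rcompl r hr L hLcop k hk θ
    rcases hcd χ with h | h | h
    · left
      rw [hχ, h]
      simp
    · right; left
      rw [hχ, h]
    · right; right
      rw [hχ, h]

theorem cd3_ordc_pow (r i : ℕ) (hr : r.Prime) : r ^ i / r ^ ((r ^ i).factorization r) = 1 := by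
  rw [Nat.Prime.factorization_pow hr]
  simp only [Finsupp.single_eq_same]
  exact Nat.div_self (pow_pos hr.pos i)

/-- Case 1, sub-case: `a` is a power of `r`, `b` is not. -/
theorem cd3_case1_aux {G : Type u} [Group G] [Finite G] (a b : ℕ)
    (hcd : ∀ χ : IrrCharacter G, charDegree (χ : G → ℂ) = 1 ∨ charDegree (χ : G → ℂ) = a ∨
      charDegree (χ : G → ℂ) = b)
    (r : ℕ) (hr : r.Prime) (L : Subgroup G) [L.Normal]
    (hQ : ∀ ψ : IrrCharacter (G ⧸ ⁅L, L⁆), ∃ j : ℕ, charDegree (ψ : G ⧸ ⁅L, L⁆ → ℂ) = r ^ j)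
    (hL : ∀ θ : IrrCharacter L, charDegree (θ : L → ℂ) = 1 ∨
        charDegree (θ : L → ℂ) = a / r ^ (a.factorization r) ∨
        charDegree (θ : L → ℂ) = b / r ^ (b.factorization r))
    (hPa : ∃ i : ℕ, a = r ^ i) (hPb : ¬ ∃ i : ℕ, b = r ^ i) :
    derivedSeries G 3 = ⊥ := by
  obtain ⟨i, rfl⟩ := hPa
  have hL2 : derivedSeries L 2 = ⊥ := by
    apply cd3_two (b / r ^ (b.factorization r))
    intro θ
    rcases hL θ with h | h | h
    · exact Or.inl h
    · left; rw [h, cd3_ordc_pow r i hr]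
    · exact Or.inr h
  have hQ2 : derivedSeries (G ⧸ ⁅L, L⁆) 2 = ⊥ := by
    apply cd3_two (r ^ i)
    intro ψ
    rcases cd3_quotient ⁅L, L⁆ (r ^ i) b hcd ψ with h | h | h
    · exact Or.inl h
    · exact Or.inr h
    · exfalso
      obtain ⟨j, hj⟩ := hQ ψ
      exact hPb ⟨j, h ▸ hj⟩
  have h1 : derivedSeries G 2 ≤ (derivedSeries L 1).map L.subtype := by
    rw [cd3_map_ds_one]
    exact cd3_ds_le_of_quotient ⁅L, L⁆ 2 hQ2
  have h2 := cd3_ds_le_map L 2 1 h1 1
  rw [show 1 + 1 = 2 from rfl, hL2, Subgroup.map_bot] at h2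
  exact le_bot_iff.mp h2

/-- Case 1: a prime `r` divides both `a` and `b`. -/
theorem cd3_case1 {G : Type u} [Group G] [Finite G] (a b : ℕ)
    (hcd : ∀ χ : IrrCharacter G, charDegree (χ : G → ℂ) = 1 ∨ charDegree (χ : G → ℂ) = a ∨
      charDegree (χ : G → ℂ) = b)
    (ha : ∃ χ : IrrCharacter G, charDegree (χ : G → ℂ) = a)
    (r : ℕ) (hr : r.Prime) (hra : r ∣ a) (hrb : r ∣ b)
    (IH : ∀ (H : Type u) [Group H] [Finite H], Nat.card H < Nat.card G →
      (∃ a b : ℕ, ∀ χ : IrrCharacter H, charDegree (χ : H → ℂ) = 1 ∨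
        charDegree (χ : H → ℂ) = a ∨ charDegree (χ : H → ℂ) = b) → derivedSeries H 3 = ⊥) :
    derivedSeries G 3 = ⊥ := by
  classical
  obtain ⟨L, hLn, ⟨k, hk⟩, hcard, hL⟩ := cd3_thompson a b hcd ha r hr hra hrb
  have := hLn
  have hL3 : derivedSeries L 3 = ⊥ := IH L hcard ⟨_, _, hL⟩
  have hL1le : ⁅L, L⁆ ≤ L := Subgroup.commutator_le_left L L
  -- characters of `G / L'` have `r`-power degree (Ito)
  have hQ : ∀ ψ : IrrCharacter (G ⧸ ⁅L, L⁆),
      ∃ j : ℕ, charDegree (ψ : G ⧸ ⁅L, L⁆ → ℂ) = r ^ j := by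
    intro ψ
    have hn : (L.map (QuotientGroup.mk' ⁅L, L⁆)).Normal :=
      Subgroup.Normal.map hLn _ (QuotientGroup.mk'_surjective _)
    have hab : ∀ x ∈ L.map (QuotientGroup.mk' ⁅L, L⁆), ∀ y ∈ L.map (QuotientGroup.mk' ⁅L, L⁆),
        x * y = y * x := by
      rintro _ ⟨x, hx, rfl⟩ _ ⟨y, hy, rfl⟩
      rw [← map_mul, ← map_mul]
      have h1 : x * y = (x * y * x⁻¹ * y⁻¹) * (y * x) := by group
      rw [h1, map_mul]
      have h2 : QuotientGroup.mk' ⁅L, L⁆ (x * y * x⁻¹ * y⁻¹) = 1 := by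
        rw [← MonoidHom.mem_ker, QuotientGroup.ker_mk']
        have := Subgroup.commutator_mem_commutator hx hy
        rwa [commutatorElement_def] at this
      rw [h2, one_mul]
    have hdvd := Helper75.ito_character ψ.2 (L.map (QuotientGroup.mk' ⁅L, L⁆)) hab
    rw [Subgroup.index_map_eq L (QuotientGroup.mk'_surjective _)
      (by rw [QuotientGroup.ker_mk']; exact hL1le), hk] at hdvd
    obtain ⟨j, -, hj⟩ := (Nat.dvd_prime_pow hr).mp hdvd
    exact ⟨j, hj⟩
  by_cases hPa : ∃ i : ℕ, a = r ^ i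
  · by_cases hPb : ∃ i : ℕ, b = r ^ i
    · -- `L` abelian, `G` is an M-group
      obtain ⟨i, rfl⟩ := hPa
      obtain ⟨i', rfl⟩ := hPb
      have hLlin : ∀ θ : IrrCharacter L, charDegree (θ : L → ℂ) = 1 := by
        intro θ
        rcases hL θ with h | h | h
        · exact h
        · rw [h, cd3_ordc_pow r i hr]
        · rw [h, cd3_ordc_pow r i' hr]
      have hLc := cd3_one hLlin
      have hLab : ∀ x ∈ L, ∀ y ∈ L, x * y = y * x := by
        intro x hx y hy
        have h1 : ⁅(⟨x, hx⟩ : L), (⟨y, hy⟩ : L)⁆ ∈ commutator L :=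
          Subgroup.commutator_mem_commutator (Subgroup.mem_top _) (Subgroup.mem_top _)
        rw [hLc, Subgroup.mem_bot, commutatorElement_eq_one_iff_commute] at h1
        exact congrArg Subtype.val h1.eq
      have : Fact r.Prime := ⟨hr⟩
      have hnil : Group.IsNilpotent (G ⧸ L) := by
        apply IsPGroup.isNilpotent (p := r)
        apply IsPGroup.of_card (n := k)
        rw [← Subgroup.index_eq_card, hk]
      have : Fintype G := Fintype.ofFinite G
      exact cd3_taketa (fun χ hχ => cd3_mgroup L hLab hnil χ hχ) _ _ hcd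
    · exact cd3_case1_aux a b hcd r hr L hQ hL hPa hPb
  · by_cases hPb : ∃ i : ℕ, b = r ^ i
    · apply cd3_case1_aux b a (fun χ => by
        rcases hcd χ with h | h | h
        · exact Or.inl h
        · exact Or.inr (Or.inr h)
        · exact Or.inr (Or.inl h)) r hr L hQ (fun θ => by
        rcases hL θ with h | h | h
        · exact Or.inl h
        · exact Or.inr (Or.inr h)
        · exact Or.inr (Or.inl h)) hPb hPa
    · -- `G / L'` abelian
      have hQlin : ∀ ψ : IrrCharacter (G ⧸ ⁅L, L⁆),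
          charDegree (ψ : G ⧸ ⁅L, L⁆ → ℂ) = 1 := by
        intro ψ
        obtain ⟨j, hj⟩ := hQ ψ
        rcases cd3_quotient ⁅L, L⁆ a b hcd ψ with h | h | h
        · exact h
        · exact absurd ⟨j, h ▸ hj⟩ hPa
        · exact absurd ⟨j, h ▸ hj⟩ hPb
      have hQ1 : derivedSeries (G ⧸ ⁅L, L⁆) 1 = ⊥ := by
        rw [cd3_ds_one]
        exact cd3_one hQlin
      have h1 : derivedSeries G 1 ≤ (derivedSeries L 1).map L.subtype := by
        rw [cd3_map_ds_one]
        exact cd3_ds_le_of_quotient ⁅L, L⁆ 1 hQ1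
      have h2 := cd3_ds_le_map L 1 1 h1 2
      rw [show 1 + 2 = 3 from rfl, hL3, Subgroup.map_bot] at h2
      exact le_bot_iff.mp h2

end Cfsg.Agent.Helper15
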