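import Mathlib
import Cfsg.Agent.Helper15.CD3Case1
import Cfsg.Agent.Helper15.CD3Asm

/-!
# Isaacs 12.15 (three character degrees): the coprime case (helper15)
-/

set_option autoImplicit false

namespace Cfsg.Agent.Helper15

open Cfsg

open scoped commutatorElement

universe u

/-- Isaacs 12.3 (assembled from the pieces). -/
theorem cd3_frob {Q : Type u} [Group Q] [Finite Q] (hsol : Group.IsSolvable Q)
    (hna : ∃ x y : Q, x * y ≠ y * x)
    (hmin : ∀ N : Subgroup Q, N.Normal → N ≠ ⊥ → commutator Q ≤ N) :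
    ∃ p : ℕ, p.Prime ∧ IsPGroup p (commutator Q) ∧
      (∀ x ∈ commutator Q, ∀ y ∈ commutator Q, x * y = y * x) ∧
      (IsPGroup p Q ∨
        (¬ p ∣ (commutator Q).index ∧
          ∀ g : Q, g ∉ commutator Q → ∀ x ∈ commutator Q, g * x = x * g → x = 1)) := by
  obtain ⟨p, hp, hM, hMab⟩ := cd3_frob_abelian hsol hna hmin
  have hM1 : commutator Q ≠ ⊥ := by
    intro h
    obtain ⟨x, y, hxy⟩ := hna
    apply hxy
    have h1 : ⁅x, y⁆ ∈ commutator Q :=
      Subgroup.commutator_mem_commutator (Subgroup.mem_top _) (Subgroup.mem_top _)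
    rw [h, Subgroup.mem_bot, commutatorElement_eq_one_iff_commute] at h1
    exact h1.eq
  refine ⟨p, hp, hM, hMab, ?_⟩
  by_cases hZ : Subgroup.center Q = ⊥
  · exact Or.inr (cd3_frob_fpf hmin p hp hM hM1 hMab hZ)
  · exact Or.inl (cd3_frob_center hmin p hp hM hM1 hZ)

/-- Case 2(a): `G / K` is a `p`-group: impossible. -/
theorem cd3_case2a {G : Type u} [Group G] [Finite G] (f d : ℕ)
    (hcd : ∀ χ : IrrCharacter G, charDegree (χ : G → ℂ) = 1 ∨ charDegree (χ : G → ℂ) = f ∨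
      charDegree (χ : G → ℂ) = d)
    (hd : ∃ χ : IrrCharacter G, charDegree (χ : G → ℂ) = d)
    (hf1 : f ≠ 1) (hd1 : d ≠ 1) (hcop : Nat.Coprime f d)
    (K : Subgroup G) [K.Normal] (p : ℕ) (hp : p.Prime) (hQ : IsPGroup p (G ⧸ K))
    (β : IrrCharacter G) (hβ : ∀ k ∈ K, (β : G → ℂ) k = (β : G → ℂ) 1)
    (hβf : charDegree (β : G → ℂ) = f) : False := by
  obtain ⟨χ, hχ⟩ := hd
  have : Fact p.Prime := ⟨hp⟩
  obtain ⟨s, hs⟩ := IsPGroup.iff_card.mp hQ
  have hidx : K.index = p ^ s := by rw [Subgroup.index_eq_card, hs]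
  -- `f` divides `|G : K|`
  have hfdvd : f ∣ p ^ s := by
    rw [← hβf, ← hidx]
    have : Fintype G := Fintype.ofFinite G
    have : Fintype K := Fintype.ofFinite K
    -- β is inflated from G/K, so its degree divides |G/K|
    obtain ⟨ψ, hψ, hψβ⟩ := Helper79.exists_irr_deflation K β.2 hβ
    have h1 := Helper79.isIrrCharacter_charDegree_dvd_card hψ
    have h2 : charDegree ψ = charDegree (β : G → ℂ) := by
      unfold charDegree
      rw [← hψβ 1]
      rfl
    rw [h2, ← Subgroup.index_eq_card] at h1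
    exact h1
  obtain ⟨j, -, hj⟩ := (Nat.dvd_prime_pow hp).mp hfdvd
  have hj0 : j ≠ 0 := by
    rintro rfl
    exact hf1 (by simpa using hj)
  have hpf : p ∣ f := by rw [hj]; exact dvd_pow_self p hj0
  have hpd : ¬ p ∣ d := by
    intro h
    have h3 : p ∣ Nat.gcd f d := Nat.dvd_gcd hpf h
    rw [hcop] at h3
    exact hp.one_lt.ne' (Nat.dvd_one.mp h3)
  have hcop' : (charDegree (χ : G → ℂ)).Coprime K.index := by
    rw [hχ, hidx]
    exact Nat.Coprime.pow_right s ((Nat.Prime.coprime_iff_not_dvd hp).mpr hpd).symm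
  obtain ⟨ξ, hξ⟩ := cd3_gallagher K χ β hcop' hβ
  rw [hχ, hβf] at hξ
  have hd0 : 0 < d := hχ ▸ Helper80.irr_degree_pos χ
  have hf0 : 0 < f := hβf ▸ Helper80.irr_degree_pos β
  rcases hcd ξ with h | h | h
  · rw [hξ] at h
    exact hf1 (Nat.eq_one_of_mul_eq_one_left h)
  · rw [hξ] at h
    apply hd1
    have : d * f = 1 * f := by rw [h, one_mul]
    exact Nat.eq_of_mul_eq_mul_right hf0 this
  · rw [hξ] at h
    apply hf1
    have : d * f = d * 1 := by rw [h, mul_one]
    exact Nat.eq_of_mul_eq_mul_left hd0 this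

/-- Case 2(b): the Frobenius case. -/
theorem cd3_case2b {G : Type u} [Group G] [Finite G] (f d : ℕ)
    (hcd : ∀ χ : IrrCharacter G, charDegree (χ : G → ℂ) = 1 ∨ charDegree (χ : G → ℂ) = f ∨
      charDegree (χ : G → ℂ) = d)
    (hd1 : d ≠ 1) (hcop : Nat.Coprime f d)
    (N K : Subgroup G) [N.Normal] [K.Normal]
    (hKN : K ≤ N) (hab : ∀ x y : G, x * y * x⁻¹ * y⁻¹ ∈ N)
    (hNK : ∀ x ∈ N, ∀ y ∈ N, x * y * x⁻¹ * y⁻¹ ∈ K)
    (p : ℕ) (hp : p.Prime) (hpNK : ∀ x ∈ N, ∃ k : ℕ, x ^ p ^ k ∈ K) (hne : K ≠ N)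
    (hpf : ¬ p ∣ N.index) (hf : N.index ≠ 1)
    (hfp : ∀ g : G, g ∉ N → ∀ x ∈ N, g * x * g⁻¹ * x⁻¹ ∈ K → x ∈ K)
    (hNf : N.index = f) : derivedSeries G 3 = ⊥ := by
  subst hNf
  have hN2 : derivedSeries N 2 = ⊥ :=
    cd3_two d (fun ψ => cd3_caseB N K hKN hab hNK p hp hpNK hne hpf hf hfp d hd1 hcop hcd ψ)
  have h1 : derivedSeries G 1 ≤ (derivedSeries N 0).map N.subtype := by
    rw [cd3_ds_one, cd3_map_ds_zero, commutator_def, Subgroup.commutator_le]
    intro x _ y _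
    rw [commutatorElement_def]
    exact hab x y
  have h2 := cd3_ds_le_map N 1 0 h1 2
  rw [show 1 + 2 = 3 from rfl, show 0 + 2 = 2 from rfl, hN2, Subgroup.map_bot] at h2
  exact le_bot_iff.mp h2

theorem cd3_comm_ne_bot {Q : Type u} [Group Q] (hna : ∃ x y : Q, x * y ≠ y * x) :
    commutator Q ≠ ⊥ := by
  intro h
  obtain ⟨x, y, hxy⟩ := hna
  apply hxy
  have h1 : ⁅x, y⁆ ∈ commutator Q :=
    Subgroup.commutator_mem_commutator (Subgroup.mem_top _) (Subgroup.mem_top _)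
  rw [h, Subgroup.mem_bot, commutatorElement_eq_one_iff_commute] at h1
  exact h1.eq

/-- Case 2: the two nonlinear degrees are coprime (and `G` is solvable). -/
theorem cd3_case2 {G : Type u} [Group G] [Finite G] (hsol : Group.IsSolvable G) (a b : ℕ)
    (hcd : ∀ χ : IrrCharacter G, charDegree (χ : G → ℂ) = 1 ∨ charDegree (χ : G → ℂ) = a ∨
      charDegree (χ : G → ℂ) = b)
    (ha : ∃ χ : IrrCharacter G, charDegree (χ : G → ℂ) = a)
    (hb : ∃ χ : IrrCharacter G, charDegree (χ : G → ℂ) = b)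
    (ha1 : a ≠ 1) (hb1 : b ≠ 1) (hcop : Nat.Coprime a b) : derivedSeries G 3 = ⊥ := by
  classical
  have hcd' : ∀ χ : IrrCharacter G, charDegree (χ : G → ℂ) = 1 ∨ charDegree (χ : G → ℂ) = b ∨
      charDegree (χ : G → ℂ) = a := fun χ => by
    rcases hcd χ with h | h | h
    · exact Or.inl h
    · exact Or.inr (Or.inr h)
    · exact Or.inr (Or.inl h)
  -- `G` is nonabelian
  have hna : ∃ x y : G, x * y * x⁻¹ * y⁻¹ ∉ (⊥ : Subgroup G) := by
    by_contra hall
    simp only [not_exists, not_not] at hall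
    obtain ⟨χ, hχ⟩ := ha
    apply ha1
    rw [← hχ]
    apply Helper79.irr_charDegree_eq_one_of_comm
    intro x y
    have h1 := hall x y
    rw [Subgroup.mem_bot] at h1
    calc x * y = (x * y * x⁻¹ * y⁻¹) * (y * x) := by group
      _ = y * x := by rw [h1, one_mul]
  obtain ⟨K, -, hKmax⟩ := Finite.exists_le_maximal
    (p := fun K : Subgroup G => K.Normal ∧ ∃ x y : G, x * y * x⁻¹ * y⁻¹ ∉ K) (a := ⊥)
    ⟨inferInstance, hna⟩
  obtain ⟨⟨hKn, x₀, y₀, hxy⟩, hKle⟩ := hKmax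
  have := hKn
  have hmk : ∀ x y : G, QuotientGroup.mk' K (x * y * x⁻¹ * y⁻¹) =
      ⁅QuotientGroup.mk' K x, QuotientGroup.mk' K y⁆ := by
    intro x y
    rw [commutatorElement_def]
    simp only [map_mul, map_inv]
  have hker : ∀ g : G, QuotientGroup.mk' K g = 1 ↔ g ∈ K := fun g =>
    QuotientGroup.eq_one_iff g
  have hQna : ∃ x y : G ⧸ K, x * y ≠ y * x := by
    refine ⟨QuotientGroup.mk' K x₀, QuotientGroup.mk' K y₀, fun h => hxy ?_⟩
    rw [← hker, hmk, commutatorElement_eq_one_iff_commute]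
    exact h
  have hQmin : ∀ Nb : Subgroup (G ⧸ K), Nb.Normal → Nb ≠ ⊥ → commutator (G ⧸ K) ≤ Nb := by
    intro Nb hNb hNb1
    have hK'n : (Nb.comap (QuotientGroup.mk' K)).Normal := hNb.comap _
    have hKK' : K ≤ Nb.comap (QuotientGroup.mk' K) := by
      intro k hk
      rw [Subgroup.mem_comap, (hker k).mpr hk]
      exact one_mem _
    have hnot : ¬ (Nb.comap (QuotientGroup.mk' K) ≤ K) := by
      intro hle
      apply hNb1
      rw [eq_bot_iff]
      intro q hq
      obtain ⟨g, rfl⟩ := QuotientGroup.mk'_surjective K q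
      rw [Subgroup.mem_bot, hker]
      exact hle (Subgroup.mem_comap.mpr hq)
    have hall : ∀ x y : G, x * y * x⁻¹ * y⁻¹ ∈ Nb.comap (QuotientGroup.mk' K) := by
      intro x y
      by_contra hcon
      exact hnot (hKle ⟨hK'n, x, y, hcon⟩ hKK')
    rw [commutator_def, Subgroup.commutator_le]
    intro q₁ _ q₂ _
    obtain ⟨g₁, rfl⟩ := QuotientGroup.mk'_surjective K q₁
    obtain ⟨g₂, rfl⟩ := QuotientGroup.mk'_surjective K q₂
    have h1 := hall g₁ g₂
    rw [Subgroup.mem_comap, hmk] at h1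
    exact h1
  have hQsol : Group.IsSolvable (G ⧸ K) := inferInstance
  obtain ⟨p, hp, hM, hMab, hcase⟩ := cd3_frob hQsol hQna hQmin
  have hM1 : commutator (G ⧸ K) ≠ ⊥ := cd3_comm_ne_bot hQna
  obtain ⟨β, hβ⟩ := Helper79.exists_nonlinear_of_commutator_ne_bot hM1
  obtain ⟨βt, hβt, hβtv⟩ := cd3_quotient_irr K β
  have hβK : ∀ k ∈ K, (βt : G → ℂ) k = (βt : G → ℂ) 1 := by
    intro k hk
    rw [hβtv, hβtv]
    exact congrArg (β : G ⧸ K → ℂ)
      (((hker k).mpr hk).trans (map_one (QuotientGroup.mk' K)).symm)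
  rcases hcase with hQp | ⟨hpidx, hfpf⟩
  · exfalso
    have hβd : charDegree (βt : G → ℂ) ≠ 1 := hβt ▸ hβ
    rcases hcd βt with h | h | h
    · exact hβd h
    · exact cd3_case2a a b hcd hb ha1 hb1 hcop K p hp hQp βt hβK h
    · exact cd3_case2a b a hcd' ha hb1 ha1 hcop.symm K p hp hQp βt hβK h
  · obtain ⟨N, hN⟩ : ∃ N : Subgroup G, N = (commutator (G ⧸ K)).comap (QuotientGroup.mk' K) :=
      ⟨_, rfl⟩
    have hmem : ∀ g : G, g ∈ N ↔ QuotientGroup.mk' K g ∈ commutator (G ⧸ K) := by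
      intro g
      rw [hN, Subgroup.mem_comap]
    have hNn : N.Normal := by
      rw [hN]
      exact Subgroup.Normal.comap inferInstance _
    have hKN : K ≤ N := by
      intro k hk
      rw [hmem, (hker k).mpr hk]
      exact one_mem _
    have hab : ∀ x y : G, x * y * x⁻¹ * y⁻¹ ∈ N := by
      intro x y
      rw [hmem, hmk]
      exact Subgroup.commutator_mem_commutator (Subgroup.mem_top _) (Subgroup.mem_top _)
    have hNK : ∀ x ∈ N, ∀ y ∈ N, x * y * x⁻¹ * y⁻¹ ∈ K := by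
      intro x hx y hy
      rw [← hker, hmk, commutatorElement_eq_one_iff_commute]
      exact hMab _ ((hmem x).mp hx) _ ((hmem y).mp hy)
    have hpNK : ∀ x ∈ N, ∃ k : ℕ, x ^ p ^ k ∈ K := by
      intro x hx
      obtain ⟨k, hk⟩ := hM ⟨QuotientGroup.mk' K x, (hmem x).mp hx⟩
      refine ⟨k, ?_⟩
      rw [← hker, map_pow]
      exact congrArg Subtype.val hk
    have hne : K ≠ N := by
      intro h
      apply hM1
      rw [eq_bot_iff]
      intro q hq
      obtain ⟨g, rfl⟩ := QuotientGroup.mk'_surjective K q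
      rw [Subgroup.mem_bot, hker, h, hmem]
      exact hq
    have hidx : N.index = (commutator (G ⧸ K)).index := by
      rw [hN]
      exact Subgroup.index_comap_of_surjective _ (QuotientGroup.mk'_surjective K)
    have hpf : ¬ p ∣ N.index := by rw [hidx]; exact hpidx
    have hf1 : N.index ≠ 1 := by
      rw [hidx]
      intro h
      rw [Subgroup.index_eq_one] at h
      have hnt : Nontrivial (G ⧸ K) := by
        obtain ⟨x, y, hxy'⟩ := hQna
        exact ⟨⟨x * y, y * x, hxy'⟩⟩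
      exact (Group.IsSolvable.commutator_lt_top_of_nontrivial (G ⧸ K)).ne h
    have hfp : ∀ g : G, g ∉ N → ∀ x ∈ N, g * x * g⁻¹ * x⁻¹ ∈ K → x ∈ K := by
      intro g hg x hx hgx
      rw [← hker]
      apply hfpf (QuotientGroup.mk' K g) (fun h => hg ((hmem g).mpr h)) (QuotientGroup.mk' K x)
        ((hmem x).mp hx)
      have h1 := (hker _).mpr hgx
      rw [hmk, commutatorElement_eq_one_iff_commute] at h1
      exact h1.eq
    have := hNn
    obtain ⟨χf, hχf⟩ := cd3_exists_degree_index N K hKN hne hNK hfp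
    rcases hcd χf with h | h | h
    · exact absurd (hχf.symm.trans h) hf1
    · exact cd3_case2b a b hcd hb1 hcop N K hKN hab hNK p hp hpNK hne hpf hf1 hfp
        (hχf.symm.trans h)
    · exact cd3_case2b b a hcd' ha1 hcop.symm N K hKN hab hNK p hp hpNK hne hpf hf1 hfp
        (hχf.symm.trans h)

end Cfsg.Agent.Helper15
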