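import Mathlib
import Cfsg.Agent.Helper15.CD3Leaves
import Cfsg.Agent.Helper15.CD3Tools
import Cfsg.Agent.Helper3.Taketa

/-!
# Isaacs 12.15 (three character degrees): the minimal nonsolvable configuration (helper15)

Piece P10b of CALL S4460 (argument of helper82): `cd3_minimal_contra`.
-/

set_option autoImplicit false

namespace Cfsg.Agent.Helper15

open Cfsg

universe u

/-- P10b. The minimal nonsolvable configuration is contradictory. -/
theorem cd3_minimal_contra {G : Type u} [Group G] [Finite G] (R : Subgroup G) [R.Normal]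
    (hperf : commutator R = ⊤) (hR : R ≠ ⊥)
    (hmin : ∀ N : Subgroup G, N.Normal → N ≠ ⊥ → R ≤ N)
    (m n : ℕ) (hm : 1 < m) (hmn : m < n) (hcop : Nat.Coprime m n)
    (hcd : ∀ χ : IrrCharacter G, charDegree (χ : G → ℂ) = 1 ∨ charDegree (χ : G → ℂ) = m ∨
      charDegree (χ : G → ℂ) = n) : False := by
  classical
  have : Fintype G := Fintype.ofFinite G
  have : Fintype R := Fintype.ofFinite R
  -- `R ≤ G'`
  have hRG : R ≤ commutator G := by
    intro x hx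
    have h1 : (⟨x, hx⟩ : R) ∈ commutator R := by rw [hperf]; trivial
    have h2 : (commutator R).map R.subtype ≤ commutator G := by
      rw [commutator_def, Subgroup.map_commutator, commutator_def]
      exact Subgroup.commutator_mono le_top le_top
    exact h2 ⟨⟨x, hx⟩, h1, rfl⟩
  have hnl : ∀ χ : IrrCharacter G, (∃ x ∈ R, (χ : G → ℂ) x ≠ (χ : G → ℂ) 1) →
      charDegree (χ : G → ℂ) ≠ 1 := by
    rintro χ ⟨x, hx, hne⟩ h1
    exact hne (Helper79.irr_commutator_le_ker_of_linear χ h1 x (hRG hx))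
  obtain ⟨χ₀, hχ₀R, hχ₀⟩ : ∃ χ₀ : IrrCharacter G,
      (∃ x ∈ R, (χ₀ : G → ℂ) x ≠ (χ₀ : G → ℂ) 1) ∧ charDegree (χ₀ : G → ℂ) = m := by
    by_contra hcon
    apply cd3_not_all_same R hperf hR n
    intro χ hχ
    rcases hcd χ with h | h | h
    · exact absurd h (hnl χ hχ)
    · exact absurd ⟨χ, hχ, h⟩ hcon
    · exact h
  obtain ⟨ψ₀, hψ₀R, hψ₀⟩ : ∃ ψ₀ : IrrCharacter G,
      (∃ x ∈ R, (ψ₀ : G → ℂ) x ≠ (ψ₀ : G → ℂ) 1) ∧ charDegree (ψ₀ : G → ℂ) = n := by
    by_contra hcon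
    apply cd3_not_all_same R hperf hR m
    intro χ hχ
    rcases hcd χ with h | h | h
    · exact absurd h (hnl χ hχ)
    · exact h
    · exact absurd ⟨χ, hχ, h⟩ hcon
  have hmul : ∀ θ₁ ∈ cd3X R m, ∀ θ₂ ∈ cd3X R m, ∀ η : IrrCharacter R,
      classInner ((θ₁ : R → ℂ) * (θ₂ : R → ℂ)) (η : R → ℂ) ≠ 0 → η ∈ cd3X R m :=
    fun θ₁ h₁ θ₂ h₂ η hη => cd3_X_closed R hperf m n hmn.ne hcd
      (fun χ ψ ξ hχ hψ hχR hψR hξ =>
        cd3_purity R hperf hmin m n hm hmn hcop hcd χ ψ hχ hψ hχR hψR ξ hξ) θ₁ θ₂ h₁ h₂ η hη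
  have h1X : ∀ θ : IrrCharacter R, (θ : R → ℂ) = (fun _ => 1) → θ ∈ cd3X R m :=
    fun θ h => Or.inl h
  have hfaith : ∀ x : R, (∀ θ ∈ cd3X R m, (θ : R → ℂ) x = (θ : R → ℂ) 1) → x = 1 := by
    intro x hx
    have hχx : (χ₀ : G → ℂ) (x : G) = (χ₀ : G → ℂ) 1 := by
      have hcf : IsClassFunction R (fun r : R => (χ₀ : G → ℂ) r) :=
        isClassFunction_of_isChar (Helper79.isCharacter_restrict (isChar_of_irr χ₀.2) R)
      exact Helper3.apply_eq_apply_one_of_constituents (fun r : R => (χ₀ : G → ℂ) r) hcf x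
        (fun θ hθ => hx θ (Or.inr ⟨χ₀, hχ₀, hχ₀R, hθ⟩))
    obtain ⟨K, hKn, hK⟩ := Helper80.isCharacter_ker (isChar_of_irr χ₀.2)
    by_contra hx1
    have hN : (K ⊓ R).Normal := inferInstance
    have hne : K ⊓ R ≠ ⊥ := by
      intro h
      have h1 : (x : G) ∈ K ⊓ R := ⟨(hK _).mpr hχx, x.2⟩
      rw [h, Subgroup.mem_bot] at h1
      exact hx1 (Subtype.ext h1)
    have hle := hmin (K ⊓ R) hN hne
    obtain ⟨y, hy, hyne⟩ := hχ₀R
    exact hyne ((hK y).mp (hle hy).1)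
  have hall := cd3_burnside_brauer (cd3X R m) h1X hmul hfaith
  have hψ1 : (fun r : R => (ψ₀ : G → ℂ) r) 1 ≠ 0 := Helper3.irr_apply_one_ne_zero ψ₀.2
  obtain ⟨θ, hθ, hne⟩ := Helper75.exists_irr_constituent
    (Helper79.isCharacter_restrict (isChar_of_irr ψ₀.2) R) hψ1
  have hθne : θ ≠ fun _ => 1 := by
    intro h
    obtain ⟨x, hx, hxne⟩ := hψ₀R
    apply hxne
    apply (inner_ind_one_ne_zero_iff R ψ₀.2).mp _ x hx
    rw [Helper3.frobenius_reciprocity R _ _ (isClassFunction_of_isChar (isChar_of_irr ψ₀.2)),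
      classInner_conj_symm]
    intro h0
    apply hne
    rw [h]
    exact (map_eq_zero _).mp h0
  rcases hall ⟨θ, hθ⟩ with h | ⟨χ, hχm, -, hχne⟩
  · exact hθne h
  · obtain ⟨k₁, hk₁, -⟩ := degree_eq_mul_of_constituent R (χ : G → ℂ) χ.2 θ hθ hχne
    obtain ⟨k₂, hk₂, -⟩ := degree_eq_mul_of_constituent R (ψ₀ : G → ℂ) ψ₀.2 θ hθ hne
    have hθ1 := Helper80.isCharacter_one_eq (isChar_of_irr hθ)
    have hd1 : charDegree θ ∣ m := by
      rw [← hχm]
      refine ⟨k₁, ?_⟩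
      rw [Helper80.irr_one_eq χ, hθ1] at hk₁
      rw [mul_comm]
      exact_mod_cast hk₁
    have hd2 : charDegree θ ∣ n := by
      rw [← hψ₀]
      refine ⟨k₂, ?_⟩
      rw [Helper80.irr_one_eq ψ₀, hθ1] at hk₂
      rw [mul_comm]
      exact_mod_cast hk₂
    have hdeg1 : charDegree θ = 1 := Nat.eq_one_of_dvd_coprimes hcop hd1 hd2
    have hθ11 : θ 1 = 1 := by rw [hθ1, hdeg1]; simp
    obtain ⟨f, hf⟩ := Helper79.isCharacter_linear (isChar_of_irr hθ) hθ11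
    apply hθne
    funext r
    rw [hf, Helper79.hom_apply_eq_one_of_mem_commutator f (by rw [hperf]; trivial)]
    simp

end Cfsg.Agent.Helper15
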