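import Mathlib
import Cfsg.Agent.Helper15.CD3Case2
import Cfsg.Agent.Helper15.CD3Contra

/-!
# Isaacs 12.15 (three character degrees): solvability and the main induction (helper15)
-/

set_option autoImplicit false

namespace Cfsg.Agent.Helper15

open Cfsg

open scoped commutatorElement

universe u

theorem cd3_three_of_not_two {G : Type u} [Group G] (a b : ℕ)
    (hcd : ∀ χ : IrrCharacter G, charDegree (χ : G → ℂ) = 1 ∨ charDegree (χ : G → ℂ) = a ∨
      charDegree (χ : G → ℂ) = b)
    (h2 : ¬ ∃ c : ℕ, ∀ χ : IrrCharacter G, charDegree (χ : G → ℂ) = 1 ∨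
      charDegree (χ : G → ℂ) = c) :
    (∃ χ : IrrCharacter G, charDegree (χ : G → ℂ) = a) ∧
      (∃ χ : IrrCharacter G, charDegree (χ : G → ℂ) = b) ∧ a ≠ 1 ∧ b ≠ 1 := by
  have key : ∀ c : ℕ, ∃ χ : IrrCharacter G, charDegree (χ : G → ℂ) ≠ 1 ∧
      charDegree (χ : G → ℂ) ≠ c := by
    intro c
    by_contra hcon
    apply h2
    refine ⟨c, fun χ => ?_⟩
    by_contra h
    exact hcon ⟨χ, fun h1 => h (Or.inl h1), fun h1 => h (Or.inr h1)⟩
  obtain ⟨χ, hχ1, hχb⟩ := key b
  obtain ⟨ψ, hψ1, hψa⟩ := key a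
  have hχa : charDegree (χ : G → ℂ) = a := by
    rcases hcd χ with h | h | h
    · exact absurd h hχ1
    · exact h
    · exact absurd h hχb
  have hψb : charDegree (ψ : G → ℂ) = b := by
    rcases hcd ψ with h | h | h
    · exact absurd h hψ1
    · exact absurd h hψa
    · exact h
  exact ⟨⟨χ, hχa⟩, ⟨ψ, hψb⟩, hχa ▸ hχ1, hψb ▸ hψ1⟩

theorem cd3_card_quotient_lt {G : Type u} [Group G] [Finite G] (N : Subgroup G) (hN : N ≠ ⊥) :
    Nat.card (G ⧸ N) < Nat.card G := by
  rw [Subgroup.card_eq_card_quotient_mul_card_subgroup N]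
  have h1 : 1 < Nat.card N := (Subgroup.one_lt_card_iff_ne_bot _).mpr hN
  have h2 : 0 < Nat.card (G ⧸ N) := Nat.card_pos
  nlinarith

/-- The derived series of a finite group stabilises. -/
theorem cd3_ds_stable (G : Type u) [Group G] [Finite G] :
    ∃ k : ℕ, derivedSeries G (k + 1) = derivedSeries G k := by
  by_contra hcon
  simp only [not_exists] at hcon
  have key : ∀ k : ℕ, Nat.card (derivedSeries G k) + k ≤ Nat.card G := by
    intro k
    induction k with
    | zero =>
      rw [derivedSeries_zero, Subgroup.card_top]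
      exact le_rfl
    | succ k ih =>
      have hle : derivedSeries G (k + 1) ≤ derivedSeries G k :=
        derivedSeries_antitone G (Nat.le_succ k)
      have hlt : Nat.card (derivedSeries G (k + 1)) < Nat.card (derivedSeries G k) := by
        by_contra h
        exact hcon k (Subgroup.eq_of_le_of_card_ge hle (not_lt.mp h))
      omega
  have := key (Nat.card G + 1)
  omega

/-- The minimal nonsolvable configuration, with `m < n`. -/
theorem cd3_solvable_core {G : Type u} [Group G] [Finite G] (m n : ℕ)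
    (hcd : ∀ χ : IrrCharacter G, charDegree (χ : G → ℂ) = 1 ∨ charDegree (χ : G → ℂ) = m ∨
      charDegree (χ : G → ℂ) = n)
    (hm : 1 < m) (hmn : m < n) (hcop : Nat.Coprime m n)
    (IH : ∀ (H : Type u) [Group H] [Finite H], Nat.card H < Nat.card G →
      (∃ a b : ℕ, ∀ χ : IrrCharacter H, charDegree (χ : H → ℂ) = 1 ∨
        charDegree (χ : H → ℂ) = a ∨ charDegree (χ : H → ℂ) = b) → Group.IsSolvable H) :
    Group.IsSolvable G := by
  by_contra hns
  obtain ⟨k, hk⟩ := cd3_ds_stable G
  obtain ⟨R, hR⟩ : ∃ R : Subgroup G, R = derivedSeries G k := ⟨_, rfl⟩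
  have hRn : R.Normal := by rw [hR]; exact derivedSeries_normal G k
  have hRR : ⁅R, R⁆ = R := by rw [hR, ← derivedSeries_succ, hk]
  have hR1 : R ≠ ⊥ := by
    intro h
    apply hns
    rw [Group.isSolvable_def]
    exact ⟨k, by rw [← hR, h]⟩
  have hstab : ∀ i : ℕ, derivedSeries G (k + i) = R := by
    intro i
    induction i with
    | zero => rw [hR]; rfl
    | succ i ih => rw [← add_assoc, derivedSeries_succ, ih, hRR]
  have hmin : ∀ N : Subgroup G, N.Normal → N ≠ ⊥ → R ≤ N := by
    intro N hN hN1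
    have := hN
    have hQ : Group.IsSolvable (G ⧸ N) :=
      IH (G ⧸ N) (cd3_card_quotient_lt N hN1) ⟨m, n, cd3_quotient N m n hcd⟩
    obtain ⟨j, hj⟩ := (Group.isSolvable_def (G ⧸ N)).mp hQ
    have h1 := cd3_ds_le_of_quotient N j hj
    rw [← hstab j]
    exact (derivedSeries_antitone G (Nat.le_add_left j k)).trans h1
  have hperf : commutator R = ⊤ := by
    apply Subgroup.map_injective R.subtype_injective
    have h1 := cd3_map_ds_one R
    rw [cd3_ds_one] at h1
    rw [h1, hRR, ← MonoidHom.range_eq_map, Subgroup.range_subtype]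
  have := hRn
  exact cd3_minimal_contra R hperf hR1 hmin m n hm hmn hcop hcd

/-- **Solvability**: a finite group with at most three character degrees is solvable. -/
theorem cd3_solvable_aux : ∀ (n : ℕ) (G : Type u) [Group G] [Finite G], Nat.card G = n →
    (∃ a b : ℕ, ∀ χ : IrrCharacter G, charDegree (χ : G → ℂ) = 1 ∨
      charDegree (χ : G → ℂ) = a ∨ charDegree (χ : G → ℂ) = b) → Group.IsSolvable G := by
  intro n
  induction n using Nat.strong_induction_on with
  | _ n ih =>
    intro G _ _ hn ⟨a, b, hcd⟩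
    have IH : ∀ (H : Type u) [Group H] [Finite H], Nat.card H < Nat.card G →
        (∃ a b : ℕ, ∀ χ : IrrCharacter H, charDegree (χ : H → ℂ) = 1 ∨
          charDegree (χ : H → ℂ) = a ∨ charDegree (χ : H → ℂ) = b) → Group.IsSolvable H :=
      fun H _ _ hH h => ih (Nat.card H) (hn ▸ hH) H rfl h
    by_cases h2 : ∃ c : ℕ, ∀ χ : IrrCharacter G, charDegree (χ : G → ℂ) = 1 ∨
        charDegree (χ : G → ℂ) = c
    · obtain ⟨c, hc⟩ := h2
      rw [Group.isSolvable_def]
      exact ⟨2, cd3_two c hc⟩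
    obtain ⟨ha, hb, ha1, hb1⟩ := cd3_three_of_not_two a b hcd h2
    have ha0 : 0 < a := by
      obtain ⟨χ, hχ⟩ := ha
      exact hχ ▸ Helper80.irr_degree_pos χ
    have hb0 : 0 < b := by
      obtain ⟨χ, hχ⟩ := hb
      exact hχ ▸ Helper80.irr_degree_pos χ
    by_cases hcop : Nat.Coprime a b
    · have hab : a ≠ b := by
        intro h
        rw [h, Nat.coprime_self] at hcop
        exact hb1 hcop
      rcases lt_or_gt_of_ne hab with h | h
      · exact cd3_solvable_core a b hcd (by omega) h hcop IH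
      · exact cd3_solvable_core b a (fun χ => by
          rcases hcd χ with h | h | h
          · exact Or.inl h
          · exact Or.inr (Or.inr h)
          · exact Or.inr (Or.inl h)) (by omega) h hcop.symm IH
    · obtain ⟨r, hr, hra, hrb⟩ := Nat.Prime.not_coprime_iff_dvd.mp hcop
      obtain ⟨L, hLn, ⟨k, hk⟩, hcard, hL⟩ := cd3_thompson a b hcd ha r hr hra hrb
      have := hLn
      have hLs : Group.IsSolvable L := IH L hcard ⟨_, _, hL⟩
      have : Fact r.Prime := ⟨hr⟩
      have hnil : Group.IsNilpotent (G ⧸ L) := by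
        apply IsPGroup.isNilpotent (p := r)
        apply IsPGroup.of_card (n := k)
        rw [← Subgroup.index_eq_card, hk]
      have hQs : Group.IsSolvable (G ⧸ L) := inferInstance
      exact Group.isSolvable_of_ker_le_range L.subtype (QuotientGroup.mk' L)
        (by rw [QuotientGroup.ker_mk', Subgroup.range_subtype])

theorem cd3_solvable {G : Type u} [Group G] [Finite G]
    (h : ∃ a b : ℕ, ∀ χ : IrrCharacter G, charDegree (χ : G → ℂ) = 1 ∨
      charDegree (χ : G → ℂ) = a ∨ charDegree (χ : G → ℂ) = b) : Group.IsSolvable G :=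
  cd3_solvable_aux _ G rfl h

/-- **Isaacs 12.15**: at most three character degrees implies derived length at most 3. -/
theorem cd3_dl_aux : ∀ (n : ℕ) (G : Type u) [Group G] [Finite G], Nat.card G = n →
    (∃ a b : ℕ, ∀ χ : IrrCharacter G, charDegree (χ : G → ℂ) = 1 ∨
      charDegree (χ : G → ℂ) = a ∨ charDegree (χ : G → ℂ) = b) → derivedSeries G 3 = ⊥ := by
  intro n
  induction n using Nat.strong_induction_on with
  | _ n ih =>
    intro G _ _ hn ⟨a, b, hcd⟩
    have IH : ∀ (H : Type u) [Group H] [Finite H], Nat.card H < Nat.card G →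
        (∃ a b : ℕ, ∀ χ : IrrCharacter H, charDegree (χ : H → ℂ) = 1 ∨
          charDegree (χ : H → ℂ) = a ∨ charDegree (χ : H → ℂ) = b) → derivedSeries H 3 = ⊥ :=
      fun H _ _ hH h => ih (Nat.card H) (hn ▸ hH) H rfl h
    by_cases h2 : ∃ c : ℕ, ∀ χ : IrrCharacter G, charDegree (χ : G → ℂ) = 1 ∨
        charDegree (χ : G → ℂ) = c
    · obtain ⟨c, hc⟩ := h2
      have h3 := derivedSeries_antitone G (show 2 ≤ 3 by norm_num)
      rw [cd3_two c hc] at h3
      exact le_bot_iff.mp h3
    obtain ⟨ha, hb, ha1, hb1⟩ := cd3_three_of_not_two a b hcd h2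
    by_cases hcop : Nat.Coprime a b
    · exact cd3_case2 (cd3_solvable ⟨a, b, hcd⟩) a b hcd ha hb ha1 hb1 hcop
    · obtain ⟨r, hr, hra, hrb⟩ := Nat.Prime.not_coprime_iff_dvd.mp hcop
      exact cd3_case1 a b hcd ha r hr hra hrb IH

theorem cd3_dl {G : Type u} [Group G] [Finite G]
    (h : ∃ a b : ℕ, ∀ χ : IrrCharacter G, charDegree (χ : G → ℂ) = 1 ∨
      charDegree (χ : G → ℂ) = a ∨ charDegree (χ : G → ℂ) = b) : derivedSeries G 3 = ⊥ :=
  cd3_dl_aux _ G rfl h

end Cfsg.Agent.Helper15
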