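import Mathlib
import Cfsg.Prelude.Def_Characters
import Cfsg.Agent.Helper15.CharInner
import Cfsg.Agent.Helper15.LinChar

set_option autoImplicit false

namespace Cfsg.Agent.Helper15

open scoped ComplexConjugate

section Extraspecial

/-- In a group whose commutator subgroup is the centre, of prime order, a noncentral element `x`
is conjugate to `a * x` for every central `a`. -/
theorem exists_conj_eq_mul_of_center {P : Type*} [Group P] [Finite P] {p : ℕ} [Fact p.Prime]
    (hcomm : commutator P = Subgroup.center P) (hZ : Nat.card (Subgroup.center P) = p) {x : P}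
    (hx : x ∉ Subgroup.center P) {a : P} (ha : a ∈ Subgroup.center P) :
    ∃ y : P, y * x * y⁻¹ = a * x := by
  have hc : ∀ y : P, y * x * y⁻¹ * x⁻¹ ∈ Subgroup.center P := by
    intro y
    rw [← hcomm, commutator_def, ← commutatorElement_def]
    exact Subgroup.commutator_mem_commutator (Subgroup.mem_top y) (Subgroup.mem_top x)
  let f : P →* P := MonoidHom.mk' (fun y => y * x * y⁻¹ * x⁻¹) (by
    intro y₁ y₂
    have h2 : y₂ * x * y₂⁻¹ = (y₂ * x * y₂⁻¹ * x⁻¹) * x := by group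
    have h3 := Subgroup.mem_center_iff.mp (hc y₂) y₁
    have h4 := Subgroup.mem_center_iff.mp (hc y₁) (y₂ * x * y₂⁻¹ * x⁻¹)
    calc y₁ * y₂ * x * (y₁ * y₂)⁻¹ * x⁻¹ = y₁ * (y₂ * x * y₂⁻¹) * y₁⁻¹ * x⁻¹ := by group
      _ = y₁ * ((y₂ * x * y₂⁻¹ * x⁻¹) * x) * y₁⁻¹ * x⁻¹ := by rw [← h2]
      _ = (y₁ * (y₂ * x * y₂⁻¹ * x⁻¹)) * (x * y₁⁻¹ * x⁻¹) := by group
      _ = ((y₂ * x * y₂⁻¹ * x⁻¹) * y₁) * (x * y₁⁻¹ * x⁻¹) := by rw [h3]
      _ = (y₂ * x * y₂⁻¹ * x⁻¹) * (y₁ * x * y₁⁻¹ * x⁻¹) := by group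
      _ = y₁ * x * y₁⁻¹ * x⁻¹ * (y₂ * x * y₂⁻¹ * x⁻¹) := h4)
  have hfy : ∀ y, f y = y * x * y⁻¹ * x⁻¹ := fun y => rfl
  have hR : f.range ≤ Subgroup.center P := by
    rintro _ ⟨y, rfl⟩
    exact hc y
  have hdvd : Nat.card f.range ∣ p := hZ ▸ Subgroup.card_dvd_of_le hR
  rcases (Nat.dvd_prime (Fact.out : p.Prime)).mp hdvd with h1 | h1
  · exfalso
    apply hx
    rw [Subgroup.mem_center_iff]
    intro y
    have h2 : f y = 1 := by
      have := (Subgroup.eq_bot_of_card_eq _ h1)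
      have h3 : f y ∈ f.range := ⟨y, rfl⟩
      rw [this] at h3
      exact Subgroup.mem_bot.mp h3
    rw [hfy] at h2
    have h4 : y * x * y⁻¹ = x := by
      have := congrArg (· * x) h2
      simpa using this
    calc y * x = y * x * y⁻¹ * y := by group
      _ = x * y := by rw [h4]
  · have h2 : f.range = Subgroup.center P :=
      Subgroup.eq_of_le_of_card_ge hR (by rw [h1, hZ])
    rw [← h2] at ha
    obtain ⟨y, hy⟩ := ha
    refine ⟨y, ?_⟩
    rw [← hy, hfy]
    group

variable {G : Type*} [Group G] [Fintype G]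

/-- The induced function at a central element of the subgroup. -/
theorem indFun_apply_central (A : Subgroup G) (θ : A → ℂ) {z : G}
    (hz : z ∈ Subgroup.center G) (hzA : z ∈ A) :
    Cfsg.indFun A θ z = (Nat.card A : ℂ)⁻¹ * (Nat.card G : ℂ) * θ ⟨z, hzA⟩ := by
  unfold Cfsg.indFun
  rw [mul_assoc]
  congr 1
  have : ∀ w : G, Cfsg.extendByZero A θ (w⁻¹ * z * w) = θ ⟨z, hzA⟩ := by
    intro w
    have h1 : w⁻¹ * z * w = z := by
      rw [mul_assoc, ← Subgroup.mem_center_iff.mp hz w, ← mul_assoc, inv_mul_cancel, one_mul]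
    rw [h1]
    exact Cfsg.Agent.Helper3.extendByZero_of_mem A θ hzA
  rw [Finset.sum_congr rfl (fun w _ => this w), Finset.sum_const, Finset.card_univ,
    nsmul_eq_mul, Nat.card_eq_fintype_card]

/-- A function induced from a linear character vanishes at `x` if `x` is conjugate to `a * x`
for a central element `a` of the subgroup on which the character is nontrivial. -/
theorem indFun_eq_zero_of_conj_mul (A : Subgroup G) (f : A →* ℂˣ) {a : G} (haA : a ∈ A)
    (hacent : a ∈ Subgroup.center G) (hfa : (f ⟨a, haA⟩ : ℂ) ≠ 1) {x y : G}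
    (hxy : y * x * y⁻¹ = a * x) : Cfsg.indFun A (fun u => (f u : ℂ)) x = 0 := by
  have h1 : Cfsg.indFun A (fun u => (f u : ℂ)) (a * x) =
      (f ⟨a, haA⟩ : ℂ) * Cfsg.indFun A (fun u => (f u : ℂ)) x := by
    unfold Cfsg.indFun
    rw [mul_left_comm]
    congr 1
    rw [Finset.mul_sum]
    apply Finset.sum_congr rfl
    intro w _
    have h2 : w⁻¹ * (a * x) * w = a * (w⁻¹ * x * w) := by
      have := Subgroup.mem_center_iff.mp hacent w⁻¹
      rw [← mul_assoc, this]
      group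
    rw [h2]
    by_cases hv : w⁻¹ * x * w ∈ A
    · rw [Cfsg.Agent.Helper3.extendByZero_of_mem A _ hv,
        Cfsg.Agent.Helper3.extendByZero_of_mem A _ (A.mul_mem haA hv)]
      have : (⟨a * (w⁻¹ * x * w), A.mul_mem haA hv⟩ : A) = ⟨a, haA⟩ * ⟨w⁻¹ * x * w, hv⟩ := rfl
      rw [this, map_mul, Units.val_mul]
    · have hv' : a * (w⁻¹ * x * w) ∉ A := by
        intro hcon
        apply hv
        have := A.mul_mem (A.inv_mem haA) hcon
        simpa using this
      rw [Cfsg.Agent.Helper3.extendByZero_of_not_mem A _ hv,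
        Cfsg.Agent.Helper3.extendByZero_of_not_mem A _ hv', mul_zero]
  have h3 := Cfsg.Agent.Helper3.indFun_conj A (fun u => (f u : ℂ)) x y
  rw [hxy, h1] at h3
  have h4 : ((f ⟨a, haA⟩ : ℂ) - 1) * Cfsg.indFun A (fun u => (f u : ℂ)) x = 0 := by
    rw [sub_mul, h3, one_mul, sub_self]
  rcases mul_eq_zero.mp h4 with h5 | h5
  · exact absurd (sub_eq_zero.mp h5) hfa
  · exact h5

end Extraspecial

end Cfsg.Agent.Helper15
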