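import Mathlib
import Cfsg.Prelude.Def_Characters
import Cfsg.Agent.Helper15.CharScalar
import Cfsg.Agent.Helper15.Extraspecial
import Cfsg.Agent.Helper79.Quotient

set_option autoImplicit false

namespace Cfsg.Agent.Helper15

open scoped ComplexConjugate

section Extraspecial2

variable {P : Type*} [Group P] [Fintype P]

theorem sum_char_mul_conj_of_irr {n : ℕ} (ρ : Representation ℂ P (Fin n → ℂ))
    (hρ : ρ.IsIrreducible) :
    ∑ x : P, ρ.character x * conj (ρ.character x) = (Nat.card P : ℂ) := by
  have h := irr_inner_self (G := P) (χ := ρ.character) ⟨n, ρ, hρ, rfl⟩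
  unfold Cfsg.classInner at h
  have hP : (Nat.card P : ℂ) ≠ 0 := by exact_mod_cast Nat.card_pos.ne'
  rw [inv_mul_eq_one₀ hP] at h
  exact h.symm

/-- Irreducible representations of a group whose commutator subgroup is the centre, of prime
order `p`: either the centre acts trivially and the degree is `1`, or the degree `d`
satisfies `d ^ 2 * p = |P|`. -/
theorem extraspecial_rep_degree {p : ℕ} [Fact p.Prime]
    (hcomm : commutator P = Subgroup.center P) (hZ : Nat.card (Subgroup.center P) = p)
    {n : ℕ} (ρ : Representation ℂ P (Fin n → ℂ)) (hρ : ρ.IsIrreducible) :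
    ((∀ z ∈ Subgroup.center P, ρ.character z = ρ.character 1) → n = 1) ∧
    (¬ (∀ z ∈ Subgroup.center P, ρ.character z = ρ.character 1) → n ^ 2 * p = Nat.card P) := by
  classical
  haveI := hρ
  have hfin : Module.finrank ℂ (Fin n → ℂ) = n := by simp
  have hsum := sum_char_mul_conj_of_irr ρ hρ
  constructor
  · intro hker
    have h1 : ∀ z ∈ Subgroup.center P, ρ z = 1 := fun z hz =>
      Cfsg.Agent.Helper79.rep_eq_one_of_char_eq ρ z (hker z hz)
    have h2 : ∀ x g : P, ρ x * ρ g = ρ g * ρ x := by
      intro x g
      have h3 : x * g = (x * g * x⁻¹ * g⁻¹) * (g * x) := by group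
      have h4 : x * g * x⁻¹ * g⁻¹ ∈ Subgroup.center P := by
        rw [← hcomm, commutator_def, ← commutatorElement_def]
        exact Subgroup.commutator_mem_commutator (Subgroup.mem_top x) (Subgroup.mem_top g)
      rw [← map_mul, ← map_mul, h3, map_mul, h1 _ h4, one_mul]
    have h5 : ∀ x : P, ρ.character x * conj (ρ.character x) = (n : ℂ) ^ 2 := by
      intro x
      obtain ⟨c, hc⟩ := rep_scalar_of_commute ρ (h2 x)
      rw [char_mul_conj_of_rep_scalar ρ hc, hfin]
    rw [Finset.sum_congr rfl (fun x _ => h5 x), Finset.sum_const, Finset.card_univ,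
      nsmul_eq_mul, ← Nat.card_eq_fintype_card] at hsum
    have hP : (Nat.card P : ℂ) ≠ 0 := by exact_mod_cast Nat.card_pos.ne'
    have h6 : (n : ℂ) ^ 2 = 1 := by
      have : (Nat.card P : ℂ) * ((n : ℂ) ^ 2 - 1) = 0 := by rw [mul_sub, hsum, mul_one, sub_self]
      rcases mul_eq_zero.mp this with h7 | h7
      · exact absurd h7 hP
      · exact sub_eq_zero.mp h7
    have h7 : n ^ 2 = 1 := by exact_mod_cast h6
    exact (Nat.pow_eq_one.mp h7).resolve_right (by norm_num)
  · intro hker
    push Not at hker
    obtain ⟨a, haZ, ha⟩ := hker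
    obtain ⟨c, hc⟩ := rep_central_scalar ρ haZ
    have hc1 : c ≠ 1 := by
      intro h
      apply ha
      rw [char_of_rep_scalar ρ hc, h, one_mul, Representation.char_one]
    have hvan : ∀ x : P, x ∉ Subgroup.center P → ρ.character x = 0 := by
      intro x hx
      obtain ⟨y, hy⟩ := exists_conj_eq_mul_of_center hcomm hZ hx haZ
      have h1 : ρ.character (y * x * y⁻¹) = ρ.character x := Representation.char_conj ρ x y
      rw [hy, char_mul_of_rep_scalar ρ hc] at h1
      have h2 : (c - 1) * ρ.character x = 0 := by rw [sub_mul, h1, one_mul, sub_self]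
      rcases mul_eq_zero.mp h2 with h3 | h3
      · exact absurd (sub_eq_zero.mp h3) hc1
      · exact h3
    have h5 : ∀ x : P, ρ.character x * conj (ρ.character x) =
        if x ∈ Subgroup.center P then (n : ℂ) ^ 2 else 0 := by
      intro x
      by_cases hx : x ∈ Subgroup.center P
      · rw [if_pos hx]
        obtain ⟨c', hc'⟩ := rep_central_scalar ρ hx
        rw [char_mul_conj_of_rep_scalar ρ hc', hfin]
      · rw [if_neg hx, hvan x hx, zero_mul]
    rw [Finset.sum_congr rfl (fun x _ => h5 x), Finset.sum_ite, Finset.sum_const_zero, add_zero,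
      Finset.sum_const, nsmul_eq_mul] at hsum
    have hcardZ : (Finset.univ.filter (fun x : P => x ∈ Subgroup.center P)).card = p := by
      rw [← hZ, Nat.card_eq_fintype_card, Fintype.card_subtype]
    rw [hcardZ] at hsum
    have : ((n ^ 2 * p : ℕ) : ℂ) = (Nat.card P : ℂ) := by
      rw [← hsum]; push_cast; ring
    exact_mod_cast this

end Extraspecial2

end Cfsg.Agent.Helper15
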