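import Mathlib
import Cfsg.Prelude.Def_Characters
import Cfsg.Agent.Helper15.FTLemmaC
import Cfsg.Agent.Helper79.Abelian
import Cfsg.Agent.Helper80.CharEigen

set_option autoImplicit false

namespace Cfsg.Agent.Helper15

open Cfsg
open scoped ComplexConjugate

section FTD

variable {G : Type*} [Group G] [Fintype G]

/-- An irreducible character whose kernel contains a subgroup lying in no proper normal
subgroup is the principal character. -/
theorem irr_eq_one_of_ker_ge (H : Subgroup G)
    (hnorm : ∀ M : Subgroup G, M.Normal → H ≤ M → M = ⊤) (γ : G → ℂ)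
    (hγ : IsIrrCharacter G γ) (hk : ∀ h ∈ H, γ h = γ 1) : γ = fun _ => 1 := by
  have hirr1 := irr_inner_self hγ
  obtain ⟨k, ρ, hirr, rfl⟩ := hγ
  have h1 : ∀ h ∈ H, ρ h = 1 := by
    intro h hh
    apply Cfsg.Agent.Helper80.rep_eq_one_of_char_eq ρ h
    rw [hk h hh, Representation.char_one]
  have h2 : H ≤ (ρ : G →* Module.End ℂ (Fin k → ℂ)).ker := by
    intro h hh
    rw [MonoidHom.mem_ker]
    exact h1 h hh
  have h3 := hnorm _ (MonoidHom.normal_ker _) h2
  have h4 : ∀ g : G, ρ g = 1 := by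
    intro g
    have : g ∈ (ρ : G →* Module.End ℂ (Fin k → ℂ)).ker := by rw [h3]; exact Subgroup.mem_top g
    exact MonoidHom.mem_ker.mp this
  have h5 : ∀ g : G, ρ.character g = (k : ℂ) := by
    intro g
    unfold Representation.character
    rw [h4 g, LinearMap.trace_one]
    simp
  have h6 : (k : ℂ) * (k : ℂ) = 1 := by
    unfold classInner at hirr1
    rw [Finset.sum_congr rfl (fun g _ => by rw [h5 g, Complex.conj_natCast]), Finset.sum_const,
      Finset.card_univ, nsmul_eq_mul, ← Nat.card_eq_fintype_card, ← mul_assoc,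
      inv_mul_cancel₀ (by exact_mod_cast Nat.card_pos.ne'), one_mul] at hirr1
    exact hirr1
  have h7 : k = 1 := by
    have : k * k = 1 := by exact_mod_cast h6
    exact Nat.eq_one_of_mul_eq_one_right this
  funext g
  rw [h5 g, h7]
  simp

/-- The second Feit–Thompson inequality. -/
theorem ft_second (H : Subgroup G) [Fintype H]
    (hab : ∀ a ∈ H, ∀ b ∈ H, a * b = b * a) (hZ : H ⊓ Subgroup.center G = ⊥) (hone : FTHyp H)
    (χ : G → ℂ) (hχ : IsIrrCharacter G χ) (hχ1 : χ 1 ≠ 1)
    (hnorm : ∀ M : Subgroup G, M.Normal → H ≤ M → M = ⊤) :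
    (Nat.card H : ℝ) < (1 + (χ 1).re) ^ 2 := by
  classical
  have : Fintype (IrrCharacter G) := Fintype.ofFinite _
  have hχc := isChar_of_irr hχ
  have hdeg := Cfsg.Agent.Helper80.isCharacter_one_eq hχc
  have hdpos : 0 < charDegree χ := Cfsg.Agent.Helper80.irr_degree_pos ⟨χ, hχ⟩
  have hn2 : 2 ≤ charDegree χ := by
    rcases Nat.lt_or_ge (charDegree χ) 2 with h | h
    · exfalso
      apply hχ1
      have : charDegree χ = 1 := by omega
      rw [hdeg, this]
      simp
    · exact h
  have hθ : IsCharacter G (χ * fun g => conj (χ g)) :=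
    Cfsg.Agent.Helper79.isCharacter_mul hχc (Cfsg.Agent.Helper79.isCharacter_conj hχc)
  have hθcl := isClassFunction_of_isChar hθ
  have hm : ∀ γ : IrrCharacter G, ∃ n : ℕ, classInner (χ * fun g => conj (χ g)) γ = (n : ℂ) :=
    fun γ => inner_nat hθ (isChar_of_irr γ.2)
  choose m hm using hm
  have hd : ∀ γ : IrrCharacter G, (γ : G → ℂ) 1 = (charDegree (γ : G → ℂ) : ℂ) :=
    fun γ => Cfsg.Agent.Helper80.isCharacter_one_eq (isChar_of_irr γ.2)
  have hc : ∀ γ : IrrCharacter G, ∃ n : ℕ,
      classInner (fun h : H => (γ : G → ℂ) h) (fun _ => 1) = (n : ℂ) :=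
    fun γ => inner_nat (Cfsg.Agent.Helper79.isCharacter_restrict (isChar_of_irr γ.2) H)
      Cfsg.Agent.Helper79.isCharacter_one
  choose c hc using hc
  have hdecomp := classFun_eq_sum hθcl
  -- degrees
  have hsum1 : ∑ γ : IrrCharacter G, (m γ : ℝ) * (charDegree (γ : G → ℂ) : ℝ) =
      (charDegree χ : ℝ) ^ 2 := by
    have h1 := congrFun hdecomp 1
    rw [Finset.sum_apply] at h1
    simp only [Pi.smul_apply, smul_eq_mul, Pi.mul_apply] at h1
    rw [hdeg, Complex.conj_natCast, Finset.sum_congr rfl (fun γ _ => by rw [hm γ, hd γ])] at h1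
    have h2 : ((charDegree χ : ℝ) ^ 2 : ℂ) =
        ((∑ γ : IrrCharacter G, (m γ : ℝ) * (charDegree (γ : G → ℂ) : ℝ) : ℝ) : ℂ) := by
      push_cast
      rw [← h1]
      ring
    exact_mod_cast h2.symm
  -- multiplicities of the principal character over `H`
  have hsum2 : (Nat.card H : ℝ) * ∑ γ : IrrCharacter G, (m γ : ℝ) * (c γ : ℝ) =
      ∑ h : H, Complex.normSq (χ h) := by
    have h1 : classInner (fun h : H => (χ * fun g => conj (χ g)) h) (fun _ => 1) =
        ∑ γ : IrrCharacter G, (m γ : ℂ) * (c γ : ℂ) := by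
      conv_lhs => rw [hdecomp]
      have h2 : (fun h : H => (∑ γ : IrrCharacter G,
          classInner (χ * fun g => conj (χ g)) γ • (γ : G → ℂ)) h) =
          ∑ γ : IrrCharacter G, (m γ : ℂ) • (fun h : H => (γ : G → ℂ) h) := by
        funext h
        rw [Finset.sum_apply, Finset.sum_apply]
        apply Finset.sum_congr rfl
        intro γ _
        rw [hm γ]
        rfl
      rw [h2, classInner_sum_left]
      apply Finset.sum_congr rfl
      intro γ _
      rw [classInner_smul_left, hc γ]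
    have h3 : classInner (fun h : H => (χ * fun g => conj (χ g)) h) (fun _ => 1) =
        (Nat.card H : ℂ)⁻¹ * ((∑ h : H, Complex.normSq (χ h) : ℝ) : ℂ) := by
      unfold classInner
      congr 1
      rw [Complex.ofReal_sum]
      apply Finset.sum_congr rfl
      intro h _
      show χ h * conj (χ h) * conj (1 : ℂ) = _
      rw [map_one, mul_one, Complex.mul_conj]
    rw [h3] at h1
    have hH0 : (Nat.card H : ℂ) ≠ 0 := by exact_mod_cast Nat.card_pos.ne'
    have h4 : ((∑ h : H, Complex.normSq (χ h) : ℝ) : ℂ) =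
        (Nat.card H : ℂ) * ∑ γ : IrrCharacter G, (m γ : ℂ) * (c γ : ℂ) := by
      rw [← h1, ← mul_assoc, mul_inv_cancel₀ hH0, one_mul]
    exact_mod_cast h4.symm
  have hA : (charDegree χ : ℝ) ≤ ∑ γ : IrrCharacter G, (m γ : ℝ) * (c γ : ℝ) := by
    have h1 := Cfsg.Agent.Helper79.isCharacter_abelian_sum_normSq_ge hχc H hab
    rw [← hsum2] at h1
    have hH0 : (0 : ℝ) < (Nat.card H : ℝ) := by exact_mod_cast Nat.card_pos
    exact le_of_mul_le_mul_left h1 hH0
  -- the principal character
  set t : IrrCharacter G := ⟨fun _ => 1, Cfsg.Agent.Helper79.isIrrCharacter_one⟩ with ht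
  have hmt : m t = 1 := by
    have h1 : classInner (χ * fun g => conj (χ g)) (t : G → ℂ) = classInner χ χ := by
      unfold classInner
      congr 1
      apply Finset.sum_congr rfl
      intro g _
      show χ g * conj (χ g) * conj (1 : ℂ) = _
      rw [map_one, mul_one]
    rw [hm t, irr_inner_self hχ] at h1
    exact_mod_cast h1
  have hdt : charDegree (t : G → ℂ) = 1 := by
    have h1 := hd t
    have h2 : (t : G → ℂ) 1 = 1 := rfl
    rw [h2] at h1
    exact_mod_cast h1.symm
  have hct : c t = 1 := by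
    have h1 := hc t
    have h2 : classInner (fun h : H => (t : G → ℂ) h) (fun _ => 1) = 1 := by
      exact irr_inner_self (Cfsg.Agent.Helper79.isIrrCharacter_one (G := H))
    rw [h2] at h1
    exact_mod_cast h1.symm
  -- the first inequality for the other constituents
  have hs0 : (0 : ℝ) ≤ Real.sqrt (Nat.card H) := Real.sqrt_nonneg _
  have hs2 : Real.sqrt (Nat.card H) ^ 2 = (Nat.card H : ℝ) := Real.sq_sqrt (by positivity)
  have hfirst : ∀ γ : IrrCharacter G, γ ≠ t →
      Real.sqrt (Nat.card H) * (c γ : ℝ) < (charDegree (γ : G → ℂ) : ℝ) := by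
    intro γ hγ
    have hker : ∃ h ∈ H, (γ : G → ℂ) h ≠ (γ : G → ℂ) 1 := by
      by_contra hcon
      push Not at hcon
      apply hγ
      apply Subtype.ext
      exact irr_eq_one_of_ker_ge H hnorm γ γ.2 hcon
    have h1 := ft_main_normSq H hZ hone γ γ.2 hker
    rw [hc γ, hd γ] at h1
    have h2 : (Real.sqrt (Nat.card H) * (c γ : ℝ)) ^ 2 < (charDegree (γ : G → ℂ) : ℝ) ^ 2 := by
      rw [mul_pow, hs2]
      simpa [sq] using h1
    exact lt_of_pow_lt_pow_left₀ 2 (by positivity) h2
  -- conclusion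
  have hkey : 0 < ∑ γ ∈ Finset.univ.erase t,
      (m γ : ℝ) * ((charDegree (γ : G → ℂ) : ℝ) - Real.sqrt (Nat.card H) * (c γ : ℝ)) := by
    have hnn : ∀ γ ∈ Finset.univ.erase t,
        0 ≤ (m γ : ℝ) * ((charDegree (γ : G → ℂ) : ℝ) - Real.sqrt (Nat.card H) * (c γ : ℝ)) := by
      intro γ hγ
      have := hfirst γ (Finset.ne_of_mem_erase hγ)
      exact mul_nonneg (Nat.cast_nonneg _) (by linarith)
    rcases (Finset.sum_nonneg hnn).lt_or_eq with h | h
    · exact h
    · exfalso
      have h1 := (Finset.sum_eq_zero_iff_of_nonneg hnn).mp h.symm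
      have h2 : ∀ γ ∈ Finset.univ.erase t, (m γ : ℝ) * (charDegree (γ : G → ℂ) : ℝ) = 0 := by
        intro γ hγ
        have h3 := h1 γ hγ
        have h4 := hfirst γ (Finset.ne_of_mem_erase hγ)
        rcases mul_eq_zero.mp h3 with h5 | h5
        · rw [h5, zero_mul]
        · linarith
      have h3 := hsum1
      rw [← Finset.add_sum_erase _ _ (Finset.mem_univ t), Finset.sum_eq_zero h2, hmt, hdt] at h3
      have h4 : (2 : ℝ) ≤ (charDegree χ : ℝ) := by exact_mod_cast hn2
      push_cast at h3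
      nlinarith
  have hexp : ∑ γ ∈ Finset.univ.erase t,
      (m γ : ℝ) * ((charDegree (γ : G → ℂ) : ℝ) - Real.sqrt (Nat.card H) * (c γ : ℝ)) =
      ((charDegree χ : ℝ) ^ 2 - 1) - Real.sqrt (Nat.card H) *
        ((∑ γ : IrrCharacter G, (m γ : ℝ) * (c γ : ℝ)) - 1) := by
    have h1 : ∑ γ : IrrCharacter G,
        (m γ : ℝ) * ((charDegree (γ : G → ℂ) : ℝ) - Real.sqrt (Nat.card H) * (c γ : ℝ)) =
        (charDegree χ : ℝ) ^ 2 - Real.sqrt (Nat.card H) *
          (∑ γ : IrrCharacter G, (m γ : ℝ) * (c γ : ℝ)) := by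
      rw [← hsum1, Finset.mul_sum, ← Finset.sum_sub_distrib]
      apply Finset.sum_congr rfl
      intro γ _
      ring
    rw [← Finset.add_sum_erase _ _ (Finset.mem_univ t), hmt, hdt, hct] at h1
    push_cast at h1
    linarith
  rw [hexp] at hkey
  have hre : (χ 1).re = (charDegree χ : ℝ) := by rw [hdeg]; simp
  rw [hre]
  have h4 : (2 : ℝ) ≤ (charDegree χ : ℝ) := by exact_mod_cast hn2
  have h5 : Real.sqrt (Nat.card H) < (charDegree χ : ℝ) + 1 := by
    by_contra hcon
    rw [not_lt] at hcon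
    nlinarith
  have h6 : Real.sqrt (Nat.card H) ^ 2 < ((charDegree χ : ℝ) + 1) ^ 2 :=
    pow_lt_pow_left₀ h5 hs0 (by norm_num)
  rw [hs2] at h6
  linarith

end FTD

end Cfsg.Agent.Helper15
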