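import Mathlib

/-!
# Weighted fixed-point congruence for `p`-group actions

If a `p`-group `P` acts on a finite set `X` and `w : X → ℕ` is `P`-invariant, then
`∑ x, w x ≡ ∑ over the fixed points x, w x (mod p)`.
-/

set_option autoImplicit false

namespace Cfsg.Agent.Helper15

open MulAction

/-- The auxiliary set of pairs `(x, i)` with `i < w x`. -/
def WPairs {X : Type*} (w : X → ℕ) : Type _ := {y : X × ℕ // y.2 < w y.1}

/-- `WPairs w` is equivalent to a sigma type of `Fin`s. -/
def wPairsEquiv {X : Type*} (w : X → ℕ) : WPairs w ≃ (Σ x : X, Fin (w x)) where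
  toFun y := ⟨y.1.1, ⟨y.1.2, y.2⟩⟩
  invFun z := ⟨(z.1, z.2.1), z.2.2⟩
  left_inv _ := rfl
  right_inv _ := rfl

/-- The action of `P` on `WPairs w` through the first coordinate. -/
@[instance_reducible] def wPairsAction {P X : Type*} [Group P] [MulAction P X] (w : X → ℕ)
    (hw : ∀ (g : P) (x : X), w (g • x) = w x) : MulAction P (WPairs w) where
  smul g y := ⟨(g • y.1.1, y.1.2), by
    show y.1.2 < w (g • y.1.1)
    rw [hw]
    exact y.2⟩
  one_smul y := Subtype.ext (Prod.ext (one_smul P y.1.1) rfl)
  mul_smul g h y := Subtype.ext (Prod.ext (mul_smul g h y.1.1) rfl)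

open Classical in
/-- Weighted fixed-point congruence. -/
theorem sum_modEq_sum_fixed {P X : Type*} [Group P] [MulAction P X] [Fintype X] (p : ℕ)
    [Fact p.Prime] (hP : IsPGroup p P) (w : X → ℕ) (hw : ∀ (g : P) (x : X), w (g • x) = w x) :
    (∑ x : X, w x) ≡ (∑ x : X, if (∀ g : P, g • x = x) then w x else 0) [MOD p] := by
  classical
  let inst0 : MulAction P (WPairs w) := wPairsAction w hw
  have : Finite (WPairs w) := Finite.of_equiv _ (wPairsEquiv w).symm
  have h1 := hP.card_modEq_card_fixedPoints (WPairs w)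
  have h2 : Nat.card (WPairs w) = ∑ x : X, w x := by
    rw [Nat.card_congr (wPairsEquiv w), Nat.card_sigma]
    simp
  have e : fixedPoints P (WPairs w) ≃ (Σ x : {x : X // ∀ g : P, g • x = x}, Fin (w x.1)) :=
    { toFun := fun y => ⟨⟨y.1.1.1, fun g => by
          have h := y.2 g
          exact congrArg (fun z : WPairs w => z.1.1) h⟩, ⟨y.1.1.2, y.1.2⟩⟩
      invFun := fun z => ⟨⟨(z.1.1, z.2.1), z.2.2⟩, fun g =>
          Subtype.ext (Prod.ext (z.1.2 g) rfl)⟩
      left_inv := fun _ => rfl
      right_inv := fun _ => rfl }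
  have h3 : Nat.card (fixedPoints P (WPairs w)) =
      ∑ x : X, if (∀ g : P, g • x = x) then w x else 0 := by
    have inst : Fintype {x : X // ∀ g : P, g • x = x} := Fintype.ofFinite _
    have h4 := Nat.card_sigma (β := fun x : {x : X // ∀ g : P, g • x = x} => Fin (w x.1))
    rw [Nat.card_congr e, h4, ← Finset.sum_filter]
    rw [Finset.sum_subtype (Finset.univ.filter fun x : X => ∀ g : P, g • x = x)
      (p := fun x : X => ∀ g : P, g • x = x) (fun x => by simp) w]
    · simp
    · exact inst
  rw [h2, h3] at h1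
  exact h1

end Cfsg.Agent.Helper15
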