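import Mathlib
import Cfsg.Prelude.Def_Characters
import Cfsg.Agent.Helper15.CharInner
import Cfsg.Agent.Helper79.Basic
import Cfsg.Agent.Helper80.CharSchur

set_option autoImplicit false

namespace Cfsg.Agent.Helper15

open scoped ComplexConjugate

section FrobSchurOdd

variable {G : Type*} [Group G]

/-- Schur's lemma in matrix form. -/
theorem schur_matrix {n : ℕ} (ρ : Representation ℂ G (Fin n → ℂ)) (hρ : ρ.IsIrreducible)
    (T : Matrix (Fin n) (Fin n) ℂ)
    (hT : ∀ g, T * LinearMap.toMatrix' (ρ g) = LinearMap.toMatrix' (ρ g) * T) :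
    ∃ c : ℂ, T = c • (1 : Matrix (Fin n) (Fin n) ℂ) := by
  have := hρ
  have h1 : ∀ g, Matrix.toLin' T * ρ g = ρ g * Matrix.toLin' T := by
    intro g
    have h2 := congrArg Matrix.toLin' (hT g)
    rw [Matrix.toLin'_mul, Matrix.toLin'_mul, Matrix.toLin'_toMatrix'] at h2
    exact h2
  obtain ⟨c, hc⟩ := Cfsg.Agent.Helper80.schur_scalar ρ (Matrix.toLin' T) h1
  refine ⟨c, ?_⟩
  have h3 := congrArg LinearMap.toMatrix' hc
  rw [LinearMap.toMatrix'_toLin'] at h3
  rw [h3, map_smul, LinearMap.toMatrix'_one]

theorem single_sandwich_apply {n : ℕ} (M : Matrix (Fin n) (Fin n) ℂ) (i j k l : Fin n) :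
    (M.transpose * Matrix.single i j (1 : ℂ) * M) k l = M i k * M j l := by
  have h1 : ∀ x, (M.transpose * Matrix.single i j (1 : ℂ)) k x = if j = x then M i k else 0 := by
    intro x
    rw [Matrix.mul_apply]
    simp only [Matrix.single_apply, Matrix.transpose_apply]
    by_cases hx : j = x
    · simp [hx]
    · simp [hx]
  rw [Matrix.mul_apply]
  simp only [h1, ite_mul, zero_mul]
  rw [Finset.sum_ite_eq]
  simp

/-- The Frobenius–Schur sum of a real-valued irreducible character of odd degree. -/
theorem sum_char_sq_of_real_odd [Fintype G] {n : ℕ} (ρ : Representation ℂ G (Fin n → ℂ))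
    (hρ : ρ.IsIrreducible) (hreal : ∀ g, (ρ.character g).im = 0) (hodd : Odd n) :
    ∑ s : G, ρ.character (s * s) = (Nat.card G : ℂ) := by
  classical
  have := hρ
  obtain ⟨M, hM⟩ : ∃ M : G → Matrix (Fin n) (Fin n) ℂ, M = fun g => LinearMap.toMatrix' (ρ g) :=
    ⟨_, rfl⟩
  have hMg : ∀ g, M g = LinearMap.toMatrix' (ρ g) := fun g => by rw [hM]
  have hMmul : ∀ g h, M (g * h) = M g * M h := fun g h => by
    rw [hMg, hMg, hMg, map_mul]
    exact LinearMap.toMatrix'_mul _ _
  have hM1 : M 1 = 1 := by rw [hMg, map_one]; exact LinearMap.toMatrix'_one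
  have htr : ∀ g, (M g).trace = ρ.character g := fun g => by
    rw [hMg]
    unfold Representation.character
    rw [LinearMap.trace_eq_matrix_trace ℂ (Pi.basisFun ℂ (Fin n)), LinearMap.toMatrix_eq_toMatrix']
  have hMinv' : ∀ g, M g * M g⁻¹ = 1 := fun g => by rw [← hMmul, mul_inv_cancel, hM1]
  -- the sum of squares of the character
  have hsq : ∑ g : G, ρ.character g * ρ.character g = (Nat.card G : ℂ) := by
    have h := irr_inner_self (G := G) (χ := ρ.character) ⟨n, ρ, hρ, rfl⟩
    unfold Cfsg.classInner at h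
    have hP : (Nat.card G : ℂ) ≠ 0 := by exact_mod_cast Nat.card_pos.ne'
    rw [inv_mul_eq_one₀ hP] at h
    rw [h]
    apply Finset.sum_congr rfl
    intro g _
    rw [Complex.conj_eq_iff_im.mpr (hreal g)]
  -- invariant forms
  have hInvMul : ∀ B : Matrix (Fin n) (Fin n) ℂ, (∀ g, (M g).transpose * B * M g = B) →
      ∀ g, B * M g = (M g⁻¹).transpose * B := by
    intro B hB g
    have h1 : (M g⁻¹).transpose * ((M g).transpose * B * M g) = B * M g := by
      rw [← Matrix.mul_assoc, ← Matrix.mul_assoc, ← Matrix.transpose_mul, hMinv',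
        Matrix.transpose_one, Matrix.one_mul]
    rw [← h1, hB g]
  obtain ⟨Av, hAv⟩ : ∃ Av : Matrix (Fin n) (Fin n) ℂ → Matrix (Fin n) (Fin n) ℂ,
      Av = fun X => ∑ g : G, (M g).transpose * X * M g := ⟨_, rfl⟩
  have hAvX : ∀ X, Av X = ∑ g : G, (M g).transpose * X * M g := fun X => by rw [hAv]
  have hAvInv : ∀ X h, (M h).transpose * Av X * M h = Av X := by
    intro X h
    rw [hAvX, Finset.mul_sum, Finset.sum_mul]
    rw [← Equiv.sum_comp (Equiv.mulRight h) (fun g => (M g).transpose * X * M g)]
    apply Finset.sum_congr rfl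
    intro g _
    rw [Equiv.coe_mulRight, hMmul, Matrix.transpose_mul]
    simp only [Matrix.mul_assoc]
  have hAvT : ∀ X, (Av X).transpose = Av X.transpose := by
    intro X
    rw [hAvX, hAvX, Matrix.transpose_sum]
    apply Finset.sum_congr rfl
    intro g _
    rw [Matrix.transpose_mul, Matrix.transpose_mul, Matrix.transpose_transpose, Matrix.mul_assoc]
  -- a nonzero invariant form
  have hex : ∃ X, Av X ≠ 0 := by
    by_contra hcon
    push Not at hcon
    have h1 : ∑ g : G, ρ.character g * ρ.character g = 0 := by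
      have h2 : ∀ g : G, ρ.character g * ρ.character g =
          ∑ i : Fin n, ∑ j : Fin n, ((M g).transpose * Matrix.single i j (1 : ℂ) * M g) i j := by
        intro g
        simp only [single_sandwich_apply]
        rw [← htr g, Matrix.trace, Finset.sum_mul_sum]
        rfl
      rw [Finset.sum_congr rfl (fun g _ => h2 g), Finset.sum_comm]
      apply Finset.sum_eq_zero
      intro i _
      rw [Finset.sum_comm]
      apply Finset.sum_eq_zero
      intro j _
      have h3 := congrFun (congrFun (hcon (Matrix.single i j (1 : ℂ))) i) j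
      rw [hAvX, Matrix.sum_apply] at h3
      exact h3
    rw [hsq] at h1
    have hP : (Nat.card G : ℂ) ≠ 0 := by exact_mod_cast Nat.card_pos.ne'
    exact hP h1
  obtain ⟨X₀, hX₀⟩ := hex
  obtain ⟨A, hA⟩ : ∃ A, A = Av X₀ := ⟨_, rfl⟩
  have hAinv : ∀ g, (M g).transpose * A * M g = A := fun g => by rw [hA]; exact hAvInv X₀ g
  have hA0 : A ≠ 0 := by rw [hA]; exact hX₀
  -- `A` is invertible
  have hAunit : IsUnit A := by
    rw [← Matrix.mulVec_injective_iff_isUnit]
    have hirr := (Cfsg.Agent.Helper79.isIrreducible_iff ρ).mp hρ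
    have hK := hirr.2 (LinearMap.ker (Matrix.toLin' A)) (by
      intro g v hv
      rw [LinearMap.mem_ker, Matrix.toLin'_apply] at hv ⊢
      rw [← LinearMap.toMatrix'_mulVec (ρ g) v, ← hMg, Matrix.mulVec_mulVec, hInvMul A hAinv g,
        ← Matrix.mulVec_mulVec, hv, Matrix.mulVec_zero])
    rcases hK with hK | hK
    · intro v w hvw
      have h1 : v - w ∈ LinearMap.ker (Matrix.toLin' A) := by
        rw [LinearMap.mem_ker, Matrix.toLin'_apply, Matrix.mulVec_sub, sub_eq_zero]
        exact hvw
      rw [hK, Submodule.mem_bot, sub_eq_zero] at h1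
      exact h1
    · exfalso
      apply hA0
      have h1 : Matrix.toLin' A = 0 := LinearMap.ker_eq_top.mp hK
      have h2 := congrArg LinearMap.toMatrix' h1
      rw [LinearMap.toMatrix'_toLin'] at h2
      rw [h2, map_zero]
  obtain ⟨Ai, hAi1, hAi2⟩ : ∃ Ai : Matrix (Fin n) (Fin n) ℂ, Ai * A = 1 ∧ A * Ai = 1 := by
    obtain ⟨u, hu⟩ := hAunit
    exact ⟨(u⁻¹ : (Matrix (Fin n) (Fin n) ℂ)ˣ), by rw [← hu]; exact u.inv_mul, by
      rw [← hu]; exact u.mul_inv⟩
  -- uniqueness of invariant forms
  have huniq : ∀ B : Matrix (Fin n) (Fin n) ℂ, (∀ g, (M g).transpose * B * M g = B) →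
      ∃ c : ℂ, B = c • A := by
    intro B hB
    have hcomm : ∀ g, (Ai * B) * LinearMap.toMatrix' (ρ g) =
        LinearMap.toMatrix' (ρ g) * (Ai * B) := by
      intro g
      rw [← hMg]
      have h1 : A * (M g * (Ai * B)) = A * ((Ai * B) * M g) := by
        rw [← Matrix.mul_assoc, hInvMul A hAinv g, Matrix.mul_assoc (M g⁻¹).transpose,
          ← Matrix.mul_assoc A Ai B, hAi2, Matrix.one_mul, ← hInvMul B hB g,
          ← Matrix.mul_assoc, ← Matrix.mul_assoc A Ai B, hAi2, Matrix.one_mul]
      have h2 := congrArg (fun Y => Ai * Y) h1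
      simp only [← Matrix.mul_assoc Ai A, hAi1, Matrix.one_mul] at h2
      exact h2.symm
    obtain ⟨c, hc⟩ := schur_matrix ρ hρ (Ai * B) hcomm
    refine ⟨c, ?_⟩
    have h3 := congrArg (fun Y => A * Y) hc
    simp only [← Matrix.mul_assoc, hAi2, Matrix.one_mul] at h3
    rw [h3]
    simp
  -- `A` is symmetric
  have hAsymm : A.transpose = A := by
    obtain ⟨c, hc⟩ := huniq A.transpose (by
      intro g
      have h1 := congrArg Matrix.transpose (hAinv g)
      rw [Matrix.transpose_mul, Matrix.transpose_mul, Matrix.transpose_transpose,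
        ← Matrix.mul_assoc] at h1
      exact h1)
    have hdet : A.det ≠ 0 := by
      have := (Matrix.isUnit_iff_isUnit_det A).mp hAunit
      exact this.ne_zero
    have h1 : c ^ n = 1 := by
      have h2 := congrArg Matrix.det hc
      rw [Matrix.det_transpose, Matrix.det_smul, Fintype.card_fin] at h2
      have h3 : (c ^ n - 1) * A.det = 0 := by rw [sub_mul, ← h2, one_mul, sub_self]
      rcases mul_eq_zero.mp h3 with h4 | h4
      · exact sub_eq_zero.mp h4
      · exact absurd h4 hdet
    have h5 : c ^ 2 = 1 := by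
      have h6 : A = (c ^ 2) • A := by
        have h7 := congrArg Matrix.transpose hc
        rw [Matrix.transpose_transpose, Matrix.transpose_smul, hc, smul_smul] at h7
        rw [pow_two]
        exact h7
      have h8 : (c ^ 2 - 1) • A = 0 := by rw [sub_smul, ← h6, one_smul, sub_self]
      rcases smul_eq_zero.mp h8 with h9 | h9
      · exact sub_eq_zero.mp h9
      · exact absurd h9 hA0
    obtain ⟨k, hk⟩ := hodd
    have hc1 : c = 1 := by
      have : c ^ n = c := by
        rw [hk, pow_succ, pow_mul, h5, one_pow, one_mul]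
      rw [this] at h1
      exact h1
    rw [hc, hc1, one_smul]
  -- antisymmetric matrices average to zero
  have hanti : ∀ X : Matrix (Fin n) (Fin n) ℂ, X.transpose = -X → Av X = 0 := by
    intro X hX
    obtain ⟨c, hc⟩ := huniq (Av X) (hAvInv X)
    have h1 : (Av X).transpose = Av X := by
      rw [hc, Matrix.transpose_smul, hAsymm]
    have h2 : (Av X).transpose = -Av X := by
      rw [hAvT, hX, hAvX, hAvX, ← Finset.sum_neg_distrib]
      apply Finset.sum_congr rfl
      intro g _
      rw [Matrix.mul_neg, Matrix.neg_mul]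
    have h3 : Av X = -Av X := by rw [← h2, h1]
    have h4 : (2 : ℂ) • Av X = 0 := by
      rw [two_smul]
      nth_rewrite 1 [h3]
      exact neg_add_cancel _
    rcases smul_eq_zero.mp h4 with h5 | h5
    · norm_num at h5
    · exact h5
  -- conclusion
  have hfinal : ∑ g : G, (ρ.character g * ρ.character g - ρ.character (g * g)) = 0 := by
    have h2 : ∀ g : G, ρ.character g * ρ.character g - ρ.character (g * g) =
        ∑ i : Fin n, ∑ j : Fin n, ((M g).transpose *
          (Matrix.single i j (1 : ℂ) - Matrix.single j i (1 : ℂ)) * M g) i j := by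
      intro g
      simp only [Matrix.mul_sub, Matrix.sub_mul, Matrix.sub_apply, single_sandwich_apply,
        Finset.sum_sub_distrib]
      congr 1
      · rw [← htr g, Matrix.trace, Finset.sum_mul_sum]
        rfl
      · rw [← htr (g * g), hMmul, Matrix.trace]
        apply Finset.sum_congr rfl
        intro i _
        rw [Matrix.diag_apply, Matrix.mul_apply]
        apply Finset.sum_congr rfl
        intro j _
        ring
    rw [Finset.sum_congr rfl (fun g _ => h2 g), Finset.sum_comm]
    apply Finset.sum_eq_zero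
    intro i _
    rw [Finset.sum_comm]
    apply Finset.sum_eq_zero
    intro j _
    have h3 := congrFun (congrFun (hanti (Matrix.single i j (1 : ℂ) - Matrix.single j i (1 : ℂ))
      (by rw [Matrix.transpose_sub, Matrix.transpose_single, Matrix.transpose_single, neg_sub]))
      i) j
    rw [hAvX, Matrix.sum_apply] at h3
    exact h3
  rw [Finset.sum_sub_distrib, hsq, sub_eq_zero] at hfinal
  exact hfinal.symm

end FrobSchurOdd

end Cfsg.Agent.Helper15
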