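import Mathlib
import Cfsg.Prelude.Def_Characters
import Cfsg.Agent.Helper15.CharInner
import Cfsg.Agent.Helper15.CharScalar
import Cfsg.Agent.Helper15.RelM1
import Cfsg.Agent.Helper79.Basic
import Cfsg.Agent.Helper80.CharIrr

set_option autoImplicit false

namespace Cfsg.Agent.Helper15

open Cfsg
open scoped ComplexConjugate

/-- A central retract: a central subgroup `Z` of `X` with a retraction `π : X →* Z`. -/
structure CRet (X : Type*) [Group X] where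
  Z : Subgroup X
  π : X →* Z
  hπ : ∀ z : Z, π (z : X) = z
  hZ : ∀ (z : Z) (x : X), (z : X) * x = x * z

namespace CRet

variable {X : Type*} [Group X] [Fintype X] (R : CRet X)

/-- The twist of an irreducible character by a linear character of the retract. -/
noncomputable def twI (μ : R.Z →* ℂˣ) (φ : IrrCharacter X) : IrrCharacter X :=
  ⟨fun x => ((μ (R.π x) : ℂˣ) : ℂ) * (φ : X → ℂ) x, irr_hom_mul (μ.comp R.π) φ φ.2⟩

/-- The linear character of `X` inflated from a linear character of the retract. -/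
noncomputable def linI (μ : R.Z →* ℂˣ) : IrrCharacter X :=
  ⟨fun x => ((μ (R.π x) : ℂˣ) : ℂ), Cfsg.Agent.Helper79.isIrrCharacter_of_hom (μ.comp R.π)⟩

theorem twI_apply (μ : R.Z →* ℂˣ) (φ : IrrCharacter X) (x : X) :
    (R.twI μ φ : X → ℂ) x = ((μ (R.π x) : ℂˣ) : ℂ) * (φ : X → ℂ) x := rfl

theorem linI_apply (μ : R.Z →* ℂˣ) (x : X) :
    (R.linI μ : X → ℂ) x = ((μ (R.π x) : ℂˣ) : ℂ) := rfl

theorem leo_scalar_inj {n : ℕ} (hn : 0 < n) {a b : ℂ}
    (h : a • (1 : Module.End ℂ (Fin n → ℂ)) = b • (1 : Module.End ℂ (Fin n → ℂ))) : a = b := by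
  have h3 := congrArg (LinearMap.trace ℂ (Fin n → ℂ)) h
  rw [map_smul, map_smul, LinearMap.trace_one, smul_eq_mul, smul_eq_mul] at h3
  have h4 : (Module.finrank ℂ (Fin n → ℂ) : ℂ) ≠ 0 := by
    simp only [Module.finrank_fin_fun]
    exact_mod_cast hn.ne'
  exact mul_right_cancel₀ h4 h3

/-- Every irreducible character has a central character on `Z`. -/
theorem exists_cc (φ : IrrCharacter X) : ∃ f : R.Z →* ℂˣ, ∀ (z : R.Z) (x : X),
    (φ : X → ℂ) ((z : X) * x) = ((f z : ℂˣ) : ℂ) * (φ : X → ℂ) x := by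
  obtain ⟨n, ρ, hirr, hχ⟩ := φ.2
  have := hirr
  have hpos : 0 < n := by
    have := Cfsg.Agent.Helper80.rep_finrank_pos ρ
    simpa using this
  have hsc : ∀ z : R.Z, ∃ c : ℂ, ρ (z : X) = c • (1 : Module.End ℂ (Fin n → ℂ)) := by
    intro z
    apply rep_scalar_of_commute ρ
    intro g
    rw [← map_mul, ← map_mul, R.hZ z g]
  choose c hc using hsc
  have hc1 : c 1 = 1 := by
    apply leo_scalar_inj hpos
    rw [← hc 1, one_smul]
    simp
  have hcm : ∀ z z' : R.Z, c (z * z') = c z * c z' := by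
    intro z z'
    apply leo_scalar_inj hpos
    rw [← hc (z * z')]
    have : ((z * z' : R.Z) : X) = (z : X) * (z' : X) := rfl
    rw [this, map_mul, hc z, hc z', smul_mul_smul_comm, mul_one]
  let f₀ : R.Z →* ℂ := { toFun := c, map_one' := hc1, map_mul' := hcm }
  refine ⟨f₀.toHomUnits, ?_⟩
  intro z x
  have h1 : ((f₀.toHomUnits z : ℂˣ) : ℂ) = c z := by
    rw [MonoidHom.coe_toHomUnits]
    rfl
  rw [h1, ← hχ]
  exact char_mul_of_rep_scalar ρ (hc z) x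

/-- The central character of an irreducible character. -/
noncomputable def cc (φ : IrrCharacter X) : R.Z →* ℂˣ := Classical.choose (R.exists_cc φ)

theorem cc_spec (φ : IrrCharacter X) (z : R.Z) (x : X) :
    (φ : X → ℂ) ((z : X) * x) = ((R.cc φ z : ℂˣ) : ℂ) * (φ : X → ℂ) x :=
  Classical.choose_spec (R.exists_cc φ) z x

theorem cc_eq_of (φ : IrrCharacter X) (g : R.Z →* ℂˣ)
    (h : ∀ z : R.Z, (φ : X → ℂ) (z : X) = ((g z : ℂˣ) : ℂ) * (φ : X → ℂ) 1) : R.cc φ = g := by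
  ext z
  have h1 := R.cc_spec φ z 1
  rw [mul_one, h z] at h1
  exact (mul_right_cancel₀ (Cfsg.Agent.Helper80.irr_one_ne_zero φ) h1).symm

theorem twI_at_one (μ : R.Z →* ℂˣ) (φ : IrrCharacter X) :
    (R.twI μ φ : X → ℂ) 1 = (φ : X → ℂ) 1 := by
  rw [twI_apply, map_one, map_one]
  simp

theorem cc_twI (μ : R.Z →* ℂˣ) (φ : IrrCharacter X) : R.cc (R.twI μ φ) = μ * R.cc φ := by
  apply R.cc_eq_of
  intro z
  rw [twI_at_one, twI_apply, R.hπ z]
  have h1 := R.cc_spec φ z 1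
  rw [mul_one] at h1
  rw [h1, MonoidHom.mul_apply, Units.val_mul]
  ring

theorem linI_at_one (μ : R.Z →* ℂˣ) : (R.linI μ : X → ℂ) 1 = 1 := by
  rw [linI_apply, map_one, map_one]
  simp

theorem cc_linI (μ : R.Z →* ℂˣ) : R.cc (R.linI μ) = μ := by
  apply R.cc_eq_of
  intro z
  rw [linI_at_one, linI_apply, R.hπ z, mul_one]

theorem twI_one (φ : IrrCharacter X) : R.twI 1 φ = φ := by
  apply Subtype.ext
  funext x
  rw [twI_apply]
  simp

theorem twI_mul (μ μ' : R.Z →* ℂˣ) (φ : IrrCharacter X) :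
    R.twI (μ * μ') φ = R.twI μ (R.twI μ' φ) := by
  apply Subtype.ext
  funext x
  rw [twI_apply, twI_apply, twI_apply, MonoidHom.mul_apply, Units.val_mul]
  ring

theorem twI_linI (μ μ' : R.Z →* ℂˣ) : R.twI μ (R.linI μ') = R.linI (μ * μ') := by
  apply Subtype.ext
  funext x
  rw [twI_apply, linI_apply, linI_apply, MonoidHom.mul_apply, Units.val_mul]

theorem twI_inj {μ μ' : R.Z →* ℂˣ} {φ : IrrCharacter X} (h : R.twI μ φ = R.twI μ' φ) :
    μ = μ' := by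
  have h1 := congrArg R.cc h
  rw [cc_twI, cc_twI] at h1
  exact mul_right_cancel h1

theorem linI_inj {μ μ' : R.Z →* ℂˣ} (h : R.linI μ = R.linI μ') : μ = μ' := by
  have h1 := congrArg R.cc h
  rwa [cc_linI, cc_linI] at h1

theorem twI_apply_of_ker (μ : R.Z →* ℂˣ) (φ : IrrCharacter X) {x : X} (hx : R.π x = 1) :
    (R.twI μ φ : X → ℂ) x = (φ : X → ℂ) x := by
  rw [twI_apply, hx, map_one]
  simp

theorem twI_inv_twI (μ : R.Z →* ℂˣ) (φ : IrrCharacter X) : R.twI μ⁻¹ (R.twI μ φ) = φ := by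
  have h : μ⁻¹ * μ = 1 := inv_mul_cancel μ
  rw [← twI_mul, h, twI_one]

theorem twI_twI_inv (μ : R.Z →* ℂˣ) (φ : IrrCharacter X) : R.twI μ (R.twI μ⁻¹ φ) = φ := by
  have h : μ * μ⁻¹ = 1 := mul_inv_cancel μ
  rw [← twI_mul, h, twI_one]

theorem linI_one_apply (x : X) : (R.linI 1 : X → ℂ) x = 1 := by
  rw [linI_apply]
  simp

theorem conj_hom_val (f : R.Z →* ℂˣ) (z : R.Z) :
    conj ((f z : ℂˣ) : ℂ) = (((f z)⁻¹ : ℂˣ) : ℂ) := by
  rw [Cfsg.Agent.Helper79.conj_hom_apply f z, map_inv]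

/-- Central characters are multiplicative on products of characters. -/
theorem cc_grading (φ₁ φ₂ φ : IrrCharacter X)
    (h : classInner (fun x => (φ₁ : X → ℂ) x * conj ((φ₂ : X → ℂ) x)) (φ : X → ℂ) ≠ 0) :
    R.cc φ = R.cc φ₁ * (R.cc φ₂)⁻¹ := by
  ext z
  have hS : ∑ x : X, (φ₁ : X → ℂ) x * conj ((φ₂ : X → ℂ) x) * conj ((φ : X → ℂ) x) ≠ 0 := by
    intro h0
    apply h
    unfold classInner
    rw [h0, mul_zero]
  have h1 : ∑ x : X, (φ₁ : X → ℂ) x * conj ((φ₂ : X → ℂ) x) * conj ((φ : X → ℂ) x) =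
      (((R.cc φ₁ z : ℂˣ) : ℂ) * (((R.cc φ₂ z)⁻¹ : ℂˣ) : ℂ) * (((R.cc φ z)⁻¹ : ℂˣ) : ℂ)) *
        ∑ x : X, (φ₁ : X → ℂ) x * conj ((φ₂ : X → ℂ) x) * conj ((φ : X → ℂ) x) := by
    conv_lhs => rw [← Equiv.sum_comp (Equiv.mulLeft (z : X))]
    rw [Finset.mul_sum]
    apply Finset.sum_congr rfl
    intro x _
    simp only [Equiv.coe_mulLeft]
    rw [R.cc_spec φ₁ z x, R.cc_spec φ₂ z x, R.cc_spec φ z x, map_mul, map_mul,
      R.conj_hom_val, R.conj_hom_val]
    ring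
  have h2 : ((R.cc φ₁ z : ℂˣ) : ℂ) * (((R.cc φ₂ z)⁻¹ : ℂˣ) : ℂ) * (((R.cc φ z)⁻¹ : ℂˣ) : ℂ)
      = 1 := by
    have h3 : (1 - ((R.cc φ₁ z : ℂˣ) : ℂ) * (((R.cc φ₂ z)⁻¹ : ℂˣ) : ℂ) *
        (((R.cc φ z)⁻¹ : ℂˣ) : ℂ)) *
        ∑ x : X, (φ₁ : X → ℂ) x * conj ((φ₂ : X → ℂ) x) * conj ((φ : X → ℂ) x) = 0 := by
      rw [sub_mul, one_mul, ← h1, sub_self]
    rcases mul_eq_zero.mp h3 with h4 | h4
    · exact (sub_eq_zero.mp h4).symm
    · exact absurd h4 hS
  have h5 : R.cc φ₁ z * (R.cc φ₂ z)⁻¹ * (R.cc φ z)⁻¹ = 1 := by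
    apply Units.ext
    rw [Units.val_mul, Units.val_mul, h2]
    rfl
  rw [MonoidHom.mul_apply, MonoidHom.inv_apply]
  have h6 : R.cc φ₁ z * (R.cc φ₂ z)⁻¹ = R.cc φ z := by
    rw [mul_inv_eq_one] at h5
    exact h5
  rw [h6]

/-- The multiplicity of a linear twist character in a product. -/
theorem inner_mul_conj_linI (φ₁ φ₂ : IrrCharacter X) (μ : R.Z →* ℂˣ) :
    classInner (fun x => (φ₁ : X → ℂ) x * conj ((φ₂ : X → ℂ) x)) (R.linI μ : X → ℂ) =
      if φ₁ = R.twI μ φ₂ then 1 else 0 := by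
  rw [← irr_inner φ₁ (R.twI μ φ₂)]
  unfold classInner
  congr 1
  apply Finset.sum_congr rfl
  intro x _
  rw [linI_apply, twI_apply, map_mul]
  ring

/-- The dual of the retract has as many elements as the retract. -/
theorem card_dual : Nat.card (R.Z →* ℂˣ) = Nat.card R.Z := by
  let _ : CommGroup R.Z :=
    { (inferInstance : Group R.Z) with mul_comm := fun a b => Subtype.ext (R.hZ a b) }
  have hne : NeZero ((Monoid.exponent R.Z : ℕ) : ℂ) := by
    constructor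
    exact_mod_cast Monoid.exponent_ne_zero_of_finite
  exact CommGroup.card_monoidHom_of_hasEnoughRootsOfUnity R.Z ℂ

instance finite_dual : Finite (R.Z →* ℂˣ) := by
  apply Nat.finite_of_card_ne_zero
  rw [R.card_dual]
  exact Nat.card_pos.ne'

end CRet

end Cfsg.Agent.Helper15
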