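import Mathlib
import Cfsg.Prelude.Def_Characters
import Cfsg.Agent.Helper15.LeoLocal
import Cfsg.Agent.Helper3.IndFun
import Cfsg.Agent.Helper75.ConjFun
import Cfsg.Agent.Helper79.Quotient

set_option autoImplicit false

namespace Cfsg.Agent.Helper15

open Cfsg
open scoped ComplexConjugate Classical

noncomputable section

/-- Leonard's local configuration: a subgroup `C` with a central retract, normalized by `N`,
such that the elements of `C` outside the kernel of the retraction form a TI-set with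
normalizer `N`, and `N / C` acts freely on the non-principal characters of the retract. -/
structure LeoCfg (G : Type*) [Group G] where
  C : Subgroup G
  N : Subgroup G
  R : CRet C
  hCN : C ≤ N
  hnorm : ∀ y ∈ N, ∀ c ∈ C, y⁻¹ * c * y ∈ C
  hπnorm : ∀ (y : G) (hy : y ∈ N) (c : C),
    (((R.π ⟨y⁻¹ * (c : G) * y, hnorm y hy c c.2⟩ : R.Z) : C) : G) =
      y⁻¹ * (((R.π c : R.Z) : C) : G) * y
  hfree : ∀ (y : G) (hy : y ∈ N) (μ : R.Z →* ℂˣ), μ ≠ 1 →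
    (∀ z : R.Z, μ (R.π ⟨y⁻¹ * ((z : C) : G) * y, hnorm y hy _ (z : C).2⟩) = μ z) → y ∈ C
  hTI : ∀ c : C, R.π c ≠ 1 → ∀ x : G, x⁻¹ * (c : G) * x ∈ C → x ∈ N

namespace LeoCfg

variable {G : Type*} [Group G] (L : LeoCfg G)

/-- Conjugation by an element of `N` as an automorphism of `C`. -/
def cjE (y : L.N) : L.C ≃* L.C where
  toFun c := ⟨(y : G)⁻¹ * c * y, L.hnorm y y.2 c c.2⟩
  invFun c := ⟨(y : G) * c * (y : G)⁻¹, by
    have := L.hnorm (y : G)⁻¹ (L.N.inv_mem y.2) c c.2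
    simpa using this⟩
  left_inv c := by
    apply Subtype.ext
    simp [mul_assoc]
  right_inv c := by
    apply Subtype.ext
    simp [mul_assoc]
  map_mul' a b := by
    apply Subtype.ext
    simp [mul_assoc]

theorem cjE_coe (y : L.N) (c : L.C) : ((L.cjE y c : L.C) : G) = (y : G)⁻¹ * c * y := rfl

theorem cjE_mul (y y' : L.N) (c : L.C) : L.cjE (y * y') c = L.cjE y' (L.cjE y c) := by
  apply Subtype.ext
  rw [cjE_coe, cjE_coe, cjE_coe]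
  simp [mul_assoc]

theorem cjE_one (c : L.C) : L.cjE 1 c = c := by
  apply Subtype.ext
  rw [cjE_coe]
  simp

theorem π_cjE (y : L.N) (c : L.C) :
    ((L.R.π (L.cjE y c) : L.R.Z) : L.C) = L.cjE y ((L.R.π c : L.R.Z) : L.C) :=
  Subtype.ext (L.hπnorm y y.2 c)

theorem π_cjE_π (y : L.N) (c : L.C) :
    L.R.π (L.cjE y ((L.R.π c : L.R.Z) : L.C)) = L.R.π (L.cjE y c) := by
  rw [← π_cjE, L.R.hπ]

/-- Conjugation of functions on `C`. -/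
def cjf (y : L.N) (f : L.C → ℂ) : L.C → ℂ := fun c => f (L.cjE y c)

/-- Conjugation of irreducible characters of `C`. -/
def cjI (y : L.N) (φ : IrrCharacter L.C) : IrrCharacter L.C :=
  ⟨L.cjf y φ, (Cfsg.Agent.Helper79.isIrrCharacter_mulEquiv (L.cjE y)).mpr φ.2⟩

/-- Conjugation of linear characters of the retract. -/
def cjA (y : L.N) (μ : L.R.Z →* ℂˣ) : L.R.Z →* ℂˣ :=
  μ.comp ((L.R.π.comp (L.cjE y).toMonoidHom).comp L.R.Z.subtype)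

theorem cjA_apply (y : L.N) (μ : L.R.Z →* ℂˣ) (z : L.R.Z) :
    L.cjA y μ z = μ (L.R.π (L.cjE y (z : L.C))) := rfl

theorem cjI_apply (y : L.N) (φ : IrrCharacter L.C) (c : L.C) :
    (L.cjI y φ : L.C → ℂ) c = (φ : L.C → ℂ) (L.cjE y c) := rfl

theorem cjI_mul (y y' : L.N) (φ : IrrCharacter L.C) :
    L.cjI (y * y') φ = L.cjI y (L.cjI y' φ) := by
  apply Subtype.ext
  funext c
  rw [cjI_apply, cjI_apply, cjI_apply, cjE_mul]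

theorem cjI_one (φ : IrrCharacter L.C) : L.cjI 1 φ = φ := by
  apply Subtype.ext
  funext c
  rw [cjI_apply, cjE_one]

theorem cjI_of_mem (y : L.N) (hy : (y : G) ∈ L.C) (φ : IrrCharacter L.C) : L.cjI y φ = φ := by
  apply Subtype.ext
  funext c
  rw [cjI_apply]
  have hcl := isClassFunction_of_isChar (isChar_of_irr φ.2)
  have h1 : L.cjE y c = (⟨(y : G), hy⟩ : L.C)⁻¹ * c * (⟨(y : G), hy⟩ : L.C)⁻¹⁻¹ := by
    apply Subtype.ext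
    rw [cjE_coe]
    simp
  rw [h1]
  exact hcl c _

theorem cjA_mul (y y' : L.N) (μ : L.R.Z →* ℂˣ) : L.cjA (y * y') μ = L.cjA y (L.cjA y' μ) := by
  ext z
  rw [cjA_apply, cjA_apply, cjA_apply, π_cjE_π, cjE_mul]

theorem cjA_one (μ : L.R.Z →* ℂˣ) : L.cjA 1 μ = μ := by
  ext z
  rw [cjA_apply, cjE_one, L.R.hπ]

theorem cjA_map_one (y : L.N) : L.cjA y 1 = 1 := by
  ext z
  rw [cjA_apply]
  simp

theorem cjA_map_mul (y : L.N) (μ μ' : L.R.Z →* ℂˣ) :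
    L.cjA y (μ * μ') = L.cjA y μ * L.cjA y μ' := by
  ext z
  rw [cjA_apply, MonoidHom.mul_apply, MonoidHom.mul_apply, cjA_apply, cjA_apply]

theorem cjA_inv_cjA (y : L.N) (μ : L.R.Z →* ℂˣ) : L.cjA y⁻¹ (L.cjA y μ) = μ := by
  rw [← cjA_mul, inv_mul_cancel, cjA_one]

theorem cjA_cjA_inv (y : L.N) (μ : L.R.Z →* ℂˣ) : L.cjA y (L.cjA y⁻¹ μ) = μ := by
  rw [← cjA_mul, mul_inv_cancel, cjA_one]

theorem cjA_eq_one_iff (y : L.N) (μ : L.R.Z →* ℂˣ) : L.cjA y μ = 1 ↔ μ = 1 := by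
  constructor
  · intro h
    have := congrArg (L.cjA y⁻¹) h
    rwa [cjA_inv_cjA, cjA_map_one] at this
  · intro h
    rw [h, cjA_map_one]

theorem cjA_map_inv (y : L.N) (μ : L.R.Z →* ℂˣ) : L.cjA y μ⁻¹ = (L.cjA y μ)⁻¹ := by
  ext z
  rw [cjA_apply, MonoidHom.inv_apply, MonoidHom.inv_apply, cjA_apply]

theorem cjA_free (y : L.N) (μ : L.R.Z →* ℂˣ) (hμ : μ ≠ 1) (h : L.cjA y μ = μ) :
    (y : G) ∈ L.C := by
  apply L.hfree y y.2 μ hμ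
  intro z
  have := congrArg (fun f : L.R.Z →* ℂˣ => f z) h
  exact this

theorem cjI_inv_cjI (y : L.N) (φ : IrrCharacter L.C) : L.cjI y⁻¹ (L.cjI y φ) = φ := by
  rw [← cjI_mul, inv_mul_cancel, cjI_one]

theorem cjI_cjI_inv (y : L.N) (φ : IrrCharacter L.C) : L.cjI y (L.cjI y⁻¹ φ) = φ := by
  rw [← cjI_mul, mul_inv_cancel, cjI_one]

section Fin

variable [Fintype L.C]

theorem cc_cjI (y : L.N) (φ : IrrCharacter L.C) : L.R.cc (L.cjI y φ) = L.cjA y (L.R.cc φ) := by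
  apply L.R.cc_eq_of
  intro z
  rw [cjI_apply, cjI_apply, cjA_apply]
  have h1 : L.cjE y (z : L.C) = ((L.R.π (L.cjE y (z : L.C)) : L.R.Z) : L.C) * 1 := by
    rw [mul_one, π_cjE, L.R.hπ]
  have h2 : L.cjE y (1 : L.C) = 1 := map_one _
  conv_lhs => rw [h1]
  rw [L.R.cc_spec, h2]

theorem cjI_twI (y : L.N) (μ : L.R.Z →* ℂˣ) (φ : IrrCharacter L.C) :
    L.cjI y (L.R.twI μ φ) = L.R.twI (L.cjA y μ) (L.cjI y φ) := by
  apply Subtype.ext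
  funext c
  rw [cjI_apply, CRet.twI_apply, CRet.twI_apply, cjI_apply, cjA_apply, π_cjE_π]

theorem cjI_linI (y : L.N) (μ : L.R.Z →* ℂˣ) :
    L.cjI y (L.R.linI μ) = L.R.linI (L.cjA y μ) := by
  apply Subtype.ext
  funext c
  rw [cjI_apply, CRet.linI_apply, CRet.linI_apply, cjA_apply, π_cjE_π]

theorem cjI_stab (y : L.N) (φ : IrrCharacter L.C) (hφ : L.R.cc φ ≠ 1) (h : L.cjI y φ = φ) :
    (y : G) ∈ L.C := by
  apply L.cjA_free y (L.R.cc φ) hφ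
  rw [← cc_cjI, h]

/-- `N`-conjugacy of irreducible characters of `C`. -/
def conjN (φ₁ φ₂ : IrrCharacter L.C) : Prop := ∃ y : L.N, L.cjI y φ₁ = φ₂

theorem conjN_refl (φ : IrrCharacter L.C) : L.conjN φ φ := ⟨1, L.cjI_one φ⟩

theorem conjN_symm {φ₁ φ₂ : IrrCharacter L.C} (h : L.conjN φ₁ φ₂) : L.conjN φ₂ φ₁ := by
  obtain ⟨y, rfl⟩ := h
  exact ⟨y⁻¹, L.cjI_inv_cjI y φ₁⟩

theorem conjN_trans {φ₁ φ₂ φ₃ : IrrCharacter L.C} (h : L.conjN φ₁ φ₂) (h' : L.conjN φ₂ φ₃) :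
    L.conjN φ₁ φ₃ := by
  obtain ⟨y, rfl⟩ := h
  obtain ⟨y', rfl⟩ := h'
  exact ⟨y' * y, L.cjI_mul y' y φ₁⟩

theorem conjN_comm (φ₁ φ₂ : IrrCharacter L.C) : L.conjN φ₁ φ₂ ↔ L.conjN φ₂ φ₁ :=
  ⟨L.conjN_symm, L.conjN_symm⟩

/-- `N`-conjugacy of linear characters of the retract. -/
def conjA (μ₁ μ₂ : L.R.Z →* ℂˣ) : Prop := ∃ y : L.N, L.cjA y μ₁ = μ₂

theorem conjA_refl (μ : L.R.Z →* ℂˣ) : L.conjA μ μ := ⟨1, L.cjA_one μ⟩

theorem conjA_symm {μ₁ μ₂ : L.R.Z →* ℂˣ} (h : L.conjA μ₁ μ₂) : L.conjA μ₂ μ₁ := by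
  obtain ⟨y, rfl⟩ := h
  exact ⟨y⁻¹, L.cjA_inv_cjA y μ₁⟩

theorem conjA_trans {μ₁ μ₂ μ₃ : L.R.Z →* ℂˣ} (h : L.conjA μ₁ μ₂) (h' : L.conjA μ₂ μ₃) :
    L.conjA μ₁ μ₃ := by
  obtain ⟨y, rfl⟩ := h
  obtain ⟨y', rfl⟩ := h'
  exact ⟨y' * y, L.cjA_mul y' y μ₁⟩

theorem conjN_cc {φ₁ φ₂ : IrrCharacter L.C} (h : L.conjN φ₁ φ₂) :
    L.conjA (L.R.cc φ₁) (L.R.cc φ₂) := by
  obtain ⟨y, rfl⟩ := h
  exact ⟨y, (L.cc_cjI y φ₁).symm⟩

theorem conjA_one_iff (μ : L.R.Z →* ℂˣ) : L.conjA 1 μ ↔ μ = 1 := by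
  constructor
  · rintro ⟨y, rfl⟩
    exact L.cjA_map_one y
  · rintro rfl
    exact L.conjA_refl 1

theorem conjA_ne_one {μ₁ μ₂ : L.R.Z →* ℂˣ} (h : L.conjA μ₁ μ₂) (h1 : μ₁ ≠ 1) : μ₂ ≠ 1 := by
  obtain ⟨y, rfl⟩ := h
  intro h2
  exact h1 ((L.cjA_eq_one_iff y μ₁).mp h2)

theorem conjN_linI {μ₁ μ₂ : L.R.Z →* ℂˣ} :
    L.conjN (L.R.linI μ₁) (L.R.linI μ₂) ↔ L.conjA μ₁ μ₂ := by
  constructor
  · rintro ⟨y, hy⟩
    rw [cjI_linI] at hy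
    exact ⟨y, L.R.linI_inj hy⟩
  · rintro ⟨y, rfl⟩
    exact ⟨y, L.cjI_linI y μ₁⟩

theorem conjN_twI {φ₁ φ₂ : IrrCharacter L.C} (h : L.conjN φ₁ φ₂) (μ : L.R.Z →* ℂˣ) :
    ∃ μ' : L.R.Z →* ℂˣ, L.conjN (L.R.twI μ φ₁) (L.R.twI μ' φ₂) := by
  obtain ⟨y, rfl⟩ := h
  exact ⟨L.cjA y μ, y, L.cjI_twI y μ φ₁⟩

end Fin

end LeoCfg

end

end Cfsg.Agent.Helper15
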