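import Mathlib
import Cfsg.Prelude.Def_Characters
import Cfsg.Agent.Helper15.LeoCfg

set_option autoImplicit false

namespace Cfsg.Agent.Helper15

open Cfsg
open scoped ComplexConjugate Classical

noncomputable section

theorem leo_classInner_sub_left {X : Type*} [Group X] [Fintype X] (a b c : X → ℂ) :
    classInner (a - b) c = classInner a c - classInner b c := by
  unfold classInner
  rw [← mul_sub, ← Finset.sum_sub_distrib]
  congr 1
  apply Finset.sum_congr rfl
  intro x _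
  simp only [Pi.sub_apply]
  ring

namespace LeoCfg

variable {G : Type*} [Group G] [Fintype G] (L : LeoCfg G) [Fintype L.C] [Fintype L.N]

/-- The multiplicity of an irreducible character of `C` in the restriction of `ψ`. -/
def mult (ψ : G → ℂ) (φ : IrrCharacter L.C) : ℕ :=
  ⌊(classInner (fun c : L.C => ψ c) (φ : L.C → ℂ)).re⌋₊

omit [Fintype G] [Fintype L.N] in
theorem mult_spec {ψ : G → ℂ} (hψ : IsCharacter G ψ) (φ : IrrCharacter L.C) :
    classInner (fun c : L.C => ψ c) (φ : L.C → ℂ) = (L.mult ψ φ : ℂ) := by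
  obtain ⟨n, hn⟩ := inner_nat (Cfsg.Agent.Helper79.isCharacter_restrict hψ L.C)
    (isChar_of_irr φ.2)
  unfold mult
  rw [hn]
  simp

omit [Fintype G] [Fintype L.N] in
theorem mult_spec' {ψ : G → ℂ} (hψ : IsCharacter G ψ) (φ : IrrCharacter L.C) :
    classInner (φ : L.C → ℂ) (fun c : L.C => ψ c) = (L.mult ψ φ : ℂ) := by
  rw [classInner_conj_symm, L.mult_spec hψ, Complex.conj_natCast]

omit [Fintype G] [Fintype L.N] in
theorem mult_cjI {ψ : G → ℂ} (hψ : IsCharacter G ψ) (y : L.N) (φ : IrrCharacter L.C) :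
    L.mult ψ (L.cjI y φ) = L.mult ψ φ := by
  have hcl := isClassFunction_of_isChar hψ
  have h : classInner (fun c : L.C => ψ c) (L.cjI y φ : L.C → ℂ) =
      classInner (fun c : L.C => ψ c) (φ : L.C → ℂ) := by
    unfold classInner
    congr 1
    rw [← Equiv.sum_comp (L.cjE y).toEquiv (fun c : L.C => ψ c * conj ((φ : L.C → ℂ) c))]
    apply Finset.sum_congr rfl
    intro c _
    simp only [MulEquiv.toEquiv_eq_coe, EquivLike.coe_coe]
    rw [cjI_apply]
    congr 1
    rw [cjE_coe]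
    have := hcl (c : G) (y : G)⁻¹
    rw [inv_inv] at this
    exact this.symm
  unfold mult
  rw [h]

omit [Fintype G] [Fintype L.N] in
theorem mult_conjN {ψ : G → ℂ} (hψ : IsCharacter G ψ) {φ₁ φ₂ : IrrCharacter L.C}
    (h : L.conjN φ₁ φ₂) : L.mult ψ φ₁ = L.mult ψ φ₂ := by
  obtain ⟨y, rfl⟩ := h
  exact (L.mult_cjI hψ y φ₁).symm

/-- The number of elements of `N` conjugating `φ₁` to `φ₂`. -/
def Rcount (φ₁ φ₂ : IrrCharacter L.C) : ℕ :=
  (Finset.univ.filter (fun y : L.N => L.cjI y φ₁ = φ₂)).card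

omit [Fintype G] in
theorem Rcount_of_nontriv (φ₁ φ₂ : IrrCharacter L.C) (h : L.R.cc φ₁ ≠ 1) :
    L.Rcount φ₁ φ₂ = if L.conjN φ₁ φ₂ then Nat.card L.C else 0 := by
  split_ifs with hc
  · obtain ⟨y₀, hy₀⟩ := hc
    unfold Rcount
    have himg : Finset.univ.filter (fun y : L.N => L.cjI y φ₁ = φ₂) =
        Finset.univ.image (fun c : L.C => y₀ * (⟨(c : G), L.hCN c.2⟩ : L.N)) := by
      ext y
      simp only [Finset.mem_filter, Finset.mem_univ, true_and, Finset.mem_image]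
      constructor
      · intro hy
        have h1 : L.cjI (y₀⁻¹ * y) φ₁ = φ₁ := by
          rw [cjI_mul, hy, ← hy₀, cjI_inv_cjI]
        have h2 := L.cjI_stab (y₀⁻¹ * y) φ₁ h h1
        refine ⟨⟨((y₀⁻¹ * y : L.N) : G), h2⟩, ?_⟩
        apply Subtype.ext
        simp
      · rintro ⟨c, rfl⟩
        rw [cjI_mul, L.cjI_of_mem ⟨(c : G), L.hCN c.2⟩ c.2, hy₀]
    rw [himg, Finset.card_image_of_injective, Finset.card_univ, Nat.card_eq_fintype_card]
    intro c c' hcc
    have := mul_left_cancel hcc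
    apply Subtype.ext
    exact congrArg (fun y : L.N => (y : G)) this
  · unfold Rcount
    rw [Finset.card_eq_zero, Finset.filter_eq_empty_iff]
    intro y _ hy
    exact hc ⟨y, hy⟩

omit [Fintype G] in
theorem Rcount_le (φ₁ φ₂ : IrrCharacter L.C) : L.Rcount φ₁ φ₂ ≤ Nat.card L.N := by
  unfold Rcount
  rw [Nat.card_eq_fintype_card, ← Finset.card_univ]
  exact Finset.card_filter_le _ _

omit [Fintype G] in
theorem Rcount_one_one : L.Rcount (L.R.linI 1) (L.R.linI 1) = Nat.card L.N := by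
  unfold Rcount
  rw [Nat.card_eq_fintype_card, ← Finset.card_univ]
  congr 1
  rw [Finset.filter_eq_self]
  intro y _
  rw [cjI_linI, cjA_map_one]

/-- The induced class function of a function vanishing on the kernel of the retraction,
evaluated on `C`. -/
theorem indFun_apply_C (α : L.C → ℂ) (hα : ∀ c : L.C, L.R.π c = 1 → α c = 0) (c : L.C) :
    indFun L.C α (c : G) = (Nat.card L.C : ℂ)⁻¹ * ∑ y : L.N, L.cjf y α c := by
  unfold indFun
  congr 1
  rw [← Cfsg.Agent.Helper3.sum_extendByZero L.N (fun y : L.N => L.cjf y α c)]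
  apply Finset.sum_congr rfl
  intro x _
  by_cases hx : x ∈ L.N
  · rw [Cfsg.Agent.Helper3.extendByZero_of_mem L.N _ hx]
    have hmem : x⁻¹ * (c : G) * x ∈ L.C := L.hnorm x hx c c.2
    rw [Cfsg.Agent.Helper3.extendByZero_of_mem L.C α hmem]
    rfl
  · rw [Cfsg.Agent.Helper3.extendByZero_of_not_mem L.N _ hx]
    by_cases hmem : x⁻¹ * (c : G) * x ∈ L.C
    · rw [Cfsg.Agent.Helper3.extendByZero_of_mem L.C α hmem]
      apply hα
      by_contra hπ
      apply hx
      have h1 : x⁻¹⁻¹ * ((⟨x⁻¹ * (c : G) * x, hmem⟩ : L.C) : G) * x⁻¹ ∈ L.C := by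
        have : x⁻¹⁻¹ * (x⁻¹ * (c : G) * x) * x⁻¹ = (c : G) := by group
        rw [this]
        exact c.2
      have := L.hTI ⟨x⁻¹ * c * x, hmem⟩ hπ x⁻¹ h1
      simpa using this
    · rw [Cfsg.Agent.Helper3.extendByZero_of_not_mem L.C α hmem]

variable [Fintype (IrrCharacter G)]

/-- The class function induced from the difference of two sibling characters. -/
theorem exists_indDiff (φ : IrrCharacter L.C) (μ : L.R.Z →* ℂˣ) :
    ∃ Δ : G → ℂ, IsClassFunction G Δ ∧ Δ 1 = 0 ∧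
      (∀ ψ : IrrCharacter G, classInner Δ (ψ : G → ℂ) =
        (L.mult ψ φ : ℂ) - (L.mult ψ (L.R.twI μ φ) : ℂ)) ∧
      (∀ c : L.C, Δ c = (Nat.card L.C : ℂ)⁻¹ * ∑ y : L.N,
        ((L.cjI y φ : L.C → ℂ) c - (L.cjI y (L.R.twI μ φ) : L.C → ℂ) c)) := by
  let α : L.C → ℂ := (φ : L.C → ℂ) - (L.R.twI μ φ : L.C → ℂ)
  have hα : ∀ c : L.C, L.R.π c = 1 → α c = 0 := by
    intro c hc
    simp only [α, Pi.sub_apply]
    rw [L.R.twI_apply_of_ker μ φ hc, sub_self]
  refine ⟨indFun L.C α, Cfsg.Agent.Helper3.indFun_isClassFunction L.C α, ?_, ?_, ?_⟩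
  · rw [Cfsg.Agent.Helper75.indFun_one]
    have : α 1 = 0 := by
      simp only [α, Pi.sub_apply]
      rw [L.R.twI_at_one, sub_self]
    rw [this, mul_zero]
  · intro ψ
    rw [Cfsg.Agent.Helper3.frobenius_reciprocity L.C α ψ
      (isClassFunction_of_isChar (isChar_of_irr ψ.2))]
    simp only [α]
    rw [leo_classInner_sub_left, L.mult_spec' (isChar_of_irr ψ.2),
      L.mult_spec' (isChar_of_irr ψ.2)]
  · intro c
    rw [L.indFun_apply_C α hα c]
    rfl

/-- The basic identity: restriction of the induced difference. -/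
theorem gen2 (φ : IrrCharacter L.C) (μ : L.R.Z →* ℂˣ) (φ₁ : IrrCharacter L.C) :
    ∑ ψ : IrrCharacter G, ((L.mult ψ φ : ℂ) - (L.mult ψ (L.R.twI μ φ) : ℂ)) *
        (L.mult ψ φ₁ : ℂ) =
      (Nat.card L.C : ℂ)⁻¹ * ((L.Rcount φ φ₁ : ℂ) - (L.Rcount (L.R.twI μ φ) φ₁ : ℂ)) := by
  obtain ⟨Δ, hcl, -, hco, hres⟩ := L.exists_indDiff φ μ
  have hexp := classFun_eq_sum hcl
  have hA : classInner (fun c : L.C => Δ c) (φ₁ : L.C → ℂ) =
      ∑ ψ : IrrCharacter G, classInner Δ (ψ : G → ℂ) * (L.mult ψ φ₁ : ℂ) := by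
    have h2 : (fun c : L.C => Δ c) = ∑ ψ : IrrCharacter G,
        classInner Δ (ψ : G → ℂ) • (fun c : L.C => (ψ : G → ℂ) c) := by
      funext c
      have h3 := congrFun hexp (c : G)
      rw [Finset.sum_apply] at h3
      rw [Finset.sum_apply]
      exact h3
    rw [h2, classInner_sum_left]
    apply Finset.sum_congr rfl
    intro ψ _
    rw [classInner_smul_left, L.mult_spec (isChar_of_irr ψ.2)]
  have hB : classInner (fun c : L.C => Δ c) (φ₁ : L.C → ℂ) =
      (Nat.card L.C : ℂ)⁻¹ * ((L.Rcount φ φ₁ : ℂ) - (L.Rcount (L.R.twI μ φ) φ₁ : ℂ)) := by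
    have h3 : (fun c : L.C => Δ c) = (Nat.card L.C : ℂ)⁻¹ • ∑ y : L.N,
        ((L.cjI y φ : L.C → ℂ) - (L.cjI y (L.R.twI μ φ) : L.C → ℂ)) := by
      funext c
      rw [hres c, Pi.smul_apply, Finset.sum_apply, smul_eq_mul]
      rfl
    rw [h3, classInner_smul_left, classInner_sum_left]
    congr 1
    have h4 : ∀ y : L.N, classInner ((L.cjI y φ : L.C → ℂ) -
        (L.cjI y (L.R.twI μ φ) : L.C → ℂ)) (φ₁ : L.C → ℂ) =
        (if L.cjI y φ = φ₁ then (1 : ℂ) else 0) -
          (if L.cjI y (L.R.twI μ φ) = φ₁ then (1 : ℂ) else 0) := by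
      intro y
      rw [leo_classInner_sub_left, irr_inner, irr_inner]
    rw [Finset.sum_congr rfl (fun y _ => h4 y), Finset.sum_sub_distrib]
    unfold Rcount
    rw [Finset.sum_boole, Finset.sum_boole]
  rw [← hB, hA]
  apply Finset.sum_congr rfl
  intro ψ _
  rw [hco ψ]

theorem deg0 (φ : IrrCharacter L.C) (μ : L.R.Z →* ℂˣ) :
    ∑ ψ : IrrCharacter G, ((L.mult ψ φ : ℂ) - (L.mult ψ (L.R.twI μ φ) : ℂ)) *
        (ψ : G → ℂ) 1 = 0 := by
  obtain ⟨Δ, hcl, h1, hco, -⟩ := L.exists_indDiff φ μ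
  have hexp := classFun_eq_sum hcl
  have h3 := congrFun hexp 1
  rw [Finset.sum_apply, h1] at h3
  rw [h3]
  apply Finset.sum_congr rfl
  intro ψ _
  rw [← hco ψ]
  rfl

end LeoCfg

end

end Cfsg.Agent.Helper15
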