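import Mathlib
import Cfsg.Prelude.Def_Characters
import Cfsg.Agent.Helper15.LeoInd

set_option autoImplicit false

namespace Cfsg.Agent.Helper15

open Cfsg
open scoped ComplexConjugate Classical

noncomputable section

namespace LeoCfg

variable {G : Type*} [Group G] [Fintype G] (L : LeoCfg G) [Fintype L.C] [Fintype L.N]
  [Fintype (IrrCharacter G)]

theorem gen2Z (φ : IrrCharacter L.C) (μ : L.R.Z →* ℂˣ) (φ₁ : IrrCharacter L.C)
    (h1 : L.R.cc φ ≠ 1) (h2 : μ * L.R.cc φ ≠ 1) :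
    ∑ ψ : IrrCharacter G, ((L.mult ψ φ : ℤ) - (L.mult ψ (L.R.twI μ φ) : ℤ)) *
        (L.mult ψ φ₁ : ℤ) =
      (if L.conjN φ φ₁ then 1 else 0) - (if L.conjN (L.R.twI μ φ) φ₁ then 1 else 0) := by
  have h := L.gen2 φ μ φ₁
  have h2' : L.R.cc (L.R.twI μ φ) ≠ 1 := by rw [L.R.cc_twI]; exact h2
  rw [L.Rcount_of_nontriv φ φ₁ h1, L.Rcount_of_nontriv (L.R.twI μ φ) φ₁ h2'] at h
  have hC : (Nat.card L.C : ℂ) ≠ 0 := by exact_mod_cast Nat.card_pos.ne'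
  apply Int.cast_injective (α := ℂ)
  push_cast
  rw [h]
  by_cases c1 : L.conjN φ φ₁ <;> by_cases c2 : L.conjN (L.R.twI μ φ) φ₁ <;>
    simp [c1, c2]

theorem deg0Z (φ : IrrCharacter L.C) (μ : L.R.Z →* ℂˣ) :
    ∑ ψ : IrrCharacter G, ((L.mult ψ φ : ℤ) - (L.mult ψ (L.R.twI μ φ) : ℤ)) *
        (charDegree (ψ : G → ℂ) : ℤ) = 0 := by
  have h := L.deg0 φ μ
  apply Int.cast_injective (α := ℂ)
  push_cast
  rw [← h]
  apply Finset.sum_congr rfl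
  intro ψ _
  rw [Cfsg.Agent.Helper80.irr_one_eq ψ]

omit [Fintype G] [Fintype (IrrCharacter G)] in
theorem Rcount_triv_nontriv (θ φ : IrrCharacter L.C) (hθ : L.R.cc θ = 1) (hφ : L.R.cc φ ≠ 1) :
    L.Rcount θ φ = 0 := by
  unfold Rcount
  rw [Finset.card_eq_zero, Finset.filter_eq_empty_iff]
  intro y _ hy
  apply hφ
  rw [← hy, cc_cjI, hθ, cjA_map_one]

theorem genTriv (θ : IrrCharacter L.C) (μ : L.R.Z →* ℂˣ) (hθ : L.R.cc θ = 1) (hμ : μ ≠ 1) :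
    (∑ ψ : IrrCharacter G, ((L.mult ψ θ : ℤ) - (L.mult ψ (L.R.twI μ θ) : ℤ)) ^ 2) *
        (Nat.card L.C : ℤ) = (L.Rcount θ θ : ℤ) + (Nat.card L.C : ℤ) := by
  have hcc : L.R.cc (L.R.twI μ θ) = μ := by
    rw [L.R.cc_twI, hθ]
    exact mul_one μ
  have hcc' : L.R.cc (L.R.twI μ θ) ≠ 1 := by rw [hcc]; exact hμ
  have hA := L.gen2 θ μ θ
  have hB := L.gen2 θ μ (L.R.twI μ θ)
  have hnc : ¬ L.conjN (L.R.twI μ θ) θ := by
    intro hc
    have := L.conjN_cc hc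
    rw [hcc, hθ] at this
    exact hμ ((L.conjA_one_iff μ).mp (L.conjA_symm this))
  rw [L.Rcount_of_nontriv (L.R.twI μ θ) θ hcc', if_neg hnc] at hA
  rw [L.Rcount_of_nontriv (L.R.twI μ θ) (L.R.twI μ θ) hcc', if_pos (L.conjN_refl _),
    L.Rcount_triv_nontriv θ (L.R.twI μ θ) hθ hcc'] at hB
  have hC : (Nat.card L.C : ℂ) ≠ 0 := by exact_mod_cast Nat.card_pos.ne'
  apply Int.cast_injective (α := ℂ)
  push_cast
  have hsq : ∑ ψ : IrrCharacter G, ((L.mult ψ θ : ℂ) - (L.mult ψ (L.R.twI μ θ) : ℂ)) ^ 2 =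
      ∑ ψ : IrrCharacter G, ((L.mult ψ θ : ℂ) - (L.mult ψ (L.R.twI μ θ) : ℂ)) *
        (L.mult ψ θ : ℂ) -
      ∑ ψ : IrrCharacter G, ((L.mult ψ θ : ℂ) - (L.mult ψ (L.R.twI μ θ) : ℂ)) *
        (L.mult ψ (L.R.twI μ θ) : ℂ) := by
    rw [← Finset.sum_sub_distrib]
    apply Finset.sum_congr rfl
    intro ψ _
    ring
  rw [hsq, hA, hB]
  push_cast
  field_simp
  ring

theorem genTriv_le (e : ℕ) (he : Nat.card L.N = e * Nat.card L.C) (θ : IrrCharacter L.C)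
    (μ : L.R.Z →* ℂˣ) (hθ : L.R.cc θ = 1) (hμ : μ ≠ 1) :
    ∑ ψ : IrrCharacter G, ((L.mult ψ θ : ℤ) - (L.mult ψ (L.R.twI μ θ) : ℤ)) ^ 2 ≤ (e : ℤ) + 1 := by
  have h := L.genTriv θ μ hθ hμ
  have hR : (L.Rcount θ θ : ℤ) ≤ (e : ℤ) * (Nat.card L.C : ℤ) := by
    have := L.Rcount_le θ θ
    rw [he] at this
    exact_mod_cast this
  have hC : (0 : ℤ) < (Nat.card L.C : ℤ) := by exact_mod_cast Nat.card_pos
  have h3 : (∑ ψ : IrrCharacter G, ((L.mult ψ θ : ℤ) - (L.mult ψ (L.R.twI μ θ) : ℤ)) ^ 2) *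
      (Nat.card L.C : ℤ) ≤ ((e : ℤ) + 1) * (Nat.card L.C : ℤ) := by
    rw [h]
    linarith
  exact le_of_mul_le_mul_right h3 hC

theorem genTriv_one (e : ℕ) (he : Nat.card L.N = e * Nat.card L.C) (μ : L.R.Z →* ℂˣ)
    (hμ : μ ≠ 1) :
    ∑ ψ : IrrCharacter G, ((L.mult ψ (L.R.linI 1) : ℤ) - (L.mult ψ (L.R.linI μ) : ℤ)) ^ 2 =
      (e : ℤ) + 1 := by
  have h := L.genTriv (L.R.linI 1) μ (L.R.cc_linI 1) hμ
  have hm1 : μ * 1 = μ := mul_one μ
  rw [L.R.twI_linI, hm1, L.Rcount_one_one, he] at h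
  have hC : (Nat.card L.C : ℤ) ≠ 0 := by exact_mod_cast Nat.card_pos.ne'
  apply mul_right_cancel₀ hC
  rw [h]
  push_cast
  ring

variable [Fintype (IrrCharacter L.C)]

omit [Fintype G] [Fintype (IrrCharacter G)] in
theorem orbit_card (e : ℕ) (he : Nat.card L.N = e * Nat.card L.C) (φ : IrrCharacter L.C)
    (h : L.R.cc φ ≠ 1) :
    (Finset.univ.filter (fun φ₂ : IrrCharacter L.C => L.conjN φ φ₂)).card = e := by
  have h1 : ∑ φ₂ : IrrCharacter L.C, L.Rcount φ φ₂ = Fintype.card L.N := by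
    unfold Rcount
    rw [← Finset.card_univ]
    exact (Finset.card_eq_sum_card_fiberwise (f := fun y : L.N => L.cjI y φ)
      (s := Finset.univ) (t := Finset.univ) (fun _ _ => Finset.mem_univ _)).symm
  have h2 : ∑ φ₂ : IrrCharacter L.C, L.Rcount φ φ₂ =
      (Finset.univ.filter (fun φ₂ : IrrCharacter L.C => L.conjN φ φ₂)).card * Nat.card L.C := by
    rw [Finset.sum_congr rfl (fun φ₂ _ => L.Rcount_of_nontriv φ φ₂ h), Finset.sum_ite,
      Finset.sum_const, Finset.sum_const_zero, add_zero, smul_eq_mul]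
  rw [h1, ← Nat.card_eq_fintype_card, he] at h2
  exact (Nat.eq_of_mul_eq_mul_right Nat.card_pos h2).symm

variable [Fintype (L.R.Z →* ℂˣ)]

omit [Fintype G] [Fintype (IrrCharacter G)] in
theorem card_twist_conj_le (e : ℕ) (he : Nat.card L.N = e * Nat.card L.C)
    (φ₀ φ₁ : IrrCharacter L.C) (h : L.R.cc φ₁ ≠ 1) :
    (Finset.univ.filter (fun μ : L.R.Z →* ℂˣ => L.conjN (L.R.twI μ φ₀) φ₁)).card ≤ e := by
  rw [← L.orbit_card e he φ₁ h]
  apply Finset.card_le_card_of_injOn (fun μ => L.R.twI μ φ₀)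
  · intro μ hμ
    simp only [Finset.coe_filter, Finset.mem_univ, true_and, Set.mem_ofPred_eq] at hμ ⊢
    exact L.conjN_symm hμ
  · intro μ _ μ' _ hmm
    exact L.R.twI_inj hmm

omit [Fintype G] [Fintype (IrrCharacter G)] in
theorem orbitA_card (e : ℕ) (he : Nat.card L.N = e * Nat.card L.C) (μ : L.R.Z →* ℂˣ)
    (hμ : μ ≠ 1) :
    (Finset.univ.filter (fun μ' : L.R.Z →* ℂˣ => L.conjA μ μ')).card = e := by
  have hcc : L.R.cc (L.R.linI μ) ≠ 1 := by rw [L.R.cc_linI]; exact hμ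
  rw [← L.orbit_card e he (L.R.linI μ) hcc]
  have himg : Finset.univ.filter (fun φ₂ : IrrCharacter L.C => L.conjN (L.R.linI μ) φ₂) =
      (Finset.univ.filter (fun μ' : L.R.Z →* ℂˣ => L.conjA μ μ')).image (fun μ' => L.R.linI μ') := by
    ext φ₂
    simp only [Finset.mem_filter, Finset.mem_univ, true_and, Finset.mem_image]
    constructor
    · rintro ⟨y, rfl⟩
      exact ⟨L.cjA y μ, ⟨y, rfl⟩, (L.cjI_linI y μ).symm⟩
    · rintro ⟨μ', hμ', rfl⟩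
      exact L.conjN_linI.mpr hμ'
  rw [himg, Finset.card_image_of_injective]
  intro a b hab
  exact L.R.linI_inj hab

end LeoCfg

end

end Cfsg.Agent.Helper15
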