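import Mathlib
import Cfsg.Prelude.Def_Characters
import Cfsg.Agent.Helper15.LeoOrb

set_option autoImplicit false

namespace Cfsg.Agent.Helper15

open Cfsg
open scoped ComplexConjugate Classical

noncomputable section

/-- The multiplicity of an irreducible character in a character of `G`. -/
def gmult {G : Type*} [Group G] [Fintype G] (Γ : G → ℂ) (ψ : IrrCharacter G) : ℕ :=
  ⌊(classInner Γ (ψ : G → ℂ)).re⌋₊

/-- The product of a class function with the conjugate of another. -/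
def pc {G : Type*} (ψ₁ ψ₂ : G → ℂ) : G → ℂ := fun g => ψ₁ g * conj (ψ₂ g)

section G

variable {G : Type*} [Group G] [Fintype G]

theorem gmult_spec {Γ : G → ℂ} (hΓ : IsCharacter G Γ) (ψ : IrrCharacter G) :
    classInner Γ (ψ : G → ℂ) = (gmult Γ ψ : ℂ) := by
  obtain ⟨n, hn⟩ := inner_nat hΓ (isChar_of_irr ψ.2)
  unfold gmult
  rw [hn]
  simp

theorem char_eq_sum_gmult [Fintype (IrrCharacter G)] {Γ : G → ℂ} (hΓ : IsCharacter G Γ) :
    Γ = ∑ ψ : IrrCharacter G, (gmult Γ ψ : ℂ) • (ψ : G → ℂ) := by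
  refine (classFun_eq_sum (isClassFunction_of_isChar hΓ)).trans ?_
  apply Finset.sum_congr rfl
  intro ψ _
  rw [gmult_spec hΓ]

theorem deg_eq_sum_gmult [Fintype (IrrCharacter G)] {Γ : G → ℂ} (hΓ : IsCharacter G Γ) :
    charDegree Γ = ∑ ψ : IrrCharacter G, gmult Γ ψ * charDegree (ψ : G → ℂ) := by
  have h := congrFun (char_eq_sum_gmult hΓ) 1
  rw [Finset.sum_apply] at h
  have h1 : Γ 1 = (charDegree Γ : ℂ) := Cfsg.Agent.Helper79.isCharacter_one_eq_charDegree hΓ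
  rw [h1] at h
  have h2 : ((charDegree Γ : ℕ) : ℂ) =
      ((∑ ψ : IrrCharacter G, gmult Γ ψ * charDegree (ψ : G → ℂ) : ℕ) : ℂ) := by
    rw [h]
    push_cast
    apply Finset.sum_congr rfl
    intro ψ _
    rw [Pi.smul_apply, smul_eq_mul, Cfsg.Agent.Helper80.irr_one_eq ψ]
  exact_mod_cast h2

omit [Fintype G] in
theorem pc_isChar {ψ₁ ψ₂ : G → ℂ} (h1 : IsCharacter G ψ₁) (h2 : IsCharacter G ψ₂) :
    IsCharacter G (pc ψ₁ ψ₂) :=
  Cfsg.Agent.Helper79.isCharacter_mul h1 (Cfsg.Agent.Helper79.isCharacter_conj h2)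

omit [Fintype G] in
theorem charDegree_pc {ψ₁ ψ₂ : G → ℂ} (h1 : IsCharacter G ψ₁) (h2 : IsCharacter G ψ₂) :
    charDegree (pc ψ₁ ψ₂) = charDegree ψ₁ * charDegree ψ₂ := by
  have e1 := Cfsg.Agent.Helper79.isCharacter_one_eq_charDegree h1
  have e2 := Cfsg.Agent.Helper79.isCharacter_one_eq_charDegree h2
  have e3 := Cfsg.Agent.Helper79.isCharacter_one_eq_charDegree (pc_isChar h1 h2)
  have e4 : pc ψ₁ ψ₂ 1 = ψ₁ 1 * conj (ψ₂ 1) := rfl
  rw [e4, e1, e2, Complex.conj_natCast] at e3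
  exact_mod_cast e3.symm

theorem gmult_pc_triv (ψ₁ ψ₂ : IrrCharacter G) :
    gmult (pc (ψ₁ : G → ℂ) (ψ₂ : G → ℂ)) (Cfsg.Agent.Helper79.trivIrr G) =
      if ψ₁ = ψ₂ then 1 else 0 := by
  have h := gmult_spec (pc_isChar (isChar_of_irr ψ₁.2) (isChar_of_irr ψ₂.2))
    (Cfsg.Agent.Helper79.trivIrr G)
  have h2 : classInner (pc (ψ₁ : G → ℂ) (ψ₂ : G → ℂ)) (Cfsg.Agent.Helper79.trivIrr G : G → ℂ) =
      classInner (ψ₁ : G → ℂ) (ψ₂ : G → ℂ) := by
    unfold classInner pc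
    congr 1
    apply Finset.sum_congr rfl
    intro g _
    simp
  rw [h2, irr_inner] at h
  split_ifs with hc
  · rw [if_pos hc] at h
    exact_mod_cast h.symm
  · rw [if_neg hc] at h
    exact_mod_cast h.symm

end G

namespace LeoCfg

variable {G : Type*} [Group G] [Fintype G] (L : LeoCfg G) [Fintype L.C]
  [Fintype (IrrCharacter L.C)]

omit [Fintype G] in
theorem res_eq_sum {ψ : G → ℂ} (hψ : IsCharacter G ψ) :
    (fun c : L.C => ψ c) = ∑ φ : IrrCharacter L.C, (L.mult ψ φ : ℂ) • (φ : L.C → ℂ) := by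
  refine (classFun_eq_sum (isClassFunction_of_isChar
    (Cfsg.Agent.Helper79.isCharacter_restrict hψ L.C))).trans ?_
  apply Finset.sum_congr rfl
  intro φ _
  rw [L.mult_spec hψ]

omit [Fintype G] in
theorem res_apply {ψ : G → ℂ} (hψ : IsCharacter G ψ) (c : L.C) :
    ψ c = ∑ φ : IrrCharacter L.C, (L.mult ψ φ : ℂ) * (φ : L.C → ℂ) c := by
  have h := congrFun (L.res_eq_sum hψ) c
  rw [Finset.sum_apply] at h
  rw [h]
  apply Finset.sum_congr rfl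
  intro φ _
  rw [Pi.smul_apply, smul_eq_mul]

omit [Fintype G] in
theorem deg_res {ψ : G → ℂ} (hψ : IsCharacter G ψ) :
    charDegree ψ = ∑ φ : IrrCharacter L.C, L.mult ψ φ * charDegree (φ : L.C → ℂ) := by
  have h := L.res_apply hψ 1
  have h1 : ψ 1 = (charDegree ψ : ℂ) := Cfsg.Agent.Helper79.isCharacter_one_eq_charDegree hψ
  rw [OneMemClass.coe_one, h1] at h
  have h2 : ((charDegree ψ : ℕ) : ℂ) =
      ((∑ φ : IrrCharacter L.C, L.mult ψ φ * charDegree (φ : L.C → ℂ) : ℕ) : ℂ) := by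
    rw [h]
    push_cast
    apply Finset.sum_congr rfl
    intro φ _
    rw [Cfsg.Agent.Helper80.irr_one_eq φ]
  exact_mod_cast h2

omit [Fintype (IrrCharacter L.C)] in
theorem mult_eq_sum_gmult [Fintype (IrrCharacter G)] {Γ : G → ℂ} (hΓ : IsCharacter G Γ)
    (φ : IrrCharacter L.C) :
    L.mult Γ φ = ∑ ψ : IrrCharacter G, gmult Γ ψ * L.mult ψ φ := by
  have h2 : (fun c : L.C => Γ c) = ∑ ψ : IrrCharacter G,
      (gmult Γ ψ : ℂ) • (fun c : L.C => (ψ : G → ℂ) c) := by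
    funext c
    have h3 := congrFun (char_eq_sum_gmult hΓ) (c : G)
    rw [Finset.sum_apply] at h3
    rw [Finset.sum_apply]
    exact h3
  have h4 : classInner (fun c : L.C => Γ c) (φ : L.C → ℂ) =
      ∑ ψ : IrrCharacter G, (gmult Γ ψ : ℂ) * (L.mult ψ φ : ℂ) := by
    rw [h2, classInner_sum_left]
    apply Finset.sum_congr rfl
    intro ψ _
    rw [classInner_smul_left, L.mult_spec (isChar_of_irr ψ.2)]
  rw [L.mult_spec hΓ] at h4
  have h5 : ((L.mult Γ φ : ℕ) : ℂ) = ((∑ ψ : IrrCharacter G, gmult Γ ψ * L.mult ψ φ : ℕ) : ℂ) := by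
    rw [h4]
    push_cast
    rfl
  exact_mod_cast h5

omit [Fintype (IrrCharacter L.C)] in
theorem mult_le_of_gmult [Fintype (IrrCharacter G)] {Γ : G → ℂ} (hΓ : IsCharacter G Γ)
    (ψ : IrrCharacter G) (h : gmult Γ ψ ≠ 0) (φ : IrrCharacter L.C) :
    L.mult ψ φ ≤ L.mult Γ φ := by
  rw [L.mult_eq_sum_gmult hΓ φ]
  calc L.mult ψ φ ≤ gmult Γ ψ * L.mult ψ φ :=
        Nat.le_mul_of_pos_left _ (Nat.pos_of_ne_zero h)
    _ ≤ ∑ ψ : IrrCharacter G, gmult Γ ψ * L.mult ψ φ :=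
        Finset.single_le_sum (f := fun ψ : IrrCharacter G => gmult Γ ψ * L.mult ψ φ)
          (fun _ _ => Nat.zero_le _) (Finset.mem_univ ψ)

omit [Fintype L.C] [Fintype (IrrCharacter L.C)] in
theorem deg_le_of_gmult [Fintype (IrrCharacter G)] {Γ : G → ℂ} (hΓ : IsCharacter G Γ)
    (ψ : IrrCharacter G) (h : gmult Γ ψ ≠ 0) :
    charDegree (ψ : G → ℂ) ≤ charDegree Γ := by
  rw [deg_eq_sum_gmult hΓ]
  calc charDegree (ψ : G → ℂ) ≤ gmult Γ ψ * charDegree (ψ : G → ℂ) :=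
        Nat.le_mul_of_pos_left _ (Nat.pos_of_ne_zero h)
    _ ≤ ∑ ψ : IrrCharacter G, gmult Γ ψ * charDegree (ψ : G → ℂ) :=
        Finset.single_le_sum (f := fun ψ : IrrCharacter G => gmult Γ ψ * charDegree (ψ : G → ℂ))
          (fun _ _ => Nat.zero_le _) (Finset.mem_univ ψ)

omit [Fintype (IrrCharacter L.C)] in
theorem exists_gmult_of_mult [Fintype (IrrCharacter G)] {Γ : G → ℂ} (hΓ : IsCharacter G Γ)
    (φ : IrrCharacter L.C) (h : L.mult Γ φ ≠ 0) :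
    ∃ ψ : IrrCharacter G, gmult Γ ψ ≠ 0 ∧ L.mult ψ φ ≠ 0 := by
  rw [L.mult_eq_sum_gmult hΓ φ] at h
  obtain ⟨ψ, -, hψ⟩ := Finset.exists_ne_zero_of_sum_ne_zero h
  exact ⟨ψ, left_ne_zero_of_mul hψ, right_ne_zero_of_mul hψ⟩

omit [Fintype G] [Fintype (IrrCharacter L.C)] in
theorem mult_triv (φ : IrrCharacter L.C) :
    L.mult (Cfsg.Agent.Helper79.trivIrr G : G → ℂ) φ = if φ = L.R.linI 1 then 1 else 0 := by
  have h := L.mult_spec (isChar_of_irr (Cfsg.Agent.Helper79.trivIrr G).2) φ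
  have h2 : (fun c : L.C => (Cfsg.Agent.Helper79.trivIrr G : G → ℂ) c) =
      (L.R.linI 1 : L.C → ℂ) := by
    funext c
    rw [L.R.linI_one_apply]
    rfl
  rw [h2, irr_inner] at h
  split_ifs with hc
  · rw [if_pos hc.symm] at h
    exact_mod_cast h.symm
  · rw [if_neg (fun h' => hc h'.symm)] at h
    exact_mod_cast h.symm

omit [Fintype G] in
/-- Multiplicity of a linear character in a product. -/
theorem mult_pc_linI {ψ₁ ψ₂ : G → ℂ} (h1 : IsCharacter G ψ₁) (h2 : IsCharacter G ψ₂)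
    (κ : L.R.Z →* ℂˣ) :
    L.mult (pc ψ₁ ψ₂) (L.R.linI κ) =
      ∑ φ₂ : IrrCharacter L.C, L.mult ψ₂ φ₂ * L.mult ψ₁ (L.R.twI κ φ₂) := by
  have key : ∀ c : L.C, pc ψ₁ ψ₂ c * conj ((L.R.linI κ : L.C → ℂ) c) =
      ∑ φ₂ : IrrCharacter L.C, (L.mult ψ₂ φ₂ : ℂ) *
        (ψ₁ c * conj ((L.R.twI κ φ₂ : L.C → ℂ) c)) := by
    intro c
    have hc := L.res_apply h2 c
    unfold pc
    rw [hc, map_sum, Finset.mul_sum, Finset.sum_mul]
    apply Finset.sum_congr rfl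
    intro φ₂ _
    rw [map_mul, Complex.conj_natCast, L.R.twI_apply, L.R.linI_apply, map_mul]
    ring
  have h4 : classInner (fun c : L.C => pc ψ₁ ψ₂ c) (L.R.linI κ : L.C → ℂ) =
      ∑ φ₂ : IrrCharacter L.C, (L.mult ψ₂ φ₂ : ℂ) * (L.mult ψ₁ (L.R.twI κ φ₂) : ℂ) := by
    have h5 : ∀ φ₂ : IrrCharacter L.C, (L.mult ψ₁ (L.R.twI κ φ₂) : ℂ) =
        classInner (fun c : L.C => ψ₁ c) (L.R.twI κ φ₂ : L.C → ℂ) :=
      fun φ₂ => (L.mult_spec h1 _).symm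
    rw [Finset.sum_congr rfl (fun φ₂ _ => by rw [h5 φ₂])]
    unfold classInner
    rw [Finset.sum_congr rfl (fun c _ => key c), Finset.sum_comm, Finset.mul_sum]
    apply Finset.sum_congr rfl
    intro φ₂ _
    rw [← Finset.mul_sum]
    ring
  rw [L.mult_spec (pc_isChar h1 h2)] at h4
  have h6 : ((L.mult (pc ψ₁ ψ₂) (L.R.linI κ) : ℕ) : ℂ) =
      ((∑ φ₂ : IrrCharacter L.C, L.mult ψ₂ φ₂ * L.mult ψ₁ (L.R.twI κ φ₂) : ℕ) : ℂ) := by
    rw [h4]
    push_cast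
    rfl
  exact_mod_cast h6

omit [Fintype G] in
/-- A constituent of a product lies in a product of constituents. -/
theorem mult_pc_ne_zero {ψ₁ ψ₂ : G → ℂ} (h1 : IsCharacter G ψ₁) (h2 : IsCharacter G ψ₂)
    (φ : IrrCharacter L.C) (h : L.mult (pc ψ₁ ψ₂) φ ≠ 0) :
    ∃ φ₁ φ₂ : IrrCharacter L.C, L.mult ψ₁ φ₁ ≠ 0 ∧ L.mult ψ₂ φ₂ ≠ 0 ∧
      classInner (fun x => (φ₁ : L.C → ℂ) x * conj ((φ₂ : L.C → ℂ) x)) (φ : L.C → ℂ) ≠ 0 := by
  by_contra hcon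
  push Not at hcon
  apply h
  have hfun : (fun c : L.C => pc ψ₁ ψ₂ c) = ∑ φ₁ : IrrCharacter L.C, ∑ φ₂ : IrrCharacter L.C,
      ((L.mult ψ₁ φ₁ : ℂ) * (L.mult ψ₂ φ₂ : ℂ)) •
        (fun x : L.C => (φ₁ : L.C → ℂ) x * conj ((φ₂ : L.C → ℂ) x)) := by
    funext c
    unfold pc
    rw [L.res_apply h1 c, L.res_apply h2 c, map_sum, Finset.sum_mul, Finset.sum_apply]
    apply Finset.sum_congr rfl
    intro φ₁ _
    rw [Finset.mul_sum, Finset.sum_apply]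
    apply Finset.sum_congr rfl
    intro φ₂ _
    rw [Pi.smul_apply, smul_eq_mul, map_mul, Complex.conj_natCast]
    ring
  have h4 : classInner (fun c : L.C => pc ψ₁ ψ₂ c) (φ : L.C → ℂ) = 0 := by
    rw [hfun, classInner_sum_left]
    apply Finset.sum_eq_zero
    intro φ₁ _
    rw [classInner_sum_left]
    apply Finset.sum_eq_zero
    intro φ₂ _
    rw [classInner_smul_left]
    by_cases c1 : L.mult ψ₁ φ₁ = 0
    · rw [c1]; simp
    · by_cases c2 : L.mult ψ₂ φ₂ = 0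
      · rw [c2]; simp
      · rw [hcon φ₁ φ₂ c1 c2, mul_zero]
  rw [L.mult_spec (pc_isChar h1 h2)] at h4
  exact_mod_cast h4

omit [Fintype G] in
/-- A character all of whose constituents on `C` are trivial on the retract is constant
on the retract. -/
theorem apply_Z_of_triv {ψ : G → ℂ} (hψ : IsCharacter G ψ)
    (h : ∀ φ : IrrCharacter L.C, L.mult ψ φ ≠ 0 → L.R.cc φ = 1) (z : L.R.Z) :
    ψ ((z : L.C) : G) = ψ 1 := by
  have h1 := L.res_apply hψ (z : L.C)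
  have h2 := L.res_apply hψ 1
  rw [OneMemClass.coe_one] at h2
  rw [h1, h2]
  apply Finset.sum_congr rfl
  intro φ _
  by_cases hm : L.mult ψ φ = 0
  · rw [hm]; simp
  · have h3 := L.R.cc_spec φ z 1
    rw [mul_one, h φ hm] at h3
    rw [h3]
    simp

/-- The linear character `μ₀` of the retract does not occur in `ψ`. -/
def Miss (ψ : G → ℂ) (μ₀ : L.R.Z →* ℂˣ) : Prop :=
  ∀ φ : IrrCharacter L.C, L.mult ψ φ ≠ 0 → L.R.cc φ ≠ μ₀

omit [Fintype G] [Fintype (IrrCharacter L.C)] in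
theorem Miss_cjA {ψ : G → ℂ} (hψ : IsCharacter G ψ) {μ₀ : L.R.Z →* ℂˣ} (h : L.Miss ψ μ₀)
    (y : L.N) : L.Miss ψ (L.cjA y μ₀) := by
  intro φ hφ hcc
  apply h (L.cjI y⁻¹ φ)
  · rw [L.mult_cjI hψ]; exact hφ
  · rw [L.cc_cjI, hcc, L.cjA_inv_cjA]

omit [Fintype G] [Fintype (IrrCharacter L.C)] in
theorem Miss_conjA {ψ : G → ℂ} (hψ : IsCharacter G ψ) {μ₀ μ₁ : L.R.Z →* ℂˣ} (h : L.Miss ψ μ₀)
    (hc : L.conjA μ₀ μ₁) : L.Miss ψ μ₁ := by
  obtain ⟨y, rfl⟩ := hc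
  exact L.Miss_cjA hψ h y

omit [Fintype G] [Fintype (IrrCharacter L.C)] in
theorem mult_twist_miss {ψ : G → ℂ} {μ₀ : L.R.Z →* ℂˣ} (h : L.Miss ψ μ₀)
    (φ : IrrCharacter L.C) : L.mult ψ (L.R.twI (μ₀ * (L.R.cc φ)⁻¹) φ) = 0 := by
  by_contra hne
  apply h _ hne
  rw [L.R.cc_twI]
  exact inv_mul_cancel_right μ₀ (L.R.cc φ)

omit [Fintype G] [Fintype (IrrCharacter L.C)] in
theorem mult_linI_miss {ψ : G → ℂ} {μ₀ : L.R.Z →* ℂˣ} (h : L.Miss ψ μ₀) :
    L.mult ψ (L.R.linI μ₀) = 0 := by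
  by_contra hne
  exact h _ hne (L.R.cc_linI μ₀)

omit [Fintype G] in
theorem card_support_le {ψ : G → ℂ} (hψ : IsCharacter G ψ) :
    (Finset.univ.filter (fun φ : IrrCharacter L.C => L.mult ψ φ ≠ 0)).card ≤ charDegree ψ := by
  rw [L.deg_res hψ, Finset.card_eq_sum_ones, Finset.sum_filter]
  apply Finset.sum_le_sum
  intro φ _
  split_ifs with hc
  · have h1 : 0 < L.mult ψ φ := Nat.pos_of_ne_zero hc
    have h2 := Cfsg.Agent.Helper80.irr_degree_pos φ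
    exact Nat.mul_pos h1 h2
  · exact Nat.zero_le _

omit [Fintype G] in
theorem exists_miss [Fintype (L.R.Z →* ℂˣ)] {ψ : G → ℂ} (hψ : IsCharacter G ψ)
    (X : Finset (L.R.Z →* ℂˣ)) (h : X.card + charDegree ψ < Nat.card L.R.Z) :
    ∃ μ₀ : L.R.Z →* ℂˣ, μ₀ ∉ X ∧ L.Miss ψ μ₀ := by
  let S := Finset.univ.filter (fun φ : IrrCharacter L.C => L.mult ψ φ ≠ 0)
  let Pres := S.image (fun φ => L.R.cc φ)
  have h1 : Pres.card ≤ charDegree ψ := le_trans Finset.card_image_le (L.card_support_le hψ)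
  have h2 : (X ∪ Pres).card < (Finset.univ : Finset (L.R.Z →* ℂˣ)).card := by
    rw [Finset.card_univ, ← Nat.card_eq_fintype_card, L.R.card_dual]
    calc (X ∪ Pres).card ≤ X.card + Pres.card := Finset.card_union_le _ _
      _ ≤ X.card + charDegree ψ := by omega
      _ < _ := h
  have h3 : ∃ μ₀ : L.R.Z →* ℂˣ, μ₀ ∉ X ∪ Pres := by
    by_contra hcon
    push Not at hcon
    have : X ∪ Pres = Finset.univ := Finset.eq_univ_iff_forall.mpr hcon
    rw [this] at h2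
    exact lt_irrefl _ h2
  obtain ⟨μ₀, hμ₀⟩ := h3
  rw [Finset.mem_union, not_or] at hμ₀
  refine ⟨μ₀, hμ₀.1, ?_⟩
  intro φ hφ hcc
  apply hμ₀.2
  rw [Finset.mem_image]
  exact ⟨φ, Finset.mem_filter.mpr ⟨Finset.mem_univ _, hφ⟩, hcc⟩

end LeoCfg

end

end Cfsg.Agent.Helper15
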