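import Mathlib
import Cfsg.Prelude.Def_Characters
import Cfsg.Agent.Helper15.LeoRes

set_option autoImplicit false

namespace Cfsg.Agent.Helper15

open Cfsg
open scoped ComplexConjugate Classical

noncomputable section

/-- An integer vector of norm two orthogonal to a positive vector is a difference of two
distinct basis vectors. -/
theorem int_vec_norm_two {ι : Type*} [Fintype ι] [DecidableEq ι] (a d : ι → ℤ)
    (hd : ∀ i, 0 < d i) (h2 : ∑ i, a i ^ 2 = 2) (h0 : ∑ i, a i * d i = 0) :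
    ∃ A B : ι, A ≠ B ∧
      (∀ i, a i = (if i = A then 1 else 0) - (if i = B then 1 else 0)) ∧ d A = d B := by
  have hA : ∃ A, 0 < a A := by
    by_contra hcon
    push Not at hcon
    have h1 : ∀ i ∈ Finset.univ, a i * d i ≤ 0 :=
      fun i _ => mul_nonpos_of_nonpos_of_nonneg (hcon i) (hd i).le
    have h3 := (Finset.sum_eq_zero_iff_of_nonpos h1).mp h0
    have h4 : ∀ i, a i = 0 := by
      intro i
      rcases mul_eq_zero.mp (h3 i (Finset.mem_univ i)) with h | h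
      · exact h
      · exact absurd h (hd i).ne'
    rw [Finset.sum_eq_zero (fun i _ => by rw [h4 i]; ring)] at h2
    norm_num at h2
  have hB : ∃ B, a B < 0 := by
    by_contra hcon
    push Not at hcon
    have h1 : ∀ i ∈ Finset.univ, 0 ≤ a i * d i :=
      fun i _ => mul_nonneg (hcon i) (hd i).le
    have h3 := (Finset.sum_eq_zero_iff_of_nonneg h1).mp h0
    have h4 : ∀ i, a i = 0 := by
      intro i
      rcases mul_eq_zero.mp (h3 i (Finset.mem_univ i)) with h | h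
      · exact h
      · exact absurd h (hd i).ne'
    rw [Finset.sum_eq_zero (fun i _ => by rw [h4 i]; ring)] at h2
    norm_num at h2
  obtain ⟨A, hA⟩ := hA
  obtain ⟨B, hB⟩ := hB
  have hAB : A ≠ B := by
    rintro rfl
    linarith
  have hsplit : ∑ i, a i ^ 2 =
      a A ^ 2 + (a B ^ 2 + ∑ i ∈ (Finset.univ.erase A).erase B, a i ^ 2) := by
    rw [Finset.add_sum_erase _ (fun i => a i ^ 2)
      (Finset.mem_erase.mpr ⟨hAB.symm, Finset.mem_univ B⟩),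
      Finset.add_sum_erase _ (fun i => a i ^ 2) (Finset.mem_univ A)]
  have hrest : 0 ≤ ∑ i ∈ (Finset.univ.erase A).erase B, a i ^ 2 :=
    Finset.sum_nonneg (fun i _ => sq_nonneg _)
  have hA1 : 1 ≤ a A := by omega
  have hB1 : a B ≤ -1 := by omega
  have hAs : 1 ≤ a A ^ 2 := by nlinarith
  have hBs : 1 ≤ a B ^ 2 := by nlinarith
  have hA2 : a A = 1 := by nlinarith
  have hB2 : a B = -1 := by nlinarith
  have hrest0 : ∑ i ∈ (Finset.univ.erase A).erase B, a i ^ 2 = 0 := by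
    rw [hsplit, hA2, hB2] at h2
    linarith
  have hz : ∀ i, i ≠ A → i ≠ B → a i = 0 := by
    intro i hiA hiB
    have := (Finset.sum_eq_zero_iff_of_nonneg (fun i _ => sq_nonneg (a i))).mp hrest0 i
      (Finset.mem_erase.mpr ⟨hiB, Finset.mem_erase.mpr ⟨hiA, Finset.mem_univ i⟩⟩)
    simpa using this
  have hform : ∀ i, a i = (if i = A then 1 else 0) - (if i = B then 1 else 0) := by
    intro i
    by_cases hiA : i = A
    · subst hiA
      rw [if_pos rfl, if_neg hAB, hA2]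
      ring
    · by_cases hiB : i = B
      · subst hiB
        rw [if_neg hiA, if_pos rfl, hB2]
        ring
      · rw [if_neg hiA, if_neg hiB, hz i hiA hiB]
        ring
  refine ⟨A, B, hAB, hform, ?_⟩
  have h5 : ∑ i, a i * d i = d A - d B := by
    rw [Finset.sum_congr rfl (fun i _ => by rw [hform i])]
    simp [sub_mul, Finset.sum_sub_distrib]
  rw [h5] at h0
  linarith

theorem leo_count {ι κ : Type*} [DecidableEq ι] [DecidableEq κ] (K : Finset κ) (F : κ → ι)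
    (e : ℕ) (hfib : ∀ a ∈ K, (K.filter (fun x => F x = F a)).card ≤ e) :
    K.card ≤ e * (K.image F).card := by
  apply Finset.card_le_mul_card_image
  intro b hb
  obtain ⟨a, ha, rfl⟩ := Finset.mem_image.mp hb
  exact hfib a ha

theorem leo_card_le_sum {ι : Type*} [Fintype ι] [DecidableEq ι] (S : Finset ι) (t : ι → ℤ)
    (ht : ∀ i, 0 ≤ t i) (hS : ∀ i ∈ S, 1 ≤ t i) : (S.card : ℤ) ≤ ∑ i, t i := by
  calc (S.card : ℤ) = ∑ i ∈ S, (1 : ℤ) := by simp
    _ ≤ ∑ i ∈ S, t i := Finset.sum_le_sum hS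
    _ ≤ ∑ i, t i := Finset.sum_le_sum_of_subset_of_nonneg (Finset.subset_univ S)
        (fun i _ _ => ht i)

theorem leo_tight {ι : Type*} [Fintype ι] [DecidableEq ι] (S : Finset ι) (t : ι → ℤ)
    (ht : ∀ i, 0 ≤ t i) (hS : ∀ i ∈ S, 1 ≤ t i) (hsum : ∑ i, t i ≤ S.card) :
    ∀ i, i ∉ S → t i = 0 := by
  have h1 : ∑ i ∈ S, t i + ∑ i ∈ Sᶜ, t i = ∑ i, t i := Finset.sum_add_sum_compl S t
  have h2 : (S.card : ℤ) ≤ ∑ i ∈ S, t i := by
    calc (S.card : ℤ) = ∑ i ∈ S, (1 : ℤ) := by simp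
      _ ≤ ∑ i ∈ S, t i := Finset.sum_le_sum hS
  have h3 : ∑ i ∈ Sᶜ, t i ≤ 0 := by linarith
  have h4 : ∑ i ∈ Sᶜ, t i = 0 := le_antisymm h3 (Finset.sum_nonneg (fun i _ => ht i))
  intro i hi
  exact (Finset.sum_eq_zero_iff_of_nonneg (fun i _ => ht i)).mp h4 i (Finset.mem_compl.mpr hi)

namespace LeoCfg

variable {G : Type*} [Group G] [Fintype G] (L : LeoCfg G) [Fintype L.C] [Fintype L.N]
  [Fintype (IrrCharacter G)]

omit [Fintype G] [Fintype L.C] [Fintype L.N] [Fintype (IrrCharacter G)] in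
theorem twmul [Fintype L.C] (μ₀ : L.R.Z →* ℂˣ) (φ : IrrCharacter L.C) :
    μ₀ * (L.R.cc φ)⁻¹ * L.R.cc φ = μ₀ := inv_mul_cancel_right μ₀ (L.R.cc φ)

/-- The sibling lemma: the induced difference of two non-conjugate siblings is a difference
of two irreducible characters. -/
theorem sibling (φ : IrrCharacter L.C) (μ : L.R.Z →* ℂˣ) (h1 : L.R.cc φ ≠ 1)
    (h2 : μ * L.R.cc φ ≠ 1) (hnc : ¬ L.conjN φ (L.R.twI μ φ)) :
    ∃ A B : IrrCharacter G, A ≠ B ∧
      (∀ ψ : IrrCharacter G, (L.mult ψ φ : ℤ) - (L.mult ψ (L.R.twI μ φ) : ℤ) =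
        (if ψ = A then 1 else 0) - (if ψ = B then 1 else 0)) ∧
      (∀ φ₁ : IrrCharacter L.C, (L.mult A φ₁ : ℤ) - (L.mult B φ₁ : ℤ) =
        (if L.conjN φ φ₁ then 1 else 0) - (if L.conjN (L.R.twI μ φ) φ₁ then 1 else 0)) ∧
      charDegree (A : G → ℂ) = charDegree (B : G → ℂ) := by
  have hnc' : ¬ L.conjN (L.R.twI μ φ) φ := fun h => hnc (L.conjN_symm h)
  have hg1 := L.gen2Z φ μ φ h1 h2
  have hg2 := L.gen2Z φ μ (L.R.twI μ φ) h1 h2
  rw [if_pos (L.conjN_refl φ), if_neg hnc'] at hg1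
  rw [if_neg hnc, if_pos (L.conjN_refl _)] at hg2
  have hsq : ∑ ψ : IrrCharacter G,
      ((L.mult ψ φ : ℤ) - (L.mult ψ (L.R.twI μ φ) : ℤ)) ^ 2 = 2 := by
    have h3 : ∑ ψ : IrrCharacter G, ((L.mult ψ φ : ℤ) - (L.mult ψ (L.R.twI μ φ) : ℤ)) ^ 2 =
        ∑ ψ : IrrCharacter G, ((L.mult ψ φ : ℤ) - (L.mult ψ (L.R.twI μ φ) : ℤ)) *
          (L.mult ψ φ : ℤ) -
        ∑ ψ : IrrCharacter G, ((L.mult ψ φ : ℤ) - (L.mult ψ (L.R.twI μ φ) : ℤ)) *
          (L.mult ψ (L.R.twI μ φ) : ℤ) := by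
      rw [← Finset.sum_sub_distrib]
      apply Finset.sum_congr rfl
      intro ψ _
      ring
    rw [h3, hg1, hg2]
    norm_num
  have hd0 := L.deg0Z φ μ
  obtain ⟨A, B, hAB, hform, hdeg⟩ := int_vec_norm_two
    (fun ψ : IrrCharacter G => (L.mult ψ φ : ℤ) - (L.mult ψ (L.R.twI μ φ) : ℤ))
    (fun ψ : IrrCharacter G => (charDegree (ψ : G → ℂ) : ℤ))
    (fun ψ => by exact_mod_cast Cfsg.Agent.Helper80.irr_degree_pos ψ) hsq hd0
  have hform' : ∀ ψ : IrrCharacter G, (L.mult ψ φ : ℤ) - (L.mult ψ (L.R.twI μ φ) : ℤ) =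
      (if ψ = A then 1 else 0) - (if ψ = B then 1 else 0) := hform
  refine ⟨A, B, hAB, hform', ?_, by exact_mod_cast hdeg⟩
  intro φ₁
  have hg := L.gen2Z φ μ φ₁ h1 h2
  rw [← hg, Finset.sum_congr rfl (fun ψ _ => by rw [hform' ψ])]
  simp [sub_mul, Finset.sum_sub_distrib]

/-- Consequences of the sibling lemma for a character containing `φ` but not its sibling. -/
theorem sibling_of_mult (ψ : IrrCharacter G) (φ : IrrCharacter L.C) (μ : L.R.Z →* ℂˣ)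
    (h1 : L.R.cc φ ≠ 1) (h2 : μ * L.R.cc φ ≠ 1) (hpos : L.mult ψ φ ≠ 0)
    (hzero : L.mult ψ (L.R.twI μ φ) = 0) :
    L.mult ψ φ = 1 ∧ ∃ B : IrrCharacter G, B ≠ ψ ∧
      (∀ φ₁ : IrrCharacter L.C, (L.mult B φ₁ : ℤ) = (L.mult ψ φ₁ : ℤ) -
        (if L.conjN φ φ₁ then 1 else 0) + (if L.conjN (L.R.twI μ φ) φ₁ then 1 else 0)) ∧
      charDegree (B : G → ℂ) = charDegree (ψ : G → ℂ) ∧
      (∀ ψ' : IrrCharacter G, L.mult ψ' φ ≠ 0 → L.mult ψ' (L.R.twI μ φ) = 0 → ψ' = ψ) := by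
  have hnc : ¬ L.conjN φ (L.R.twI μ φ) := by
    intro hc
    have := L.mult_conjN (isChar_of_irr ψ.2) hc
    rw [hzero] at this
    exact hpos this
  obtain ⟨A, B, hAB, hform, hm, hdeg⟩ := L.sibling φ μ h1 h2 hnc
  have key : ∀ ψ' : IrrCharacter G, L.mult ψ' φ ≠ 0 → L.mult ψ' (L.R.twI μ φ) = 0 →
      ψ' = A ∧ L.mult ψ' φ = 1 := by
    intro ψ' hp hz
    have hf := hform ψ'
    rw [hz] at hf
    have hp' : 0 < (L.mult ψ' φ : ℤ) := by exact_mod_cast Nat.pos_of_ne_zero hp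
    by_cases hA : ψ' = A
    · refine ⟨hA, ?_⟩
      have hB : ψ' ≠ B := by rw [hA]; exact hAB
      rw [if_pos hA, if_neg hB] at hf
      have h3 : (L.mult ψ' φ : ℤ) = 1 := by
        simp only [Nat.cast_zero, sub_zero] at hf
        exact hf
      exact_mod_cast h3
    · exfalso
      rw [if_neg hA] at hf
      simp only [Nat.cast_zero, sub_zero, zero_sub] at hf
      split_ifs at hf
      all_goals omega
  obtain ⟨hψA, hm1⟩ := key ψ hpos hzero
  refine ⟨hm1, B, ?_, ?_, ?_, ?_⟩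
  · rw [hψA]; exact hAB.symm
  · intro φ₁
    have := hm φ₁
    rw [← hψA] at this
    linarith
  · rw [hψA]; exact hdeg.symm
  · intro ψ' hp hz
    rw [hψA]
    exact (key ψ' hp hz).1

/-- Two pairs of siblings in one character. -/
theorem sib_double (ψ : IrrCharacter G) (φ₁ φ₂ : IrrCharacter L.C) (μ₁ μ₂ : L.R.Z →* ℂˣ)
    (h1 : L.R.cc φ₁ ≠ 1) (h1' : μ₁ * L.R.cc φ₁ ≠ 1) (h2 : L.R.cc φ₂ ≠ 1)
    (h2' : μ₂ * L.R.cc φ₂ ≠ 1) (hp1 : L.mult ψ φ₁ ≠ 0) (hz1 : L.mult ψ (L.R.twI μ₁ φ₁) = 0)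
    (hp2 : L.mult ψ φ₂ ≠ 0) (hz2 : L.mult ψ (L.R.twI μ₂ φ₂) = 0) :
    L.conjN φ₁ φ₂ ∨ L.conjN (L.R.twI μ₁ φ₁) (L.R.twI μ₂ φ₂) := by
  by_contra hcon
  push Not at hcon
  obtain ⟨hc1, hc2⟩ := hcon
  obtain ⟨-, B, hBψ, hB, -, -⟩ := L.sibling_of_mult ψ φ₁ μ₁ h1 h1' hp1 hz1
  obtain ⟨-, B', -, -, -, huniq⟩ := L.sibling_of_mult ψ φ₂ μ₂ h2 h2' hp2 hz2
  have hψc := isChar_of_irr ψ.2
  have hn1 : ¬ L.conjN (L.R.twI μ₁ φ₁) φ₂ := by
    intro hc
    have := L.mult_conjN hψc hc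
    rw [hz1] at this
    exact hp2 this.symm
  have hn2 : ¬ L.conjN φ₁ (L.R.twI μ₂ φ₂) := by
    intro hc
    have := L.mult_conjN hψc hc
    rw [hz2] at this
    exact hp1 this
  have e1 := hB φ₂
  rw [if_neg hc1, if_neg hn1] at e1
  have e2 := hB (L.R.twI μ₂ φ₂)
  rw [if_neg hn2, if_neg hc2, hz2] at e2
  apply hBψ
  apply huniq B
  · intro h0
    rw [h0] at e1
    simp only [Nat.cast_zero, sub_zero, add_zero] at e1
    exact hp2 (by exact_mod_cast e1.symm)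
  · simp only [Nat.cast_zero, sub_zero, add_zero] at e2
    exact_mod_cast e2

/-- If `ψ` misses two non-conjugate linear characters of the retract, its constituents
nontrivial on the retract form a single orbit with multiplicity one. -/
theorem single_orbit (ψ : IrrCharacter G) (φ : IrrCharacter L.C) (hφ : L.R.cc φ ≠ 1)
    (hpos : L.mult ψ φ ≠ 0) (μ₀ μ₀' : L.R.Z →* ℂˣ) (h0 : μ₀ ≠ 1) (h0' : μ₀' ≠ 1)
    (hm : L.Miss ψ μ₀) (hm' : L.Miss ψ μ₀') (hnc : ¬ L.conjA μ₀ μ₀') :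
    ∀ φ₂ : IrrCharacter L.C, L.R.cc φ₂ ≠ 1 →
      L.mult ψ φ₂ = if L.conjN φ φ₂ then 1 else 0 := by
  intro φ₂ hφ₂
  have hψc := isChar_of_irr ψ.2
  have hcc1 : μ₀ * (L.R.cc φ)⁻¹ * L.R.cc φ ≠ 1 := by
    rw [L.twmul]; exact h0
  have hz1 := L.mult_twist_miss hm φ
  split_ifs with hc
  · rw [← L.mult_conjN hψc hc]
    exact (L.sibling_of_mult ψ φ _ hφ hcc1 hpos hz1).1
  · by_contra hne
    have hcc2 : μ₀' * (L.R.cc φ₂)⁻¹ * L.R.cc φ₂ ≠ 1 := by
      rw [L.twmul]; exact h0'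
    have hz2 := L.mult_twist_miss hm' φ₂
    rcases L.sib_double ψ φ φ₂ _ _ hφ hcc1 hφ₂ hcc2 hpos hz1 hne hz2 with h | h
    · exact hc h
    · have := L.conjN_cc h
      rw [L.R.cc_twI, L.R.cc_twI, L.twmul, L.twmul] at this
      exact hnc this

/-- The family of exceptional characters attached to a character with a single orbit. -/
theorem family (χ : IrrCharacter G) (φ : IrrCharacter L.C) (hφ : L.R.cc φ ≠ 1)
    (hχ : ∀ φ₂ : IrrCharacter L.C, L.R.cc φ₂ ≠ 1 →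
      L.mult χ φ₂ = if L.conjN φ φ₂ then 1 else 0)
    (κ : L.R.Z →* ℂˣ) (hκ : κ * L.R.cc φ ≠ 1) :
    ∃ ψ : IrrCharacter G,
      (∀ φ₂ : IrrCharacter L.C, L.R.cc φ₂ ≠ 1 →
        L.mult ψ φ₂ = if L.conjN (L.R.twI κ φ) φ₂ then 1 else 0) ∧
      (∀ θ : IrrCharacter L.C, L.R.cc θ = 1 → L.mult ψ θ = L.mult χ θ) ∧
      charDegree (ψ : G → ℂ) = charDegree (χ : G → ℂ) := by
  by_cases hc : L.conjN φ (L.R.twI κ φ)
  · refine ⟨χ, ?_, fun _ _ => rfl, rfl⟩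
    intro φ₂ hφ₂
    rw [hχ φ₂ hφ₂]
    have hiff : L.conjN φ φ₂ ↔ L.conjN (L.R.twI κ φ) φ₂ :=
      ⟨fun h => L.conjN_trans (L.conjN_symm hc) h, fun h => L.conjN_trans hc h⟩
    by_cases h : L.conjN φ φ₂
    · rw [if_pos h, if_pos (hiff.mp h)]
    · rw [if_neg h, if_neg (fun h' => h (hiff.mpr h'))]
  · have hp : L.mult χ φ ≠ 0 := by
      rw [hχ φ hφ, if_pos (L.conjN_refl φ)]
      exact one_ne_zero
    have hcc : L.R.cc (L.R.twI κ φ) ≠ 1 := by rw [L.R.cc_twI]; exact hκ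
    have hz : L.mult χ (L.R.twI κ φ) = 0 := by
      rw [hχ _ hcc, if_neg hc]
    obtain ⟨-, B, -, hB, hdeg, -⟩ := L.sibling_of_mult χ φ κ hφ hκ hp hz
    refine ⟨B, ?_, ?_, hdeg⟩
    · intro φ₂ hφ₂
      have e1 := hB φ₂
      rw [hχ φ₂ hφ₂] at e1
      by_cases c1 : L.conjN φ φ₂ <;> by_cases c2 : L.conjN (L.R.twI κ φ) φ₂ <;>
        simp only [c1, c2, if_true, if_false] at e1 ⊢ <;> push_cast at e1 <;> omega
    · intro θ hθ
      have e1 := hB θ
      have c1 : ¬ L.conjN φ θ := by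
        intro h
        have := L.conjN_cc h
        rw [hθ] at this
        exact hφ ((L.conjA_one_iff _).mp (L.conjA_symm this))
      have c2 : ¬ L.conjN (L.R.twI κ φ) θ := by
        intro h
        have := L.conjN_cc h
        rw [hθ] at this
        exact hcc ((L.conjA_one_iff _).mp (L.conjA_symm this))
      rw [if_neg c1, if_neg c2] at e1
      simp only [sub_zero, add_zero] at e1
      exact_mod_cast e1

end LeoCfg

end

end Cfsg.Agent.Helper15
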