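import Mathlib
import Cfsg.Prelude.Def_Characters
import Cfsg.Agent.Helper15.LeoSib

set_option autoImplicit false

namespace Cfsg.Agent.Helper15

open Cfsg
open scoped ComplexConjugate Classical

noncomputable section

namespace LeoCfg

variable {G : Type*} [Group G] [Fintype G] (L : LeoCfg G) [Fintype L.C] [Fintype L.N]
  [Fintype (IrrCharacter G)] [Fintype (IrrCharacter L.C)] [Fintype (L.R.Z →* ℂˣ)]

omit [Fintype G] [Fintype L.N] [Fintype (IrrCharacter G)] [Fintype (IrrCharacter L.C)]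
  [Fintype (L.R.Z →* ℂˣ)] in
theorem deg_linI (κ : L.R.Z →* ℂˣ) : charDegree (L.R.linI κ : L.C → ℂ) = 1 := by
  have h := Cfsg.Agent.Helper80.irr_one_eq (L.R.linI κ)
  rw [L.R.linI_at_one] at h
  exact_mod_cast h.symm

omit [Fintype G] [Fintype L.N] [Fintype (IrrCharacter G)] [Fintype (IrrCharacter L.C)]
  [Fintype (L.R.Z →* ℂˣ)] in
theorem lin_of_conj_lin {a : L.R.Z →* ℂˣ} {φ' : IrrCharacter L.C}
    (h : L.conjN (L.R.linI a) φ') : φ' = L.R.linI (L.R.cc φ') := by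
  obtain ⟨y, rfl⟩ := h
  rw [L.cjI_linI, L.R.cc_linI]

omit [Fintype G] [Fintype (IrrCharacter G)] [Fintype (L.R.Z →* ℂˣ)] in
theorem orbit_le_deg (e : ℕ) (he : Nat.card L.N = e * Nat.card L.C) {ψ : G → ℂ}
    (hψ : IsCharacter G ψ) (φ : IrrCharacter L.C) (hφ : L.R.cc φ ≠ 1) (hpos : L.mult ψ φ ≠ 0) :
    e ≤ charDegree ψ := by
  rw [← L.orbit_card e he φ hφ]
  refine le_trans (Finset.card_le_card ?_) (L.card_support_le hψ)
  intro φ₂ hφ₂
  rw [Finset.mem_filter] at hφ₂ ⊢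
  refine ⟨Finset.mem_univ _, ?_⟩
  rw [← L.mult_conjN hψ hφ₂.2]
  exact hpos

omit [Fintype G] [Fintype L.N] [Fintype (IrrCharacter G)] in
theorem exists_one_miss {ψ : G → ℂ} (hψ : IsCharacter G ψ)
    (h : 1 + charDegree ψ < Nat.card L.R.Z) :
    ∃ μ₀ : L.R.Z →* ℂˣ, μ₀ ≠ 1 ∧ L.Miss ψ μ₀ := by
  obtain ⟨μ₀, h1, h2⟩ := L.exists_miss hψ {1} (by rw [Finset.card_singleton]; exact h)
  exact ⟨μ₀, fun h' => h1 (by rw [h']; exact Finset.mem_singleton_self _), h2⟩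

omit [Fintype G] [Fintype (IrrCharacter G)] in
theorem exists_two_miss (e : ℕ) (he : Nat.card L.N = e * Nat.card L.C) {ψ : G → ℂ}
    (hψ : IsCharacter G ψ) (h : e + 1 + charDegree ψ < Nat.card L.R.Z) :
    ∃ μ₀ μ₀' : L.R.Z →* ℂˣ, μ₀ ≠ 1 ∧ μ₀' ≠ 1 ∧ L.Miss ψ μ₀ ∧ L.Miss ψ μ₀' ∧
      ¬ L.conjA μ₀ μ₀' := by
  obtain ⟨μ₀, h1, h2⟩ := L.exists_one_miss hψ (by omega)
  have hcard : (insert (1 : L.R.Z →* ℂˣ)
      (Finset.univ.filter (fun μ' : L.R.Z →* ℂˣ => L.conjA μ₀ μ'))).card ≤ e + 1 := by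
    refine le_trans (Finset.card_insert_le _ _) ?_
    rw [L.orbitA_card e he μ₀ h1]
  obtain ⟨μ₀', h3, h4⟩ := L.exists_miss hψ _ (lt_of_le_of_lt (Nat.add_le_add_right hcard _) h)
  rw [Finset.mem_insert, not_or, Finset.mem_filter, not_and] at h3
  exact ⟨μ₀, μ₀', h1, h3.1, h2, h4, h3.2 (Finset.mem_univ _)⟩

omit [Fintype G] [Fintype L.N] [Fintype (IrrCharacter G)] [Fintype (L.R.Z →* ℂˣ)] in
theorem exists_nontriv
    (hK : ∀ ψ : IrrCharacter G, (∀ z : L.R.Z, (ψ : G → ℂ) ((z : L.C) : G) = (ψ : G → ℂ) 1) →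
      ψ = Cfsg.Agent.Helper79.trivIrr G)
    (ψ : IrrCharacter G) (hψ : ψ ≠ Cfsg.Agent.Helper79.trivIrr G) :
    ∃ φ : IrrCharacter L.C, L.mult ψ φ ≠ 0 ∧ L.R.cc φ ≠ 1 := by
  by_contra hcon
  push Not at hcon
  exact hψ (hK ψ (L.apply_Z_of_triv (isChar_of_irr ψ.2) hcon))

omit [Fintype G] [Fintype L.N] [Fintype (IrrCharacter G)] [Fintype (IrrCharacter L.C)]
  [Fintype (L.R.Z →* ℂˣ)] in
theorem not_conjN_of_cc {φ θ : IrrCharacter L.C} (hφ : L.R.cc φ ≠ 1) (hθ : L.R.cc θ = 1) :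
    ¬ L.conjN φ θ := by
  intro h
  have := L.conjN_cc h
  rw [hθ] at this
  exact hφ ((L.conjA_one_iff _).mp (L.conjA_symm this))

/-- A character with a single orbit and small degree has no constituent trivial on the
retract. -/
theorem no_triv (e : ℕ) (he : Nat.card L.N = e * Nat.card L.C) (χ : IrrCharacter G)
    (φ : IrrCharacter L.C) (hφ : L.R.cc φ ≠ 1)
    (hχ : ∀ φ₂ : IrrCharacter L.C, L.R.cc φ₂ ≠ 1 →
      L.mult χ φ₂ = if L.conjN φ φ₂ then 1 else 0)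
    (hdeg : charDegree (χ : G → ℂ) ^ 2 + 1 < Nat.card L.R.Z) :
    ∀ θ : IrrCharacter L.C, L.R.cc θ = 1 → L.mult χ θ = 0 := by
  intro θ' hθ'
  by_contra hw
  have hχc := isChar_of_irr χ.2
  -- the degree is at least e + 1
  have hd : e + 1 ≤ charDegree (χ : G → ℂ) := by
    refine le_trans ?_ (L.card_support_le hχc)
    have hnot : θ' ∉ Finset.univ.filter (fun φ₂ : IrrCharacter L.C => L.conjN φ φ₂) := by
      rw [Finset.mem_filter, not_and]
      intro _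
      exact L.not_conjN_of_cc hφ hθ'
    rw [← L.orbit_card e he φ hφ, ← Finset.card_insert_of_notMem hnot]
    apply Finset.card_le_card
    intro φ₂ hφ₂
    rw [Finset.mem_filter]
    refine ⟨Finset.mem_univ _, ?_⟩
    rcases Finset.mem_insert.mp hφ₂ with h | h
    · rw [h]; exact hw
    · rw [Finset.mem_filter] at h
      have hcc : L.R.cc φ₂ ≠ 1 := L.conjA_ne_one (L.conjN_cc h.2) hφ
      rw [hχ φ₂ hcc, if_pos h.2]
      exact one_ne_zero
  -- a nontrivial linear character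
  obtain ⟨μ, hμ, -⟩ := L.exists_one_miss hχc (by nlinarith)
  -- the family
  have : Nonempty (IrrCharacter G) := ⟨χ⟩
  choose! F hF1 hF2 hF3 using (fun κ hκ => L.family χ φ hφ hχ κ hκ)
  have hccμ : L.R.cc (L.R.twI μ θ') ≠ 1 := by
    rw [L.R.cc_twI, hθ']
    have : μ * 1 = μ := mul_one μ
    rw [this]
    exact hμ
  let K₀ := Finset.univ.filter (fun κ : L.R.Z →* ℂˣ =>
    κ * L.R.cc φ ≠ 1 ∧ ¬ L.conjN (L.R.twI κ φ) (L.R.twI μ θ'))
  -- size of K₀
  have hK₀ : Nat.card L.R.Z ≤ K₀.card + 1 + e := by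
    have hsub : (Finset.univ : Finset (L.R.Z →* ℂˣ)) ⊆
        K₀ ∪ ({(L.R.cc φ)⁻¹} ∪ Finset.univ.filter
          (fun κ : L.R.Z →* ℂˣ => L.conjN (L.R.twI κ φ) (L.R.twI μ θ'))) := by
      intro κ _
      by_cases h1 : κ * L.R.cc φ = 1
      · apply Finset.mem_union_right
        apply Finset.mem_union_left
        rw [Finset.mem_singleton]
        exact eq_inv_of_mul_eq_one_left (a := κ) (b := L.R.cc φ) h1
      · by_cases h2 : L.conjN (L.R.twI κ φ) (L.R.twI μ θ')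
        · apply Finset.mem_union_right
          apply Finset.mem_union_right
          exact Finset.mem_filter.mpr ⟨Finset.mem_univ _, h2⟩
        · apply Finset.mem_union_left
          exact Finset.mem_filter.mpr ⟨Finset.mem_univ _, h1, h2⟩
    have h1 := Finset.card_le_card hsub
    rw [Finset.card_univ, ← Nat.card_eq_fintype_card, L.R.card_dual] at h1
    have h2 := Finset.card_union_le K₀ ({(L.R.cc φ)⁻¹} ∪ Finset.univ.filter
          (fun κ : L.R.Z →* ℂˣ => L.conjN (L.R.twI κ φ) (L.R.twI μ θ')))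
    have h3 := Finset.card_union_le ({(L.R.cc φ)⁻¹} : Finset (L.R.Z →* ℂˣ)) (Finset.univ.filter
          (fun κ : L.R.Z →* ℂˣ => L.conjN (L.R.twI κ φ) (L.R.twI μ θ')))
    have h4 := L.card_twist_conj_le e he φ (L.R.twI μ θ') hccμ
    rw [Finset.card_singleton] at h3
    omega
  -- fibers
  have hfib : ∀ κ ∈ K₀, (K₀.filter (fun x => F x = F κ)).card ≤ e := by
    intro κ hκ
    rw [Finset.mem_filter] at hκ
    have hccκ : L.R.cc (L.R.twI κ φ) ≠ 1 := by rw [L.R.cc_twI]; exact hκ.2.1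
    refine le_trans (Finset.card_le_card ?_) (L.card_twist_conj_le e he φ (L.R.twI κ φ) hccκ)
    intro κ' hκ'
    rw [Finset.mem_filter, Finset.mem_filter] at hκ'
    rw [Finset.mem_filter]
    refine ⟨Finset.mem_univ _, ?_⟩
    have hccκ' : L.R.cc (L.R.twI κ' φ) ≠ 1 := by rw [L.R.cc_twI]; exact hκ'.1.2.1
    have e1 := hF1 κ hκ.2.1 (L.R.twI κ' φ) hccκ'
    have e2 := hF1 κ' hκ'.1.2.1 (L.R.twI κ' φ) hccκ'
    rw [if_pos (L.conjN_refl _), hκ'.2, e1] at e2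
    by_contra hnc
    rw [if_neg (fun h => hnc (L.conjN_symm h))] at e2
    exact zero_ne_one e2
  -- the terms
  have hterm : ∀ ψ ∈ K₀.image F, (1 : ℤ) ≤
      ((L.mult ψ θ' : ℤ) - (L.mult ψ (L.R.twI μ θ') : ℤ)) ^ 2 := by
    intro ψ hψ
    obtain ⟨κ, hκ, rfl⟩ := Finset.mem_image.mp hψ
    rw [Finset.mem_filter] at hκ
    rw [hF2 κ hκ.2.1 θ' hθ', hF1 κ hκ.2.1 _ hccμ, if_neg hκ.2.2]
    have : (1 : ℤ) ≤ (L.mult χ θ' : ℤ) := by exact_mod_cast Nat.pos_of_ne_zero hw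
    push_cast
    nlinarith
  have h5 := leo_card_le_sum (K₀.image F)
    (fun ψ : IrrCharacter G => ((L.mult ψ θ' : ℤ) - (L.mult ψ (L.R.twI μ θ') : ℤ)) ^ 2)
    (fun ψ => sq_nonneg _) hterm
  have h6 := L.genTriv_le e he θ' μ hθ' hμ
  have h7 := leo_count K₀ F e hfib
  have h8 : (K₀.image F).card ≤ e + 1 := by
    have : ((K₀.image F).card : ℤ) ≤ (e : ℤ) + 1 := le_trans h5 h6
    exact_mod_cast this
  have h9 : K₀.card ≤ e * (e + 1) := le_trans h7 (Nat.mul_le_mul_left e h8)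
  nlinarith

end LeoCfg

end

end Cfsg.Agent.Helper15
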