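import Mathlib
import Cfsg.Prelude.Def_Characters
import Cfsg.Agent.Helper15.LeoMain1

set_option autoImplicit false

namespace Cfsg.Agent.Helper15

open Cfsg
open scoped ComplexConjugate Classical

noncomputable section

namespace LeoCfg

variable {G : Type*} [Group G] [Fintype G] (L : LeoCfg G) [Fintype L.C] [Fintype L.N]
  [Fintype (IrrCharacter G)] [Fintype (IrrCharacter L.C)] [Fintype (L.R.Z →* ℂˣ)]

omit [Fintype G] [Fintype L.C] [Fintype L.N] [Fintype (IrrCharacter G)]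
  [Fintype (IrrCharacter L.C)] [Fintype (L.R.Z →* ℂˣ)] in
theorem mul_inv_mul' (a b : L.R.Z →* ℂˣ) : a * b⁻¹ * b = a := inv_mul_cancel_right a b

omit [Fintype G] [Fintype L.N] [Fintype (IrrCharacter G)] [Fintype (IrrCharacter L.C)]
  [Fintype (L.R.Z →* ℂˣ)] in
theorem eq_linI_cc {φ' : IrrCharacter L.C} {X : L.R.Z →* ℂˣ} (h : φ' = L.R.linI X) :
    φ' = L.R.linI (L.R.cc φ') := by
  rw [h, L.R.cc_linI]

/-- The structure of an irreducible character containing a nontrivial linear character of `C`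
and no constituent trivial on the retract. -/
theorem lin_structure (ψ : IrrCharacter G) (μ : L.R.Z →* ℂˣ) (hμ : μ ≠ 1)
    (hpos : L.mult ψ (L.R.linI μ) ≠ 0)
    (hnt : ∀ θ : IrrCharacter L.C, L.R.cc θ = 1 → L.mult ψ θ = 0)
    (hdeg : 1 + charDegree (ψ : G → ℂ) < Nat.card L.R.Z) :
    (∀ φ₂ : IrrCharacter L.C, L.mult ψ φ₂ = if L.conjN (L.R.linI μ) φ₂ then 1 else 0) ∨
    (∃ μ₀ : L.R.Z →* ℂˣ, μ₀ ≠ 1 ∧ ∀ κ : L.R.Z →* ℂˣ,
      L.mult ψ (L.R.linI κ) = if (κ ≠ 1 ∧ ¬ L.conjA μ₀ κ) then 1 else 0) := by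
  have hψc := isChar_of_irr ψ.2
  obtain ⟨μ₀, hμ₀, hmiss⟩ := L.exists_one_miss hψc hdeg
  have hccμ : L.R.cc (L.R.linI μ) ≠ 1 := by rw [L.R.cc_linI]; exact hμ
  by_cases hcase : ∃ μ₀' : L.R.Z →* ℂˣ, μ₀' ≠ 1 ∧ L.Miss ψ μ₀' ∧ ¬ L.conjA μ₀ μ₀'
  · left
    obtain ⟨μ₀', hμ₀', hmiss', hnc⟩ := hcase
    have horb := L.single_orbit ψ (L.R.linI μ) hccμ hpos μ₀ μ₀' hμ₀ hμ₀' hmiss hmiss' hnc
    intro φ₂
    by_cases hcc : L.R.cc φ₂ = 1
    · rw [hnt φ₂ hcc, if_neg (L.not_conjN_of_cc hccμ hcc)]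
    · exact horb φ₂ hcc
  · right
    push Not at hcase
    refine ⟨μ₀, hμ₀, ?_⟩
    intro κ
    by_cases hκ1 : κ = 1
    · rw [if_neg (fun h => h.1 hκ1), hκ1]
      exact hnt _ (L.R.cc_linI 1)
    · by_cases hκc : L.conjA μ₀ κ
      · rw [if_neg (fun h => h.2 hκc)]
        exact L.mult_linI_miss (L.Miss_conjA hψc hmiss hκc)
      · rw [if_pos ⟨hκ1, hκc⟩]
        have hnm : ¬ L.Miss ψ κ := fun hm => hκc (hcase κ hκ1 hm)
        unfold Miss at hnm
        push Not at hnm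
        obtain ⟨φ', hφ', hccφ'⟩ := hnm
        have hccφ'1 : L.R.cc φ' ≠ 1 := by rw [hccφ']; exact hκ1
        -- φ' is linear
        have hz1 := L.mult_twist_miss hmiss (L.R.linI μ)
        have hz2 := L.mult_twist_miss hmiss φ'
        have hc1 : μ₀ * (L.R.cc (L.R.linI μ))⁻¹ * L.R.cc (L.R.linI μ) ≠ 1 := by
          rw [L.mul_inv_mul']; exact hμ₀
        have hc2 : μ₀ * (L.R.cc φ')⁻¹ * L.R.cc φ' ≠ 1 := by
          rw [L.mul_inv_mul']; exact hμ₀
        have hlin : φ' = L.R.linI κ := by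
          rcases L.sib_double ψ (L.R.linI μ) φ' _ _ hccμ hc1 hccφ'1 hc2 hpos hz1 hφ' hz2
            with h | h
          · have := L.lin_of_conj_lin h
            rw [hccφ'] at this
            exact this
          · rw [L.R.twI_linI] at h
            have h3 := L.lin_of_conj_lin h
            have h4 : φ' = L.R.twI (μ₀ * (L.R.cc φ')⁻¹)⁻¹ (L.R.twI (μ₀ * (L.R.cc φ')⁻¹) φ') :=
              (L.R.twI_inv_twI _ _).symm
            rw [h3, L.R.twI_linI] at h4
            have h5 := L.eq_linI_cc h4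
            rw [hccφ'] at h5
            exact h5
        rw [hlin] at hφ'
        have hz3 : L.mult ψ (L.R.twI (μ₀ * (L.R.cc (L.R.linI κ))⁻¹) (L.R.linI κ)) = 0 :=
          L.mult_twist_miss hmiss (L.R.linI κ)
        have hc3 : μ₀ * (L.R.cc (L.R.linI κ))⁻¹ * L.R.cc (L.R.linI κ) ≠ 1 := by
          rw [L.mul_inv_mul']; exact hμ₀
        have hc4 : L.R.cc (L.R.linI κ) ≠ 1 := by rw [L.R.cc_linI]; exact hκ1
        exact (L.sibling_of_mult ψ (L.R.linI κ) _ hc4 hc3 hφ' hz3).1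

/-- Case (b): all linear characters missing from `ψ` are conjugate. -/
theorem case_b (e : ℕ) (he : Nat.card L.N = e * Nat.card L.C) (ψ : IrrCharacter G)
    (μ₀ : L.R.Z →* ℂˣ) (hμ₀ : μ₀ ≠ 1)
    (hψ : ∀ κ : L.R.Z →* ℂˣ,
      L.mult ψ (L.R.linI κ) = if (κ ≠ 1 ∧ ¬ L.conjA μ₀ κ) then 1 else 0)
    (hq : e * e + 1 < Nat.card L.R.Z) :
    Nat.card L.R.Z ≤ e * e + e + 1 ∧
    ∀ μ₁ : L.R.Z →* ℂˣ, μ₁ ≠ 1 → ∀ ψ'' : IrrCharacter G,
      ψ'' ≠ Cfsg.Agent.Helper79.trivIrr G →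
      L.mult ψ'' (L.R.linI μ₁) = 0 → L.mult ψ'' (L.R.linI 1) = 0 := by
  -- the family
  have hfam : ∀ κ : L.R.Z →* ℂˣ, κ ≠ 1 → ∃ ψκ : IrrCharacter G, ∀ κ' : L.R.Z →* ℂˣ,
      L.mult ψκ (L.R.linI κ') = if (κ' ≠ 1 ∧ ¬ L.conjA κ κ') then 1 else 0 := by
    intro κ hκ
    by_cases hc : L.conjA μ₀ κ
    · refine ⟨ψ, fun κ' => ?_⟩
      rw [hψ κ']
      have hiff : L.conjA μ₀ κ' ↔ L.conjA κ κ' :=
        ⟨fun h => L.conjA_trans (L.conjA_symm hc) h, fun h => L.conjA_trans hc h⟩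
      simp only [hiff]
    · have hp : L.mult ψ (L.R.linI κ) ≠ 0 := by
        rw [hψ κ, if_pos ⟨hκ, hc⟩]; exact one_ne_zero
      have hcc : L.R.cc (L.R.linI κ) ≠ 1 := by rw [L.R.cc_linI]; exact hκ
      have hcc' : μ₀ * κ⁻¹ * L.R.cc (L.R.linI κ) ≠ 1 := by
        rw [L.R.cc_linI, L.mul_inv_mul']; exact hμ₀
      have htw : L.R.twI (μ₀ * κ⁻¹) (L.R.linI κ) = L.R.linI μ₀ := by
        rw [L.R.twI_linI, L.mul_inv_mul']
      have hz : L.mult ψ (L.R.twI (μ₀ * κ⁻¹) (L.R.linI κ)) = 0 := by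
        rw [htw, hψ μ₀, if_neg (fun h => h.2 (L.conjA_refl μ₀))]
      obtain ⟨-, B, -, hB, -, -⟩ := L.sibling_of_mult ψ (L.R.linI κ) (μ₀ * κ⁻¹) hcc hcc' hp hz
      refine ⟨B, fun κ' => ?_⟩
      have e1 := hB (L.R.linI κ')
      rw [htw, hψ κ'] at e1
      have i1 : L.conjN (L.R.linI κ) (L.R.linI κ') ↔ L.conjA κ κ' := L.conjN_linI
      have i2 : L.conjN (L.R.linI μ₀) (L.R.linI κ') ↔ L.conjA μ₀ κ' := L.conjN_linI
      simp only [i1, i2] at e1
      have key : (L.mult B (L.R.linI κ') : ℤ) =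
          if (κ' ≠ 1 ∧ ¬ L.conjA κ κ') then 1 else 0 := by
        rw [e1]
        by_cases hκ' : κ' = 1
        · have n1 : ¬ L.conjA κ κ' := by
            rw [hκ']; exact fun h => hκ ((L.conjA_one_iff _).mp (L.conjA_symm h))
          have n2 : ¬ L.conjA μ₀ κ' := by
            rw [hκ']; exact fun h => hμ₀ ((L.conjA_one_iff _).mp (L.conjA_symm h))
          have n3 : ¬ (κ' ≠ 1 ∧ ¬ L.conjA μ₀ κ') := fun h => h.1 hκ'
          have n4 : ¬ (κ' ≠ 1 ∧ ¬ L.conjA κ κ') := fun h => h.1 hκ'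
          rw [if_neg n3, if_neg n1, if_neg n2, if_neg n4]
          norm_num
        · by_cases c1 : L.conjA κ κ'
          · have c2 : ¬ L.conjA μ₀ κ' := fun c2 => hc (L.conjA_trans c2 (L.conjA_symm c1))
            have n3 : (κ' ≠ 1 ∧ ¬ L.conjA μ₀ κ') := ⟨hκ', c2⟩
            have n4 : ¬ (κ' ≠ 1 ∧ ¬ L.conjA κ κ') := fun h => h.2 c1
            rw [if_pos n3, if_pos c1, if_neg c2, if_neg n4]
            norm_num
          · by_cases c2 : L.conjA μ₀ κ'
            · have n3 : ¬ (κ' ≠ 1 ∧ ¬ L.conjA μ₀ κ') := fun h => h.2 c2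
              have n4 : (κ' ≠ 1 ∧ ¬ L.conjA κ κ') := ⟨hκ', c1⟩
              rw [if_neg n3, if_neg c1, if_pos c2, if_pos n4]
              norm_num
            · have n3 : (κ' ≠ 1 ∧ ¬ L.conjA μ₀ κ') := ⟨hκ', c2⟩
              have n4 : (κ' ≠ 1 ∧ ¬ L.conjA κ κ') := ⟨hκ', c1⟩
              rw [if_pos n3, if_neg c1, if_neg c2, if_pos n4]
              norm_num
      split_ifs at key ⊢ <;> exact_mod_cast key
  have hne : Nonempty (IrrCharacter G) := ⟨ψ⟩
  choose! F hF using hfam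
  -- counting for a given μ₁
  have hcount : ∀ μ₁ : L.R.Z →* ℂˣ, μ₁ ≠ 1 →
      ∃ K : Finset (L.R.Z →* ℂˣ), Nat.card L.R.Z ≤ K.card + 1 + e ∧
        K.card ≤ e * (K.image F).card ∧ (K.image F).card ≤ e ∧
        (∀ ψ'' ∈ K.image F, L.mult ψ'' (L.R.linI 1) = 0) ∧
        (e ≤ (K.image F).card → ∀ ψ'' : IrrCharacter G,
          ψ'' ≠ Cfsg.Agent.Helper79.trivIrr G → ψ'' ∉ K.image F →
          L.mult ψ'' (L.R.linI 1) = L.mult ψ'' (L.R.linI μ₁)) := by
    intro μ₁ hμ₁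
    let K := Finset.univ.filter (fun κ : L.R.Z →* ℂˣ => κ ≠ 1 ∧ ¬ L.conjA μ₁ κ)
    have hKcard : Nat.card L.R.Z ≤ K.card + 1 + e := by
      have hsub : (Finset.univ : Finset (L.R.Z →* ℂˣ)) ⊆
          K ∪ ({1} ∪ Finset.univ.filter (fun κ : L.R.Z →* ℂˣ => L.conjA μ₁ κ)) := by
        intro κ _
        by_cases h1 : κ = 1
        · apply Finset.mem_union_right
          apply Finset.mem_union_left
          rw [Finset.mem_singleton]
          exact h1
        · by_cases h2 : L.conjA μ₁ κ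
          · apply Finset.mem_union_right
            apply Finset.mem_union_right
            exact Finset.mem_filter.mpr ⟨Finset.mem_univ _, h2⟩
          · apply Finset.mem_union_left
            exact Finset.mem_filter.mpr ⟨Finset.mem_univ _, h1, h2⟩
      have h1 := Finset.card_le_card hsub
      rw [Finset.card_univ, ← Nat.card_eq_fintype_card, L.R.card_dual] at h1
      have h2 := Finset.card_union_le K
        ({1} ∪ Finset.univ.filter (fun κ : L.R.Z →* ℂˣ => L.conjA μ₁ κ))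
      have h3 := Finset.card_union_le ({1} : Finset (L.R.Z →* ℂˣ))
        (Finset.univ.filter (fun κ : L.R.Z →* ℂˣ => L.conjA μ₁ κ))
      rw [Finset.card_singleton, L.orbitA_card e he μ₁ hμ₁] at h3
      omega
    have hfib : ∀ κ ∈ K, (K.filter (fun x => F x = F κ)).card ≤ e := by
      intro κ hκ
      rw [Finset.mem_filter] at hκ
      rw [← L.orbitA_card e he κ hκ.2.1]
      apply Finset.card_le_card
      intro κ' hκ'
      rw [Finset.mem_filter, Finset.mem_filter] at hκ'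
      rw [Finset.mem_filter]
      refine ⟨Finset.mem_univ _, ?_⟩
      have e1 := hF κ hκ.2.1 κ'
      have e2 := hF κ' hκ'.1.2.1 κ'
      have n2 : ¬ (κ' ≠ 1 ∧ ¬ L.conjA κ' κ') := fun h => h.2 (L.conjA_refl κ')
      rw [if_neg n2, hκ'.2] at e2
      by_contra hnc
      have n1 : (κ' ≠ 1 ∧ ¬ L.conjA κ κ') := ⟨hκ'.1.2.1, hnc⟩
      rw [if_pos n1, e2] at e1
      exact zero_ne_one e1
    let t : IrrCharacter G → ℤ := fun ψ'' =>
      ((L.mult ψ'' (L.R.linI 1) : ℤ) - (L.mult ψ'' (L.R.linI μ₁) : ℤ)) ^ 2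
    have ht : ∀ ψ'', 0 ≤ t ψ'' := fun ψ'' => sq_nonneg _
    have hsum : ∑ ψ'' : IrrCharacter G, t ψ'' = (e : ℤ) + 1 := L.genTriv_one e he μ₁ hμ₁
    have hFK1 : ∀ κ ∈ K, L.mult (F κ) (L.R.linI 1) = 0 := by
      intro κ hκ
      rw [Finset.mem_filter] at hκ
      rw [hF κ hκ.2.1 1, if_neg (fun h => h.1 rfl)]
    have hFKμ : ∀ κ ∈ K, L.mult (F κ) (L.R.linI μ₁) = 1 := by
      intro κ hκ
      rw [Finset.mem_filter] at hκ
      rw [hF κ hκ.2.1 μ₁, if_pos ⟨hμ₁, fun h => hκ.2.2 (L.conjA_symm h)⟩]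
    have htriv1 : L.mult (Cfsg.Agent.Helper79.trivIrr G : G → ℂ) (L.R.linI 1) = 1 := by
      rw [L.mult_triv, if_pos rfl]
    have htrivμ : L.mult (Cfsg.Agent.Helper79.trivIrr G : G → ℂ) (L.R.linI μ₁) = 0 := by
      rw [L.mult_triv, if_neg (fun h => hμ₁ (L.R.linI_inj h))]
    have hnotmem : Cfsg.Agent.Helper79.trivIrr G ∉ K.image F := by
      intro h
      obtain ⟨κ, hκ, hκe⟩ := Finset.mem_image.mp h
      have := hFK1 κ hκ
      rw [hκe, htriv1] at this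
      exact one_ne_zero this
    have hS : ∀ ψ'' ∈ insert (Cfsg.Agent.Helper79.trivIrr G) (K.image F), (1 : ℤ) ≤ t ψ'' := by
      intro ψ'' h
      rcases Finset.mem_insert.mp h with h | h
      · rw [h]
        simp only [t]
        rw [htriv1, htrivμ]
        norm_num
      · obtain ⟨κ, hκ, rfl⟩ := Finset.mem_image.mp h
        simp only [t]
        rw [hFK1 κ hκ, hFKμ κ hκ]
        norm_num
    have hcardS : (insert (Cfsg.Agent.Helper79.trivIrr G) (K.image F)).card =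
        (K.image F).card + 1 := Finset.card_insert_of_notMem hnotmem
    have h5 := leo_card_le_sum _ t ht hS
    rw [hsum, hcardS] at h5
    have h6 : (K.image F).card ≤ e := by
      push_cast at h5
      omega
    refine ⟨K, hKcard, leo_count K F e hfib, h6, ?_, ?_⟩
    · intro ψ'' h
      obtain ⟨κ, hκ, rfl⟩ := Finset.mem_image.mp h
      exact hFK1 κ hκ
    · intro hge ψ'' hne hnm
      have h7 : ∑ ψ'' : IrrCharacter G, t ψ'' ≤
          ((insert (Cfsg.Agent.Helper79.trivIrr G) (K.image F)).card : ℤ) := by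
        rw [hsum, hcardS]
        push_cast
        have : (e : ℤ) ≤ ((K.image F).card : ℤ) := by exact_mod_cast hge
        linarith
      have h8 := leo_tight _ t ht hS h7 ψ''
        (by rw [Finset.mem_insert, not_or]; exact ⟨hne, hnm⟩)
      simp only [t] at h8
      have h9 : (L.mult ψ'' (L.R.linI 1) : ℤ) - (L.mult ψ'' (L.R.linI μ₁) : ℤ) = 0 := by
        simpa using h8
      omega
  obtain ⟨K, hK1, hK2, hK3, -, -⟩ := hcount μ₀ hμ₀
  constructor
  · have : K.card ≤ e * e := le_trans hK2 (Nat.mul_le_mul_left e hK3)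
    omega
  · intro μ₁ hμ₁ ψ'' hne hz
    obtain ⟨K, hK1, hK2, hK3, hK4, hK5⟩ := hcount μ₁ hμ₁
    by_cases hmem : ψ'' ∈ K.image F
    · exact hK4 ψ'' hmem
    · have hge : e ≤ (K.image F).card := by
        by_contra hlt
        push Not at hlt
        have h1 : K.card ≤ e * (e - 1) := le_trans hK2 (Nat.mul_le_mul_left e (by omega))
        rcases Nat.eq_zero_or_pos e with h0 | hpos
        · subst h0
          omega
        · have h2 : e * (e - 1) + e = e * e := by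
            obtain ⟨k, rfl⟩ := Nat.exists_eq_succ_of_ne_zero hpos.ne'
            simp only [Nat.succ_eq_add_one, Nat.add_sub_cancel]
            ring
          omega
      rw [hK5 hge ψ'' hne hmem, hz]

omit [Fintype (L.R.Z →* ℂˣ)] in
/-- If the square of a single-orbit character has no nonprincipal constituent containing the
principal character of `C`, the inertial index is one. -/
theorem e_eq_one (e : ℕ) (he : Nat.card L.N = e * Nat.card L.C) (Ψ : IrrCharacter G)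
    (φ₀ : IrrCharacter L.C) (hφ₀ : L.R.cc φ₀ ≠ 1)
    (hΨ : ∀ φ₂ : IrrCharacter L.C, L.mult Ψ φ₂ = if L.conjN φ₀ φ₂ then 1 else 0)
    (h : ∀ ψ'' : IrrCharacter G, ψ'' ≠ Cfsg.Agent.Helper79.trivIrr G →
      gmult (pc (Ψ : G → ℂ) (Ψ : G → ℂ)) ψ'' ≠ 0 → L.mult ψ'' (L.R.linI 1) = 0) :
    e = 1 := by
  have hΨc := isChar_of_irr Ψ.2
  have h1 : L.mult (pc (Ψ : G → ℂ) (Ψ : G → ℂ)) (L.R.linI 1) = e := by
    rw [L.mult_pc_linI hΨc hΨc 1, ← L.orbit_card e he φ₀ hφ₀, Finset.card_eq_sum_ones,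
      Finset.sum_filter]
    apply Finset.sum_congr rfl
    intro φ₂ _
    rw [L.R.twI_one, hΨ φ₂]
    split_ifs <;> simp
  have h2 : L.mult (pc (Ψ : G → ℂ) (Ψ : G → ℂ)) (L.R.linI 1) = 1 := by
    rw [L.mult_eq_sum_gmult (pc_isChar hΨc hΨc) (L.R.linI 1),
      Finset.sum_eq_single (Cfsg.Agent.Helper79.trivIrr G)]
    · rw [gmult_pc_triv, if_pos rfl, L.mult_triv, if_pos rfl]
    · intro ψ'' _ hne
      by_cases hg : gmult (pc (Ψ : G → ℂ) (Ψ : G → ℂ)) ψ'' = 0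
      · rw [hg, zero_mul]
      · rw [h ψ'' hne hg, mul_zero]
    · intro hcon
      exact absurd (Finset.mem_univ _) hcon
  rw [h1] at h2
  exact h2

end LeoCfg

end

end Cfsg.Agent.Helper15
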