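import Mathlib
import Cfsg.Prelude.Def_Characters
import Cfsg.Agent.Helper15.LeoMain2

set_option autoImplicit false

namespace Cfsg.Agent.Helper15

open Cfsg
open scoped ComplexConjugate Classical

noncomputable section

theorem leo_deg_triv {G : Type*} [Group G] :
    charDegree ((Cfsg.Agent.Helper79.trivIrr G : IrrCharacter G) : G → ℂ) = 1 := by
  have h1 := Cfsg.Agent.Helper80.irr_one_eq (Cfsg.Agent.Helper79.trivIrr G)
  have h2 : ((Cfsg.Agent.Helper79.trivIrr G : IrrCharacter G) : G → ℂ) 1 = 1 := rfl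
  rw [h2] at h1
  exact_mod_cast h1.symm

namespace LeoCfg

variable {G : Type*} [Group G] [Fintype G] (L : LeoCfg G) [Fintype L.C] [Fintype L.N]
  [Fintype (IrrCharacter G)] [Fintype (IrrCharacter L.C)] [Fintype (L.R.Z →* ℂˣ)]

omit [Fintype G] [Fintype (IrrCharacter G)] [Fintype (L.R.Z →* ℂˣ)] in
theorem deg_single_orbit (e : ℕ) (he : Nat.card L.N = e * Nat.card L.C) (Λ : IrrCharacter G)
    (μ : L.R.Z →* ℂˣ) (hμ : μ ≠ 1)
    (hΛ : ∀ φ₂ : IrrCharacter L.C, L.mult Λ φ₂ = if L.conjN (L.R.linI μ) φ₂ then 1 else 0) :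
    charDegree (Λ : G → ℂ) = e := by
  have hccμ : L.R.cc (L.R.linI μ) ≠ 1 := by rw [L.R.cc_linI]; exact hμ
  rw [L.deg_res (isChar_of_irr Λ.2), ← L.orbit_card e he (L.R.linI μ) hccμ,
    Finset.card_eq_sum_ones, Finset.sum_filter]
  apply Finset.sum_congr rfl
  intro φ₂ _
  rw [hΛ φ₂]
  split_ifs with hc
  · rw [L.lin_of_conj_lin hc, L.deg_linI]
  · rw [zero_mul]

/-- Part A: the restriction of `χ` to `C` is a single orbit. -/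
theorem chi_structure (e : ℕ) (he : Nat.card L.N = e * Nat.card L.C)
    (hK : ∀ ψ : IrrCharacter G, (∀ z : L.R.Z, (ψ : G → ℂ) ((z : L.C) : G) = (ψ : G → ℂ) 1) →
      ψ = Cfsg.Agent.Helper79.trivIrr G)
    (χ : IrrCharacter G) (hd : 2 ≤ charDegree (χ : G → ℂ))
    (hdeg : charDegree (χ : G → ℂ) ^ 2 + 1 < Nat.card L.R.Z) :
    ∃ φ : IrrCharacter L.C, L.R.cc φ ≠ 1 ∧
      (∀ φ₂ : IrrCharacter L.C, L.mult χ φ₂ = if L.conjN φ φ₂ then 1 else 0) ∧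
      e ≤ charDegree (χ : G → ℂ) := by
  have hχc := isChar_of_irr χ.2
  have hne : χ ≠ Cfsg.Agent.Helper79.trivIrr G := by
    intro h
    rw [h, leo_deg_triv] at hd
    omega
  obtain ⟨φ, hφm, hφ⟩ := L.exists_nontriv hK χ hne
  have hed := L.orbit_le_deg e he hχc φ hφ hφm
  obtain ⟨μ₀, μ₀', h0, h0', hm, hm', hnc⟩ := L.exists_two_miss e he hχc (by nlinarith)
  have horb := L.single_orbit χ φ hφ hφm μ₀ μ₀' h0 h0' hm hm' hnc
  have hnt := L.no_triv e he χ φ hφ horb hdeg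
  refine ⟨φ, hφ, ?_, hed⟩
  intro φ₂
  by_cases hcc : L.R.cc φ₂ = 1
  · rw [hnt φ₂ hcc, if_neg (L.not_conjN_of_cc hφ hcc)]
  · exact horb φ₂ hcc

/-- Part B: an irreducible character whose restriction to `C` is an orbit of linear
characters. -/
theorem exists_Lambda (e : ℕ) (he : Nat.card L.N = e * Nat.card L.C)
    (χ : IrrCharacter G) (hd : 2 ≤ charDegree (χ : G → ℂ))
    (hdeg : charDegree (χ : G → ℂ) ^ 2 + 1 < Nat.card L.R.Z)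
    (φ : IrrCharacter L.C) (hφ : L.R.cc φ ≠ 1)
    (hχ : ∀ φ₂ : IrrCharacter L.C, L.mult χ φ₂ = if L.conjN φ φ₂ then 1 else 0)
    (hed : e ≤ charDegree (χ : G → ℂ)) :
    ∃ (Λ : IrrCharacter G) (μ : L.R.Z →* ℂˣ), μ ≠ 1 ∧
      ∀ φ₂ : IrrCharacter L.C, L.mult Λ φ₂ = if L.conjN (L.R.linI μ) φ₂ then 1 else 0 := by
  have hχc := isChar_of_irr χ.2
  -- a linear character not conjugate to the central character of φ
  have hν : ∃ ν : L.R.Z →* ℂˣ, ν ≠ 1 ∧ ¬ L.conjA (L.R.cc φ) ν := by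
    have hcard : (insert (1 : L.R.Z →* ℂˣ)
        (Finset.univ.filter (fun μ' : L.R.Z →* ℂˣ => L.conjA (L.R.cc φ) μ'))).card <
        (Finset.univ : Finset (L.R.Z →* ℂˣ)).card := by
      rw [Finset.card_univ, ← Nat.card_eq_fintype_card, L.R.card_dual]
      refine lt_of_le_of_lt (Finset.card_insert_le _ _) ?_
      rw [L.orbitA_card e he _ hφ]
      nlinarith
    obtain ⟨ν, -, hν⟩ := Finset.exists_mem_notMem_of_card_lt_card hcard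
    rw [Finset.mem_insert, not_or, Finset.mem_filter, not_and] at hν
    exact ⟨ν, hν.1, hν.2 (Finset.mem_univ _)⟩
  obtain ⟨ν, hν1, hνc⟩ := hν
  have hmulnu : ν * (L.R.cc φ)⁻¹ * L.R.cc φ = ν := L.mul_inv_mul' ν (L.R.cc φ)
  have hμ : ν * (L.R.cc φ)⁻¹ ≠ 1 := by
    intro h
    rw [h] at hmulnu
    have h1 : (1 : L.R.Z →* ℂˣ) * L.R.cc φ = L.R.cc φ := one_mul (L.R.cc φ)
    rw [h1] at hmulnu
    rw [← hmulnu] at hνc
    exact hνc (L.conjA_refl _)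
  have hκ : ν * (L.R.cc φ)⁻¹ * L.R.cc φ ≠ 1 := by rw [hmulnu]; exact hν1
  obtain ⟨χ', hχ'1, hχ'2, hχ'deg⟩ :=
    L.family χ φ hφ (fun φ₂ _ => hχ φ₂) (ν * (L.R.cc φ)⁻¹) hκ
  have hχ'c := isChar_of_irr χ'.2
  have hΓ := pc_isChar hχ'c hχc
  have hccμφ : L.R.cc (L.R.twI (ν * (L.R.cc φ)⁻¹) φ) = ν := by rw [L.R.cc_twI]; exact hmulnu
  -- the linear character occurs in the product
  have hΓμ : L.mult (pc (χ' : G → ℂ) (χ : G → ℂ)) (L.R.linI (ν * (L.R.cc φ)⁻¹)) ≠ 0 := by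
    rw [L.mult_pc_linI hχ'c hχc (ν * (L.R.cc φ)⁻¹)]
    have h1 : L.mult χ φ * L.mult χ' (L.R.twI (ν * (L.R.cc φ)⁻¹) φ) ≤
        ∑ φ₂ : IrrCharacter L.C, L.mult χ φ₂ * L.mult χ' (L.R.twI (ν * (L.R.cc φ)⁻¹) φ₂) :=
      Finset.single_le_sum (f := fun φ₂ : IrrCharacter L.C =>
        L.mult χ φ₂ * L.mult χ' (L.R.twI (ν * (L.R.cc φ)⁻¹) φ₂))
        (fun _ _ => Nat.zero_le _) (Finset.mem_univ φ)
    rw [hχ φ, if_pos (L.conjN_refl φ), hχ'1 _ (by rw [hccμφ]; exact hν1),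
      if_pos (L.conjN_refl _)] at h1
    omega
  obtain ⟨ψ, hgψ, hψμ⟩ := L.exists_gmult_of_mult hΓ (L.R.linI (ν * (L.R.cc φ)⁻¹)) hΓμ
  -- no constituents trivial on the retract
  have hΓnt : ∀ θ : IrrCharacter L.C, L.R.cc θ = 1 →
      L.mult (pc (χ' : G → ℂ) (χ : G → ℂ)) θ = 0 := by
    intro θ hθ
    by_contra hne
    obtain ⟨φ₁, φ₂, hm1, hm2, hin⟩ := L.mult_pc_ne_zero hχ'c hχc θ hne
    have hgr := L.R.cc_grading φ₁ φ₂ θ hin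
    rw [hθ] at hgr
    have hcceq : L.R.cc φ₁ = L.R.cc φ₂ :=
      (mul_inv_eq_one (a := L.R.cc φ₁) (b := L.R.cc φ₂)).mp hgr.symm
    have hc2 : L.conjN φ φ₂ := by
      by_contra hc
      rw [hχ φ₂, if_neg hc] at hm2
      exact hm2 rfl
    have hA2 := L.conjN_cc hc2
    have hcc2 : L.R.cc φ₂ ≠ 1 := L.conjA_ne_one hA2 hφ
    have hc1 : L.conjN (L.R.twI (ν * (L.R.cc φ)⁻¹) φ) φ₁ := by
      by_contra hc
      rw [hχ'1 φ₁ (by rw [hcceq]; exact hcc2), if_neg hc] at hm1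
      exact hm1 rfl
    have hA1 := L.conjN_cc hc1
    rw [hccμφ, hcceq] at hA1
    exact hνc (L.conjA_trans hA2 (L.conjA_symm hA1))
  have hψnt : ∀ θ : IrrCharacter L.C, L.R.cc θ = 1 → L.mult ψ θ = 0 := by
    intro θ hθ
    have := L.mult_le_of_gmult hΓ ψ hgψ θ
    rw [hΓnt θ hθ] at this
    omega
  have hψdeg : charDegree (ψ : G → ℂ) ≤ charDegree (χ : G → ℂ) * charDegree (χ : G → ℂ) := by
    have := deg_le_of_gmult hΓ ψ hgψ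
    rw [charDegree_pc hχ'c hχc, hχ'deg] at this
    exact this
  rcases L.lin_structure ψ (ν * (L.R.cc φ)⁻¹) hμ hψμ hψnt (by nlinarith) with
    ha | ⟨μ₀, hμ₀, hb⟩
  · exact ⟨ψ, ν * (L.R.cc φ)⁻¹, hμ, ha⟩
  · exfalso
    obtain ⟨hb1, hb2⟩ := L.case_b e he ψ μ₀ hμ₀ hb (by nlinarith)
    have he1 : e = 1 := by
      apply L.e_eq_one e he χ φ hφ hχ
      intro ψ'' hne hg
      have hχχ := pc_isChar hχc hχc
      obtain ⟨μ₁, hμ₁, hmiss⟩ := L.exists_one_miss hχχ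
        (by rw [charDegree_pc hχc hχc]; nlinarith)
      have h0 := L.mult_linI_miss hmiss
      have h1 := L.mult_le_of_gmult hχχ ψ'' hg (L.R.linI μ₁)
      rw [h0] at h1
      exact hb2 μ₁ hμ₁ ψ'' hne (by omega)
    subst he1
    nlinarith

/-- Part C: the inertial index is one. -/
theorem e_one_of_Lambda (e : ℕ) (he : Nat.card L.N = e * Nat.card L.C)
    (hK : ∀ ψ : IrrCharacter G, (∀ z : L.R.Z, (ψ : G → ℂ) ((z : L.C) : G) = (ψ : G → ℂ) 1) →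
      ψ = Cfsg.Agent.Helper79.trivIrr G)
    (Λ : IrrCharacter G) (μ : L.R.Z →* ℂˣ) (hμ : μ ≠ 1)
    (hΛ : ∀ φ₂ : IrrCharacter L.C, L.mult Λ φ₂ = if L.conjN (L.R.linI μ) φ₂ then 1 else 0)
    (hq : e * e + 1 < Nat.card L.R.Z) : e = 1 := by
  have hΛc := isChar_of_irr Λ.2
  have hccμ : L.R.cc (L.R.linI μ) ≠ 1 := by rw [L.R.cc_linI]; exact hμ
  have hdegΛ : charDegree (Λ : G → ℂ) = e := L.deg_single_orbit e he Λ μ hμ hΛ
  have hΛΛ := pc_isChar hΛc hΛc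
  apply L.e_eq_one e he Λ (L.R.linI μ) hccμ hΛ
  intro ψ' hne hg
  obtain ⟨τ₀, hτ₀, hmiss⟩ := L.exists_one_miss hΛΛ
    (by rw [charDegree_pc hΛc hΛc, hdegΛ]; omega)
  obtain ⟨φ', hφ'm, hφ'cc⟩ := L.exists_nontriv hK ψ' hne
  have hΓφ' : L.mult (pc (Λ : G → ℂ) (Λ : G → ℂ)) φ' ≠ 0 := by
    have := L.mult_le_of_gmult hΛΛ ψ' hg φ'
    omega
  obtain ⟨φ₁, φ₂, hm1, hm2, hin⟩ := L.mult_pc_ne_zero hΛc hΛc φ' hΓφ'
  have hl1 : ∃ κ₁ : L.R.Z →* ℂˣ, φ₁ = L.R.linI κ₁ := by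
    refine ⟨_, L.lin_of_conj_lin (a := μ) ?_⟩
    by_contra hc
    rw [hΛ φ₁, if_neg hc] at hm1
    exact hm1 rfl
  have hl2 : ∃ κ₂ : L.R.Z →* ℂˣ, φ₂ = L.R.linI κ₂ := by
    refine ⟨_, L.lin_of_conj_lin (a := μ) ?_⟩
    by_contra hc
    rw [hΛ φ₂, if_neg hc] at hm2
    exact hm2 rfl
  obtain ⟨κ₁, rfl⟩ := hl1
  obtain ⟨κ₂, rfl⟩ := hl2
  have hφ'lin : ∃ τ : L.R.Z →* ℂˣ, φ' = L.R.linI τ := by
    refine ⟨κ₁ * κ₂⁻¹, ?_⟩
    have hfun : (fun x => (L.R.linI κ₁ : L.C → ℂ) x * conj ((L.R.linI κ₂ : L.C → ℂ) x)) =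
        (L.R.linI (κ₁ * κ₂⁻¹) : L.C → ℂ) := by
      funext x
      rw [L.R.linI_apply, L.R.linI_apply, L.R.linI_apply, L.R.conj_hom_val]
      rfl
    rw [hfun, irr_inner] at hin
    by_contra hc
    rw [if_neg (fun h => hc h.symm)] at hin
    exact hin rfl
  obtain ⟨τ, rfl⟩ := hφ'lin
  have hτ : τ ≠ 1 := by rw [L.R.cc_linI] at hφ'cc; exact hφ'cc
  -- the family
  have hκ : τ * μ⁻¹ * L.R.cc (L.R.linI μ) ≠ 1 := by
    rw [L.R.cc_linI, L.mul_inv_mul']; exact hτ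
  obtain ⟨F, hF1, hF2, -⟩ :=
    L.family Λ (L.R.linI μ) hccμ (fun φ₂ _ => hΛ φ₂) (τ * μ⁻¹) hκ
  have htw : L.R.twI (τ * μ⁻¹) (L.R.linI μ) = L.R.linI τ := by
    rw [L.R.twI_linI, L.mul_inv_mul']
  rw [htw] at hF1
  have hnc : ¬ L.conjA τ τ₀ := by
    intro hc
    have hm := L.Miss_conjA hΛΛ hmiss (L.conjA_symm hc)
    exact hΓφ' (L.mult_linI_miss hm)
  have hccτ : L.R.cc (L.R.linI τ) ≠ 1 := by rw [L.R.cc_linI]; exact hτ
  have hcc' : τ₀ * τ⁻¹ * L.R.cc (L.R.linI τ) ≠ 1 := by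
    rw [L.R.cc_linI, L.mul_inv_mul']; exact hτ₀
  have htw' : L.R.twI (τ₀ * τ⁻¹) (L.R.linI τ) = L.R.linI τ₀ := by
    rw [L.R.twI_linI, L.mul_inv_mul']
  have hFτ : L.mult F (L.R.linI τ) ≠ 0 := by
    rw [hF1 _ hccτ, if_pos (L.conjN_refl _)]; exact one_ne_zero
  have hFτ₀ : L.mult F (L.R.twI (τ₀ * τ⁻¹) (L.R.linI τ)) = 0 := by
    rw [htw', hF1 _ (by rw [L.R.cc_linI]; exact hτ₀),
      if_neg (fun h => hnc (L.conjN_linI.mp h))]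
  obtain ⟨-, -, -, -, -, huniq⟩ :=
    L.sibling_of_mult F (L.R.linI τ) (τ₀ * τ⁻¹) hccτ hcc' hFτ hFτ₀
  have hψ'τ₀ : L.mult ψ' (L.R.twI (τ₀ * τ⁻¹) (L.R.linI τ)) = 0 := by
    rw [htw']
    have := L.mult_le_of_gmult hΛΛ ψ' hg (L.R.linI τ₀)
    rw [L.mult_linI_miss hmiss] at this
    omega
  have hψ'F : ψ' = F := huniq ψ' hφ'm hψ'τ₀
  rw [hψ'F, hF2 _ (L.R.cc_linI 1), hΛ, if_neg]
  intro hc
  exact hμ ((L.conjA_one_iff _).mp (L.conjA_symm (L.conjN_linI.mp hc)))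

/-- Part D: the final contradiction when the inertial index is one. -/
theorem final_contra (he1 : Nat.card L.N = 1 * Nat.card L.C)
    (hK : ∀ ψ : IrrCharacter G, (∀ z : L.R.Z, (ψ : G → ℂ) ((z : L.C) : G) = (ψ : G → ℂ) 1) →
      ψ = Cfsg.Agent.Helper79.trivIrr G)
    (χ : IrrCharacter G) (hd : 2 ≤ charDegree (χ : G → ℂ))
    (φ : IrrCharacter L.C) (hφ : L.R.cc φ ≠ 1)
    (hχ : ∀ φ₂ : IrrCharacter L.C, L.mult χ φ₂ = if L.conjN φ φ₂ then 1 else 0)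
    (Λ : IrrCharacter G) (μ : L.R.Z →* ℂˣ) (hμ : μ ≠ 1)
    (hΛ : ∀ φ₂ : IrrCharacter L.C, L.mult Λ φ₂ = if L.conjN (L.R.linI μ) φ₂ then 1 else 0) :
    False := by
  have hχc := isChar_of_irr χ.2
  have hΛc := isChar_of_irr Λ.2
  have hccμ : L.R.cc (L.R.linI μ) ≠ 1 := by rw [L.R.cc_linI]; exact hμ
  have hκ : L.R.cc φ * μ⁻¹ * L.R.cc (L.R.linI μ) ≠ 1 := by
    rw [L.R.cc_linI, L.mul_inv_mul']; exact hφ
  obtain ⟨ξ, hξ1, hξ2, hξdeg⟩ :=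
    L.family Λ (L.R.linI μ) hccμ (fun φ₂ _ => hΛ φ₂) (L.R.cc φ * μ⁻¹) hκ
  have htw : L.R.twI (L.R.cc φ * μ⁻¹) (L.R.linI μ) = L.R.linI (L.R.cc φ) := by
    rw [L.R.twI_linI, L.mul_inv_mul']
  rw [htw] at hξ1
  rw [L.deg_single_orbit 1 he1 Λ μ hμ hΛ] at hξdeg
  have hξc := isChar_of_irr ξ.2
  have hΓ := pc_isChar hχc hξc
  have horb1 : ∀ κ : L.R.Z →* ℂˣ, L.conjA (L.R.cc φ) κ → κ = L.R.cc φ := by
    intro κ hc
    have h1 := L.orbitA_card 1 he1 (L.R.cc φ) hφ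
    have h2 : κ ∈ Finset.univ.filter (fun μ' : L.R.Z →* ℂˣ => L.conjA (L.R.cc φ) μ') :=
      Finset.mem_filter.mpr ⟨Finset.mem_univ _, hc⟩
    have h3 : L.R.cc φ ∈ Finset.univ.filter
        (fun μ' : L.R.Z →* ℂˣ => L.conjA (L.R.cc φ) μ') :=
      Finset.mem_filter.mpr ⟨Finset.mem_univ _, L.conjA_refl _⟩
    exact Finset.card_le_one.mp h1.le κ h2 _ h3
  have hall : ∀ ψ₀ : IrrCharacter G, gmult (pc (χ : G → ℂ) (ξ : G → ℂ)) ψ₀ ≠ 0 →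
      ψ₀ = Cfsg.Agent.Helper79.trivIrr G := by
    intro ψ₀ hg
    by_contra hne
    obtain ⟨φ', hφ'm, hφ'cc⟩ := L.exists_nontriv hK ψ₀ hne
    have hΓφ' : L.mult (pc (χ : G → ℂ) (ξ : G → ℂ)) φ' ≠ 0 := by
      have := L.mult_le_of_gmult hΓ ψ₀ hg φ'
      omega
    obtain ⟨φ₁, φ₂, hm1, hm2, hin⟩ := L.mult_pc_ne_zero hχc hξc φ' hΓφ'
    have hgr := L.R.cc_grading φ₁ φ₂ φ' hin
    have hc1 : L.conjN φ φ₁ := by
      by_contra hc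
      rw [hχ φ₁, if_neg hc] at hm1
      exact hm1 rfl
    have hcc1 : L.R.cc φ₁ = L.R.cc φ := horb1 _ (L.conjN_cc hc1)
    have hcc2ne : L.R.cc φ₂ ≠ 1 := by
      intro h
      rw [hξ2 φ₂ h, hΛ φ₂, if_neg (L.not_conjN_of_cc hccμ h)] at hm2
      exact hm2 rfl
    have hc2 : L.conjN (L.R.linI (L.R.cc φ)) φ₂ := by
      by_contra hc
      rw [hξ1 φ₂ hcc2ne, if_neg hc] at hm2
      exact hm2 rfl
    have hcc2 : L.R.cc φ₂ = L.R.cc φ := by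
      have := L.conjN_cc hc2
      rw [L.R.cc_linI] at this
      exact horb1 _ this
    rw [hcc1, hcc2] at hgr
    apply hφ'cc
    rw [hgr]
    exact mul_inv_cancel (L.R.cc φ)
  have hdeg := deg_eq_sum_gmult hΓ
  rw [charDegree_pc hχc hξc, hξdeg, mul_one,
    Finset.sum_eq_single (Cfsg.Agent.Helper79.trivIrr G)] at hdeg
  · rw [gmult_pc_triv, leo_deg_triv] at hdeg
    split_ifs at hdeg <;> omega
  · intro ψ₀ _ hne
    by_cases hg : gmult (pc (χ : G → ℂ) (ξ : G → ℂ)) ψ₀ = 0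
    · rw [hg, zero_mul]
    · exact absurd (hall ψ₀ hg) hne
  · intro h
    exact absurd (Finset.mem_univ _) h

/-- The abstract form of the Brauer–Leonard theorem: in a Leonard configuration without
nonprincipal irreducible characters trivial on the retract, there is no irreducible character
of degree `d ≥ 2` with `d ^ 2 + 1 < q`. -/
theorem leo_main (e : ℕ) (he : Nat.card L.N = e * Nat.card L.C)
    (hK : ∀ ψ : IrrCharacter G, (∀ z : L.R.Z, (ψ : G → ℂ) ((z : L.C) : G) = (ψ : G → ℂ) 1) →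
      ψ = Cfsg.Agent.Helper79.trivIrr G)
    (χ : IrrCharacter G) (hd : 2 ≤ charDegree (χ : G → ℂ))
    (hdeg : charDegree (χ : G → ℂ) ^ 2 + 1 < Nat.card L.R.Z) : False := by
  obtain ⟨φ, hφ, hχ, hed⟩ := L.chi_structure e he hK χ hd hdeg
  obtain ⟨Λ, μ, hμ, hΛ⟩ := L.exists_Lambda e he χ hd hdeg φ hφ hχ hed
  have he1 : e = 1 := L.e_one_of_Lambda e he hK Λ μ hμ hΛ (by nlinarith)
  subst he1
  exact L.final_contra he hK χ hd φ hφ hχ Λ μ hμ hΛ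

end LeoCfg

end

end Cfsg.Agent.Helper15
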