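import Mathlib
import Cfsg.Prelude.Def_Characters
import Cfsg.Agent.Helper15.LeoMain3

set_option autoImplicit false

namespace Cfsg.Agent.Helper15

open Cfsg
open scoped ComplexConjugate Classical

noncomputable section

section Conc

variable {G : Type*} [Group G] [Finite G] {p : ℕ} [Fact p.Prime] (P : Sylow p G)

omit [Finite G] in
theorem leo_conj_pow (y c : G) (k : ℕ) : (y⁻¹ * c * y) ^ k = y⁻¹ * c ^ k * y := by
  have h := conj_pow (i := k) (a := y⁻¹) (b := c)
  rw [inv_inv] at h
  exact h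

omit [Finite G] [Fact p.Prime] in
/-- A `p`-element centralizing a Sylow `p`-subgroup lies in it. -/
theorem leo_mem_sylow (x : G) (hx : x ∈ Subgroup.centralizer ((P : Subgroup G) : Set G))
    (n : ℕ) (hxn : x ^ (p ^ n) = 1) : x ∈ (P : Subgroup G) := by
  have h1 : IsPGroup p (Subgroup.zpowers x) := by
    rintro ⟨y, hy⟩
    obtain ⟨j, rfl⟩ := Subgroup.mem_zpowers_iff.mp hy
    refine ⟨n, ?_⟩
    apply Subtype.ext
    simp only [SubmonoidClass.mk_pow, Subgroup.coe_one]
    rw [← zpow_natCast, ← zpow_mul, mul_comm, zpow_mul, zpow_natCast, hxn, one_zpow]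
  have h2 : Subgroup.zpowers x ≤ Subgroup.normalizer ((P : Subgroup G) : Set G) := by
    rw [Subgroup.zpowers_le]
    exact Subgroup.centralizer_le_normalizer _ hx
  have h3 : IsPGroup p ((Subgroup.zpowers x) ⊔ (P : Subgroup G) : Subgroup G) :=
    IsPGroup.to_sup_of_normal_right' h1 P.2 h2
  have h4 := P.is_maximal' h3 le_sup_right
  have h5 : x ∈ (Subgroup.zpowers x) ⊔ (P : Subgroup G) :=
    Subgroup.mem_sup_left (Subgroup.mem_zpowers x)
  rw [h4] at h5
  exact h5

/-- The exponent defining the retraction of `C_G(P)` onto `P`. -/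
theorem leo_exists_k
    (hPC : (P : Subgroup G) ≤ Subgroup.centralizer ((P : Subgroup G) : Set G))
    (hq : 1 < Nat.card P) :
    ∃ k : ℕ,
      (∀ c : Subgroup.centralizer ((P : Subgroup G) : Set G),
        ((c ^ k : Subgroup.centralizer ((P : Subgroup G) : Set G)) : G) ∈ (P : Subgroup G)) ∧
      (∀ x ∈ (P : Subgroup G), x ^ k = x) ∧
      (∀ c c' : Subgroup.centralizer ((P : Subgroup G) : Set G),
        (c * c') ^ k = c ^ k * c' ^ k) := by
  obtain ⟨a, ha⟩ := IsPGroup.iff_card.mp P.isPGroup'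
  have hZcard : Nat.card ((P : Subgroup G).subgroupOf
      (Subgroup.centralizer ((P : Subgroup G) : Set G))) = Nat.card P :=
    Nat.card_congr (Subgroup.subgroupOfEquivOfLe hPC).toEquiv
  have hndvd : ¬ p ∣ ((P : Subgroup G).subgroupOf
      (Subgroup.centralizer ((P : Subgroup G) : Set G))).index := by
    have := (P.subtype hPC).not_dvd_index
    rw [Sylow.coe_subtype] at this
    exact this
  have hcop : Nat.Coprime ((P : Subgroup G).subgroupOf
      (Subgroup.centralizer ((P : Subgroup G) : Set G))).index (Nat.card P) := by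
    rw [ha]
    apply Nat.Coprime.pow_right
    exact ((Nat.Prime.coprime_iff_not_dvd (Fact.out)).mpr hndvd).symm
  obtain ⟨m', -, hm'⟩ := Nat.exists_mul_mod_eq_one_of_coprime hcop hq
  have hZcen : (P : Subgroup G).subgroupOf (Subgroup.centralizer ((P : Subgroup G) : Set G)) ≤
      Subgroup.center (Subgroup.centralizer ((P : Subgroup G) : Set G)) := by
    intro z hz
    rw [Subgroup.mem_center_iff]
    intro g
    apply Subtype.ext
    exact (Subgroup.mem_centralizer_iff.mp g.2 _ (Subgroup.mem_subgroupOf.mp hz)).symm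
  obtain ⟨j, hj⟩ := Subgroup.index_dvd_of_le hZcen
  have hcardC : ((P : Subgroup G).subgroupOf
      (Subgroup.centralizer ((P : Subgroup G) : Set G))).index * Nat.card P =
      Nat.card (Subgroup.centralizer ((P : Subgroup G) : Set G)) := by
    rw [← hZcard]
    exact Subgroup.index_mul_card _
  refine ⟨((P : Subgroup G).subgroupOf
      (Subgroup.centralizer ((P : Subgroup G) : Set G))).index * m', ?_, ?_, ?_⟩
  · intro c
    apply leo_mem_sylow P _ (c ^ _).2 a
    rw [← ha]
    have h1 : (c ^ (((P : Subgroup G).subgroupOf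
      (Subgroup.centralizer ((P : Subgroup G) : Set G))).index * m')) ^ Nat.card P = 1 := by
      rw [← pow_mul, mul_right_comm, hcardC, pow_mul, pow_card_eq_one', one_pow]
    have h2 := congrArg (fun c : Subgroup.centralizer ((P : Subgroup G) : Set G) => (c : G)) h1
    simpa using h2
  · intro x hx
    have hxq : x ^ Nat.card P = 1 := by
      have h1 : (⟨x, hx⟩ : (P : Subgroup G)) ^ Nat.card P = 1 := pow_card_eq_one'
      have h2 : (((⟨x, hx⟩ : (P : Subgroup G)) ^ Nat.card P : (P : Subgroup G)) : G) =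
          ((1 : (P : Subgroup G)) : G) := congrArg Subtype.val h1
      rw [Subgroup.coe_pow, Subgroup.coe_one] at h2
      exact h2
    conv_lhs => rw [← Nat.mod_add_div (((P : Subgroup G).subgroupOf
      (Subgroup.centralizer ((P : Subgroup G) : Set G))).index * m') (Nat.card P)]
    rw [pow_add, pow_mul, hxq, one_pow, mul_one, hm', pow_one]
  · intro c c'
    rw [hj, mul_assoc, pow_mul, pow_mul c, pow_mul c']
    have h1 := (MonoidHom.transferCenterPow
      (Subgroup.centralizer ((P : Subgroup G) : Set G))).map_mul c c'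
    have h2 : (c * c') ^ (Subgroup.center
        (Subgroup.centralizer ((P : Subgroup G) : Set G))).index =
        c ^ (Subgroup.center (Subgroup.centralizer ((P : Subgroup G) : Set G))).index *
        c' ^ (Subgroup.center (Subgroup.centralizer ((P : Subgroup G) : Set G))).index :=
      congrArg Subtype.val h1
    rw [h2]
    apply Commute.mul_pow
    have h3 := (Subgroup.center (Subgroup.centralizer ((P : Subgroup G) : Set G))).pow_index_mem c'
    exact Subgroup.mem_center_iff.mp h3 _

omit [Fact p.Prime] in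
/-- The free action: if `y` normalizes `P` and does not centralize it, then
`x ↦ x⁻¹ (y⁻¹ x y)` is surjective on `P`. -/
theorem leo_free_surj
    (hstar : ∀ x ∈ (P : Subgroup G), x ≠ 1 → Subgroup.centralizer ({x} : Set G) =
      Subgroup.centralizer ((P : Subgroup G) : Set G))
    (y : G) (hy : ∀ x ∈ (P : Subgroup G), y⁻¹ * x * y ∈ (P : Subgroup G))
    (hyC : y ∉ Subgroup.centralizer ((P : Subgroup G) : Set G)) :
    ∀ w ∈ (P : Subgroup G), ∃ x ∈ (P : Subgroup G), w = x⁻¹ * (y⁻¹ * x * y) := by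
  let f : ↥(P : Subgroup G) → ↥(P : Subgroup G) := fun x =>
    ⟨(x : G)⁻¹ * (y⁻¹ * x * y),
      (P : Subgroup G).mul_mem ((P : Subgroup G).inv_mem x.2) (hy x x.2)⟩
  have hinj : Function.Injective f := by
    intro x x' hxx
    have h1 : (x : G)⁻¹ * (y⁻¹ * x * y) = (x' : G)⁻¹ * (y⁻¹ * x' * y) :=
      congrArg Subtype.val hxx
    have h2 : y⁻¹ * ((x' : G) * (x : G)⁻¹) * y = (x' : G) * (x : G)⁻¹ := by
      have e1 : y⁻¹ * (x : G) * y = x * ((x : G)⁻¹ * (y⁻¹ * x * y)) := by group
      have e2 : y⁻¹ * (x' : G) * y = x' * ((x' : G)⁻¹ * (y⁻¹ * x' * y)) := by group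
      have e3 : y⁻¹ * ((x' : G) * (x : G)⁻¹) * y = (y⁻¹ * x' * y) * (y⁻¹ * x * y)⁻¹ := by
        group
      rw [e3, e2, e1, ← h1]
      group
    by_contra hne
    have hu1 : (x' : G) * (x : G)⁻¹ ≠ 1 := by
      intro h
      apply hne
      apply Subtype.ext
      rw [mul_inv_eq_one] at h
      exact h.symm
    have huP : (x' : G) * (x : G)⁻¹ ∈ (P : Subgroup G) :=
      (P : Subgroup G).mul_mem x'.2 ((P : Subgroup G).inv_mem x.2)
    have hcen := hstar _ huP hu1
    apply hyC
    rw [← hcen, Subgroup.mem_centralizer_iff]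
    intro h hh
    rw [Set.mem_singleton_iff] at hh
    rw [hh]
    calc (x' : G) * (x : G)⁻¹ * y = y * (y⁻¹ * ((x' : G) * (x : G)⁻¹) * y) := by group
      _ = y * ((x' : G) * (x : G)⁻¹) := by rw [h2]
  have hsurj : Function.Surjective f := Finite.injective_iff_surjective.mp hinj
  intro w hw
  obtain ⟨x, hx⟩ := hsurj ⟨w, hw⟩
  exact ⟨x, x.2, (congrArg Subtype.val hx).symm⟩

/-- The Leonard configuration attached to a Sylow subgroup all of whose nonidentity elements
have the same centralizer. -/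
theorem exists_leoCfg
    (hstar : ∀ x ∈ (P : Subgroup G), x ≠ 1 → Subgroup.centralizer ({x} : Set G) =
      Subgroup.centralizer ((P : Subgroup G) : Set G))
    (hq : 1 < Nat.card P) :
    ∃ L : LeoCfg G, Nat.card L.R.Z = Nat.card P ∧
      (∀ x ∈ (P : Subgroup G), ∃ z : L.R.Z, ((z : L.C) : G) = x) := by
  have hPC : (P : Subgroup G) ≤ Subgroup.centralizer ((P : Subgroup G) : Set G) := by
    intro x hx
    by_cases h1 : x = 1
    · rw [h1]; exact Subgroup.one_mem _
    · rw [← hstar x hx h1, Subgroup.mem_centralizer_iff]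
      intro h hh
      rw [Set.mem_singleton_iff] at hh
      rw [hh]
  obtain ⟨k, hk1, hk2, hk3⟩ := leo_exists_k P hPC hq
  obtain ⟨a, ha⟩ := IsPGroup.iff_card.mp P.isPGroup'
  have hnorm : ∀ y ∈ Subgroup.normalizer
      ((Subgroup.centralizer ((P : Subgroup G) : Set G) : Subgroup G) : Set G),
      ∀ c ∈ Subgroup.centralizer ((P : Subgroup G) : Set G),
      y⁻¹ * c * y ∈ Subgroup.centralizer ((P : Subgroup G) : Set G) :=
    fun y hy c hc => (Subgroup.mem_normalizer_iff''.mp hy c).mp hc
  have hpowq : ∀ x ∈ (P : Subgroup G), x ^ Nat.card P = 1 := by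
    intro x hx
    have h1 : (⟨x, hx⟩ : (P : Subgroup G)) ^ Nat.card P = 1 := pow_card_eq_one'
    have h2 : (((⟨x, hx⟩ : (P : Subgroup G)) ^ Nat.card P : (P : Subgroup G)) : G) =
        ((1 : (P : Subgroup G)) : G) := congrArg Subtype.val h1
    rw [Subgroup.coe_pow, Subgroup.coe_one] at h2
    exact h2
  have hNP : ∀ y ∈ Subgroup.normalizer
      ((Subgroup.centralizer ((P : Subgroup G) : Set G) : Subgroup G) : Set G),
      ∀ x ∈ (P : Subgroup G), y⁻¹ * x * y ∈ (P : Subgroup G) := by
    intro y hy x hx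
    apply leo_mem_sylow P _ (hnorm y hy x (hPC hx)) a
    rw [leo_conj_pow, ← ha, hpowq x hx]
    group
  let R : CRet (Subgroup.centralizer ((P : Subgroup G) : Set G)) :=
    { Z := (P : Subgroup G).subgroupOf (Subgroup.centralizer ((P : Subgroup G) : Set G))
      π :=
        { toFun := fun c => ⟨c ^ k, Subgroup.mem_subgroupOf.mpr (hk1 c)⟩
          map_one' := Subtype.ext (one_pow k)
          map_mul' := fun c c' => Subtype.ext (hk3 c c') }
      hπ := fun z => Subtype.ext (Subtype.ext (hk2 _ (Subgroup.mem_subgroupOf.mp z.2)))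
      hZ := fun z x => Subtype.ext
        (Subgroup.mem_centralizer_iff.mp x.2 _ (Subgroup.mem_subgroupOf.mp z.2)) }
  have hRπ : ∀ c : Subgroup.centralizer ((P : Subgroup G) : Set G),
      (((R.π c : R.Z) : Subgroup.centralizer ((P : Subgroup G) : Set G)) : G) = (c : G) ^ k :=
    fun c => rfl
  have keyg : ∀ z : G, Subgroup.centralizer ({z} : Set G) =
      Subgroup.centralizer ((P : Subgroup G) : Set G) →
      ∀ h : G, h ∈ Subgroup.centralizer ((P : Subgroup G) : Set G) ↔ z * h = h * z := by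
    intro z hz h
    rw [← hz, Subgroup.mem_centralizer_iff]
    constructor
    · intro hh
      exact hh _ rfl
    · intro hh g hg
      rw [Set.mem_singleton_iff] at hg
      rw [hg]
      exact hh
  refine ⟨⟨Subgroup.centralizer ((P : Subgroup G) : Set G), Subgroup.normalizer
      ((Subgroup.centralizer ((P : Subgroup G) : Set G) : Subgroup G) : Set G), R,
      Subgroup.le_normalizer, hnorm, ?_, ?_, ?_⟩, ?_, ?_⟩
  · intro y hy c
    rw [hRπ, hRπ]
    exact leo_conj_pow y c k
  · intro y hy μ hμ hfix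
    by_contra hyC
    apply hμ
    have hsurj := leo_free_surj P hstar y (hNP y hy) hyC
    refine MonoidHom.ext fun w => ?_
    obtain ⟨x, hx, hwx⟩ := hsurj _ (Subgroup.mem_subgroupOf.mp w.2)
    have h1 := hfix ⟨⟨x, hPC hx⟩, Subgroup.mem_subgroupOf.mpr hx⟩
    have h2 : w = (⟨⟨x, hPC hx⟩, Subgroup.mem_subgroupOf.mpr hx⟩ : R.Z)⁻¹ *
        R.π ⟨y⁻¹ * x * y, hnorm y hy _ (hPC hx)⟩ := by
      apply Subtype.ext
      apply Subtype.ext
      change ((w : Subgroup.centralizer ((P : Subgroup G) : Set G)) : G) =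
        x⁻¹ * (y⁻¹ * x * y) ^ k
      rw [hk2 _ (hNP y hy x hx)]
      exact hwx
    rw [h2, map_mul, map_inv]
    change (μ ⟨⟨x, hPC hx⟩, Subgroup.mem_subgroupOf.mpr hx⟩)⁻¹ *
      μ (R.π ⟨y⁻¹ * x * y, hnorm y hy _ (hPC hx)⟩) = 1
    rw [h1, inv_mul_cancel]
  · intro c hc x hx
    have hz : (c : G) ^ k ∈ (P : Subgroup G) := hk1 c
    have hz1 : (c : G) ^ k ≠ 1 := by
      intro h
      apply hc
      apply Subtype.ext
      apply Subtype.ext
      exact h
    have hz' : (x⁻¹ * (c : G) * x) ^ k ∈ (P : Subgroup G) := hk1 ⟨x⁻¹ * c * x, hx⟩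
    rw [leo_conj_pow] at hz'
    have hz'1 : x⁻¹ * (c : G) ^ k * x ≠ 1 := by
      intro h
      apply hz1
      have e1 : (c : G) ^ k = x * (x⁻¹ * (c : G) ^ k * x) * x⁻¹ := by group
      rw [e1, h]
      group
    have hcen1 := hstar _ hz hz1
    have hcen2 := hstar _ hz' hz'1
    have key := keyg _ hcen1
    have key' := keyg _ hcen2
    rw [Subgroup.mem_normalizer_iff'']
    intro h
    rw [key h, key' (x⁻¹ * h * x)]
    constructor
    · intro hh
      have e1 : x⁻¹ * (c : G) ^ k * x * (x⁻¹ * h * x) = x⁻¹ * ((c : G) ^ k * h) * x := by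
        group
      rw [e1, hh]
      group
    · intro hh
      have e1 : (c : G) ^ k * h =
          x * (x⁻¹ * (c : G) ^ k * x * (x⁻¹ * h * x)) * x⁻¹ := by group
      rw [e1, hh]
      group
  · exact Nat.card_congr (Subgroup.subgroupOfEquivOfLe hPC).toEquiv
  · intro x hx
    exact ⟨⟨⟨x, hPC hx⟩, Subgroup.mem_subgroupOf.mpr hx⟩, rfl⟩

end Conc

end

end Cfsg.Agent.Helper15
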