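import Mathlib
import Cfsg.Prelude.Def_Characters
import Cfsg.Agent.Helper15.LeoConc
import Cfsg.Agent.Helper15.FTLemmaD

set_option autoImplicit false

namespace Cfsg.Agent.Helper15

open Cfsg
open scoped ComplexConjugate Classical

noncomputable section

universe u

/-- Brauer–Leonard, irreducible form: under uniform centralizers, a nonprincipal irreducible
character `χ` with `χ(1)^2 + 1 < |P|` forces a proper normal subgroup containing `P`, or is
linear and `G` has a normal subgroup of index `|P|`. -/
theorem leonard_alt {G : Type u} [Group G] [Finite G] (p : ℕ) (hp : p.Prime) (P : Sylow p G)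
    (hstar : ∀ x ∈ (P : Subgroup G), x ≠ 1 → Subgroup.centralizer ({x} : Set G) =
      Subgroup.centralizer ((P : Subgroup G) : Set G))
    (n : ℕ) (hn : Nat.card P = p ^ n) (χ : Cfsg.IrrCharacter G)
    (h1 : (χ : G → ℂ) ≠ fun _ => 1)
    (hdeg : Cfsg.charDegree (χ : G → ℂ) ^ 2 + 1 < p ^ n) :
    (∃ K : Subgroup G, K.Normal ∧ K ≠ ⊤ ∧ (P : Subgroup G) ≤ K) ∨
      ((∃ N : Subgroup G, N.Normal ∧ N.index = p ^ n) ∧
        Cfsg.charDegree (χ : G → ℂ) = 1) := by
  have : Fact p.Prime := ⟨hp⟩
  by_cases hex : ∃ K : Subgroup G, K.Normal ∧ K ≠ ⊤ ∧ (P : Subgroup G) ≤ K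
  · left
    exact hex
  · right
    push Not at hex
    have hnormal : ∀ M : Subgroup G, M.Normal → (P : Subgroup G) ≤ M → M = ⊤ := by
      intro M hM hPM
      by_contra hne
      exact hex M hM hne hPM
    have hq : 1 < Nat.card P := by
      rw [hn]
      omega
    obtain ⟨L, hLZ, hLP⟩ := exists_leoCfg P hstar hq
    have := Fintype.ofFinite G
    have : Fintype L.C := Fintype.ofFinite _
    have : Fintype L.N := Fintype.ofFinite _
    have : Fintype (IrrCharacter G) := Fintype.ofFinite _
    have : Fintype (IrrCharacter L.C) := Fintype.ofFinite _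
    have : Fintype (L.R.Z →* ℂˣ) := Fintype.ofFinite _
    have hKP : ∀ ψ : IrrCharacter G, (∀ h ∈ (P : Subgroup G), (ψ : G → ℂ) h = (ψ : G → ℂ) 1) →
        ψ = Cfsg.Agent.Helper79.trivIrr G := by
      intro ψ hψ
      apply Subtype.ext
      exact irr_eq_one_of_ker_ge (P : Subgroup G) hnormal (ψ : G → ℂ) ψ.2 hψ
    have hK : ∀ ψ : IrrCharacter G,
        (∀ z : L.R.Z, (ψ : G → ℂ) ((z : L.C) : G) = (ψ : G → ℂ) 1) →
        ψ = Cfsg.Agent.Helper79.trivIrr G := by
      intro ψ hψ
      apply hKP
      intro h hh
      obtain ⟨z, hz⟩ := hLP h hh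
      rw [← hz]
      exact hψ z
    obtain ⟨e, he⟩ : ∃ e, Nat.card L.N = e * Nat.card L.C := by
      obtain ⟨e, he⟩ := Subgroup.card_dvd_of_le L.hCN
      exact ⟨e, by rw [he, mul_comm]⟩
    have hd1 : charDegree (χ : G → ℂ) = 1 := by
      by_contra hne
      have hpos := Cfsg.Agent.Helper80.irr_degree_pos χ
      exact L.leo_main e he hK χ (by omega) (by rw [hLZ, hn]; exact hdeg)
    refine ⟨?_, hd1⟩
    -- the linear case: Burnside's transfer theorem
    have hχ1 : (χ : G → ℂ) 1 = 1 := by
      rw [Cfsg.Agent.Helper80.irr_one_eq χ, hd1]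
      simp
    obtain ⟨f, hf⟩ := Cfsg.Agent.Helper79.isCharacter_linear (isChar_of_irr χ.2) hχ1
    have hx₀ : ∃ x₀ ∈ (P : Subgroup G), f x₀ ≠ 1 := by
      by_contra hcon
      push Not at hcon
      apply h1
      have := hKP χ (fun h hh => by rw [hf h, hχ1, hcon h hh]; simp)
      rw [this]
      rfl
    obtain ⟨x₀, hx₀P, hx₀⟩ := hx₀
    have hNC : Subgroup.normalizer ((P : Subgroup G) : Set G) ≤
        Subgroup.centralizer ((P : Subgroup G) : Set G) := by
      intro y hy
      by_contra hyC
      have hy' : ∀ x ∈ (P : Subgroup G), y⁻¹ * x * y ∈ (P : Subgroup G) :=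
        fun x hx => (Subgroup.mem_normalizer_iff''.mp hy x).mp hx
      obtain ⟨x, -, hx⟩ := leo_free_surj P hstar y hy' hyC x₀ hx₀P
      apply hx₀
      rw [hx, map_mul, map_mul, map_mul, map_inv, map_inv]
      rw [mul_comm (f y)⁻¹ (f x), mul_assoc, inv_mul_cancel, mul_one, inv_mul_cancel]
    refine ⟨(MonoidHom.transferSylow P hNC).ker, MonoidHom.normal_ker _, ?_⟩
    rw [← hn]
    exact (MonoidHom.ker_transferSylow_isComplement' P hNC).symm.index_eq_card

/-- Auxiliary form of the faithful version, by induction on the group order. -/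
theorem leonard_faithful_aux (p : ℕ) (hp : p.Prime) (n : ℕ) :
    ∀ (N : ℕ) (G : Type u) [Group G] [Finite G], Nat.card G = N → ∀ (P : Sylow p G),
      (∀ x ∈ (P : Subgroup G), x ≠ 1 → Subgroup.centralizer ({x} : Set G) =
        Subgroup.centralizer ((P : Subgroup G) : Set G)) →
      Nat.card P = p ^ n → ∀ (χ : G → ℂ), Cfsg.IsCharacter G χ →
      (∀ g : G, χ g = χ 1 → g = 1) → Cfsg.charDegree χ ^ 2 + 1 < p ^ n →
      (P : Subgroup G).Normal := by
  have : Fact p.Prime := ⟨hp⟩
  intro N
  induction N using Nat.strong_induction_on with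
  | _ N ih =>
    intro G _ _ hN P hstar hn χ hχ hfaith hdeg
    by_cases hex : ∃ K : Subgroup G, K.Normal ∧ K ≠ ⊤ ∧ (P : Subgroup G) ≤ K
    · obtain ⟨K, hKn, hKt, hPK⟩ := hex
      have hcard : Nat.card K < N := by
        rw [← hN]
        refine lt_of_le_of_ne (Subgroup.card_le_card_group K) ?_
        intro h
        exact hKt (Subgroup.eq_top_of_card_eq K h)
      have hmem : ∀ x : K, x ∈ ((P.subtype hPK : Sylow p K) : Subgroup K) ↔
          (x : G) ∈ (P : Subgroup G) := by
        intro x
        rw [Sylow.coe_subtype, Subgroup.mem_subgroupOf]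
      have hPKn : ((P.subtype hPK : Sylow p K) : Subgroup K).Normal := by
        refine ih (Nat.card K) hcard K rfl (P.subtype hPK) ?_ ?_ (fun k : K => χ k)
          (Cfsg.Agent.Helper79.isCharacter_restrict hχ K) ?_ ?_
        · intro x hx hx1
          have hx' : (x : G) ∈ (P : Subgroup G) := (hmem x).mp hx
          have hx1' : (x : G) ≠ 1 := fun h => hx1 (Subtype.ext h)
          have hcen := hstar _ hx' hx1'
          ext c
          rw [Subgroup.mem_centralizer_iff, Subgroup.mem_centralizer_iff]
          have hc : (c : G) ∈ Subgroup.centralizer ({(x : G)} : Set G) ↔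
              (c : G) ∈ Subgroup.centralizer ((P : Subgroup G) : Set G) := by rw [hcen]
          rw [Subgroup.mem_centralizer_iff, Subgroup.mem_centralizer_iff] at hc
          constructor
          · intro h1 g hg
            apply Subtype.ext
            apply hc.mp
            · intro h hh
              rw [Set.mem_singleton_iff] at hh
              rw [hh]
              exact congrArg Subtype.val (h1 x rfl)
            · exact (hmem g).mp hg
          · intro h1 g hg
            rw [Set.mem_singleton_iff] at hg
            rw [hg]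
            apply Subtype.ext
            apply hc.mpr
            · intro h hh
              exact congrArg Subtype.val (h1 ⟨h, hPK hh⟩ ((hmem _).mpr hh))
            · exact rfl
        · rw [Sylow.coe_subtype, Nat.card_congr (Subgroup.subgroupOfEquivOfLe hPK).toEquiv]
          exact hn
        · intro k hk
          apply Subtype.ext
          exact hfaith (k : G) hk
        · exact hdeg
      have := hKn
      have := Sylow.characteristic_of_normal (P.subtype hPK) hPKn
      have hmap : ((P.subtype hPK : Sylow p K) : Subgroup K).map K.subtype =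
          (P : Subgroup G) := by
        rw [Sylow.coe_subtype, Subgroup.subgroupOf_map_subtype]
        exact inf_of_le_left hPK
      rw [← hmap]
      exact ConjAct.normal_of_characteristic_of_normal
    · push Not at hex
      have := Fintype.ofFinite G
      have : Fintype (IrrCharacter G) := Fintype.ofFinite _
      -- every irreducible constituent is linear
      have hlin : ∀ ψ : IrrCharacter G, gmult χ ψ ≠ 0 →
          ∀ g ∈ commutator G, (ψ : G → ℂ) g = (ψ : G → ℂ) 1 := by
        intro ψ hg g hgc
        have hψdeg : charDegree (ψ : G → ℂ) = 1 := by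
          by_cases ht : (ψ : G → ℂ) = fun _ => 1
          · have h2 := Cfsg.Agent.Helper80.irr_one_eq ψ
            rw [ht] at h2
            rw [ht]
            have h3 : (1 : ℂ) = (charDegree (fun _ : G => (1 : ℂ)) : ℂ) := h2
            exact_mod_cast h3.symm
          · have hle : charDegree (ψ : G → ℂ) ≤ charDegree χ :=
              LeoCfg.deg_le_of_gmult hχ ψ hg
            have hdeg' : charDegree (ψ : G → ℂ) ^ 2 + 1 < p ^ n := by
              have : charDegree (ψ : G → ℂ) ^ 2 ≤ charDegree χ ^ 2 :=
                Nat.pow_le_pow_left hle 2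
              omega
            rcases leonard_alt p hp P hstar n hn ψ ht hdeg' with ⟨K, hK1, hK2, hK3⟩ | ⟨-, h⟩
            · exact absurd hK3 (hex K hK1 hK2)
            · exact h
        have hψ1 : (ψ : G → ℂ) 1 = 1 := by
          rw [Cfsg.Agent.Helper80.irr_one_eq ψ, hψdeg]
          simp
        obtain ⟨f, hf⟩ := Cfsg.Agent.Helper79.isCharacter_linear (isChar_of_irr ψ.2) hψ1
        rw [hf g, Cfsg.Agent.Helper79.hom_apply_eq_one_of_mem_commutator f hgc, hψ1]
        simp
      have hcomm : commutator G = ⊥ := by
        rw [Subgroup.eq_bot_iff_forall]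
        intro g hg
        apply hfaith
        have hsum := char_eq_sum_gmult hχ
        have e1 := congrFun hsum g
        have e2 := congrFun hsum 1
        rw [Finset.sum_apply] at e1 e2
        rw [e1, e2]
        apply Finset.sum_congr rfl
        intro ψ _
        rw [Pi.smul_apply, Pi.smul_apply]
        by_cases hgm : gmult χ ψ = 0
        · rw [hgm]
          simp
        · rw [hlin ψ hgm g hg]
      have hcen : Subgroup.center G = ⊤ := (commutator_eq_bot_iff_center_eq_top G).mp hcomm
      constructor
      intro x hx g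
      have hg : g ∈ Subgroup.center G := by rw [hcen]; exact Subgroup.mem_top g
      have : g * x * g⁻¹ = x := by
        rw [Subgroup.mem_center_iff] at hg
        rw [← hg x]
        group
      rw [this]
      exact hx

/-- Brauer–Leonard, faithful form. -/
theorem leonard_faithful {G : Type u} [Group G] [Finite G] (p : ℕ) (hp : p.Prime)
    (P : Sylow p G)
    (hstar : ∀ x ∈ (P : Subgroup G), x ≠ 1 → Subgroup.centralizer ({x} : Set G) =
      Subgroup.centralizer ((P : Subgroup G) : Set G))
    (n : ℕ) (hn : Nat.card P = p ^ n) (χ : G → ℂ) (hχ : Cfsg.IsCharacter G χ)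
    (hfaith : ∀ g : G, χ g = χ 1 → g = 1) (hdeg : Cfsg.charDegree χ ^ 2 + 1 < p ^ n) :
    (P : Subgroup G).Normal :=
  leonard_faithful_aux p hp n (Nat.card G) G rfl P hstar hn χ hχ hfaith hdeg

end

end Cfsg.Agent.Helper15
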