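import Mathlib
import Cfsg.Agent.Helper15.LinExt

set_option autoImplicit false

namespace Cfsg.Agent.Helper15

open Subgroup Subgroup.leftTransversals MonoidHom

section LinExtSylow

variable {G : Type*} [Group G]

/-- The transfer from `H` to `G` of a homomorphism on `H`, evaluated on a normal subgroup `N ≤ H`
on which the homomorphism is `G`-invariant. -/
theorem transfer_apply_of_mem_normal_le {H N : Subgroup G} [hN : N.Normal] [H.FiniteIndex]
    (hNH : N ≤ H) (ν : H →* ℂˣ)
    (hinv : ∀ (g : G) (n : N), ν ⟨g * n * g⁻¹, hNH (hN.conj_mem (n : G) n.2 g)⟩ =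
      ν ⟨n, hNH n.2⟩) (n : N) :
    transfer ν (n : G) = ν ⟨n, hNH n.2⟩ ^ H.index := by
  classical
  letI := H.fintypeQuotientOfFiniteIndex
  have hinv' : ∀ (y : G) (x : N) (h : y⁻¹ * x * y ∈ H), ν ⟨y⁻¹ * x * y, h⟩ = ν ⟨x, hNH x.2⟩ := by
    intro y x h
    have h1 := hinv y⁻¹ x
    simp only [inv_inv] at h1
    exact h1
  rw [transfer_def ν default (n : G)]
  unfold diff
  simp only
  have hq : ∀ q : G ⧸ H, (n : G)⁻¹ • q = q := by
    intro q
    induction q using QuotientGroup.induction_on with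
    | H y =>
      rw [MulAction.Quotient.smul_mk, QuotientGroup.eq]
      simp only [smul_eq_mul, mul_inv_rev, inv_inv]
      have h1 : y⁻¹ * (n : G) * y ∈ N := by
        have := hN.conj_mem (n : G) n.2 y⁻¹
        simpa using this
      simpa [mul_assoc] using hNH h1
  have key : ∀ q : G ⧸ H, ∀ h,
      ν ⟨((default : H.LeftTransversal).2.leftQuotientEquiv q : G)⁻¹ *
        (((n : G) • (default : H.LeftTransversal)).2.leftQuotientEquiv q : G), h⟩ =
        ν ⟨n, hNH n.2⟩ := by
    intro q h
    have h2 : ((((n : G) • (default : H.LeftTransversal)).2.leftQuotientEquiv q : G)) =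
        (n : G) * ((default : H.LeftTransversal).2.leftQuotientEquiv q : G) := by
      rw [smul_apply_eq_smul_apply_inv_smul, hq q, smul_eq_mul]
    have h3 : (⟨((default : H.LeftTransversal).2.leftQuotientEquiv q : G)⁻¹ *
        (((n : G) • (default : H.LeftTransversal)).2.leftQuotientEquiv q : G), h⟩ : H) =
        ⟨((default : H.LeftTransversal).2.leftQuotientEquiv q : G)⁻¹ * (n : G) *
          ((default : H.LeftTransversal).2.leftQuotientEquiv q : G), by
            rw [mul_assoc, ← h2]; exact h⟩ := by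
      apply Subtype.ext
      simp only
      rw [h2, mul_assoc]
    rw [h3, hinv']
  rw [Finset.prod_congr rfl (fun q _ => key q _), Finset.prod_const, Finset.card_univ]
  congr 1
  rw [Subgroup.index, Nat.card_eq_fintype_card]

/-- Restriction of homomorphisms to a subgroup, as a homomorphism. -/
def resHom (N : Subgroup G) : (G →* ℂˣ) →* (N →* ℂˣ) where
  toFun F := F.comp N.subtype
  map_one' := rfl
  map_mul' _ _ := rfl

theorem resHom_apply (N : Subgroup G) (F : G →* ℂˣ) (n : N) : resHom N F n = F n := rfl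

/-- An invariant homomorphism on a normal subgroup `N` extends to `G` if for every prime `p`
dividing its order it extends to a subgroup of index prime to `p`. -/
theorem exists_hom_extension_of_sylow [Finite G] (N : Subgroup G) [hN : N.Normal]
    (f : N →* ℂˣ)
    (hinv : ∀ (g : G) (n : N), f ⟨g * n * g⁻¹, hN.conj_mem (n : G) n.2 g⟩ = f n)
    (hsyl : ∀ p : ℕ, p.Prime → p ∣ orderOf f → ∃ (H : Subgroup G) (hNH : N ≤ H)
      (ν : H →* ℂˣ), Nat.Coprime H.index p ∧ ∀ n : N, ν ⟨(n : G), hNH n.2⟩ = f n) :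
    ∃ F : G →* ℂˣ, ∀ n : N, F n = f n := by
  have key : ∀ p : ℕ, p.Prime → p ∣ orderOf f →
      ∃ m : ℕ, Nat.Coprime m p ∧ f ^ m ∈ (resHom N).range := by
    intro p hp hpo
    obtain ⟨H, hNH, ν, hcop, hν⟩ := hsyl p hp hpo
    refine ⟨H.index, hcop, transfer ν, ?_⟩
    ext n
    have h1 : resHom N (transfer ν) n = transfer ν (n : G) := rfl
    rw [h1, transfer_apply_of_mem_normal_le hNH ν _ n, hν n]
    · rfl
    · intro g n
      have h2 := hν ⟨g * n * g⁻¹, hN.conj_mem (n : G) n.2 g⟩
      simp only at h2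
      rw [h2, hinv, hν n]
  haveI hnorm : ((resHom N).range).Normal :=
    ⟨fun n hn g => by
      have h : g * n * g⁻¹ = n := by
        ext x
        simp [mul_comm]
      rw [h]; exact hn⟩
  suffices hmem : f ∈ (resHom N).range by
    obtain ⟨F, hF⟩ := hmem
    exact ⟨F, fun n => by rw [← hF]; rfl⟩
  rw [← QuotientGroup.eq_one_iff, ← orderOf_eq_one_iff]
  by_contra hne
  obtain ⟨q, hq, hqd⟩ := Nat.exists_prime_and_dvd hne
  have ho : orderOf (QuotientGroup.mk f : (N →* ℂˣ) ⧸ (resHom N).range) ∣ orderOf f := by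
    apply orderOf_dvd_of_pow_eq_one
    rw [← QuotientGroup.mk_pow, pow_orderOf_eq_one]
    rfl
  obtain ⟨m, hm, hfm⟩ := key q hq (hqd.trans ho)
  have hom : orderOf (QuotientGroup.mk f : (N →* ℂˣ) ⧸ (resHom N).range) ∣ m := by
    apply orderOf_dvd_of_pow_eq_one
    rw [← QuotientGroup.mk_pow]
    exact (QuotientGroup.eq_one_iff _).mpr hfm
  have hqm : q ∣ m := hqd.trans hom
  have : q ∣ Nat.gcd m q := Nat.dvd_gcd hqm dvd_rfl
  rw [hm] at this
  exact hq.one_lt.ne' (Nat.dvd_one.mp this)

end LinExtSylow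

end Cfsg.Agent.Helper15
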