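import Mathlib
import Cfsg.Agent.Helper16.NGDefs
import Cfsg.Agent.S0020

/-!
# CALL S4404 (helper16), piece HALL (helper15): a subgroup of odd order containing `Q` and a
conjugate of `E`.
-/

set_option autoImplicit false

namespace Cfsg.Agent.Helper15.NGHALL

variable {S : Type*} [Group S]

/-- A `p`-subgroup is conjugate into any subgroup of index prime to `p`. -/
theorem ng_conj_into [Finite S] (K : Subgroup S) (p : ℕ) (hp : p.Prime)
    (hK : (K.index).Coprime p) (E : Subgroup S) (hE : IsPGroup p ↥E) :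
    ∃ g : S, ∀ e ∈ E, g * e * g⁻¹ ∈ K := by
  classical
  have : Fact p.Prime := ⟨hp⟩
  obtain ⟨P₀⟩ : Nonempty (Sylow p K) := inferInstance
  set P : Subgroup S := (P₀ : Subgroup K).map K.subtype with hPdef
  have hPK : P ≤ K := by
    rintro _ ⟨y, -, rfl⟩
    exact y.2
  have hcard : Nat.card P = p ^ (Nat.card S).factorization p := by
    have h1 : Nat.card P = Nat.card (P₀ : Subgroup K) :=
      Nat.card_congr
        ((P₀ : Subgroup K).equivMapOfInjective K.subtype K.subtype_injective).symm.toEquiv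
    rw [h1, Sylow.card_eq_multiplicity]
    congr 1
    have h2 : Nat.card S = Nat.card K * K.index := (Subgroup.card_mul_index K).symm
    have hK0 : Nat.card K ≠ 0 := Nat.card_pos.ne'
    have hi0 : K.index ≠ 0 := Subgroup.index_ne_zero_of_finite
    rw [h2, Nat.factorization_mul hK0 hi0]
    have h3 : (K.index).factorization p = 0 := by
      apply Nat.factorization_eq_zero_of_not_dvd
      intro hd
      have := Nat.Coprime.eq_one_of_dvd hK.symm hd
      exact hp.one_lt.ne' this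
    simp [h3]
  let P' : Sylow p S := Sylow.ofCard P hcard
  obtain ⟨P₁, hP₁⟩ := hE.exists_le_sylow
  obtain ⟨g, hg⟩ := MulAction.exists_smul_eq S P₁ P'
  refine ⟨g, fun e he => ?_⟩
  have h1 : e ∈ (P₁ : Subgroup S) := hP₁ he
  have h2 : g * e * g⁻¹ ∈ ((g • P₁ : Sylow p S) : Subgroup S) := by
    rw [Sylow.coe_subgroup_smul]
    have := Subgroup.smul_mem_pointwise_smul e (MulAut.conj g) (P₁ : Subgroup S) h1
    simpa [MulAut.smul_def, MulAut.conj_apply] using this
  rw [hg] at h2
  exact hPK h2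

/-- HALL -/
theorem ng_hall [Finite S] [Group.IsSolvable S] (Q : Subgroup S) (hQ3 : IsPGroup 3 ↥Q) (p : ℕ) (hp : p.Prime)
    (hp2 : p ≠ 2) (E : Subgroup S) (hE : IsPGroup p ↥E) :
    ∃ H : Subgroup S, Odd (Nat.card H) ∧ Q ≤ H ∧ ∃ g : S, ∀ e ∈ E, g * e * g⁻¹ ∈ H := by
  classical
  obtain ⟨K, hK⟩ := Cfsg.Agent.S0020.exists_hall_compl (G := S) 2 Nat.prime_two
  have h3 : (K.index).Coprime 3 := by
    rw [hK]; exact Nat.Coprime.pow_left _ (by norm_num)
  have hpc : (K.index).Coprime p := by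
    rw [hK]
    exact Nat.Coprime.pow_left _ ((Nat.coprime_primes Nat.prime_two hp).mpr (Ne.symm hp2))
  obtain ⟨g, hg⟩ := ng_conj_into K 3 Nat.prime_three h3 Q hQ3
  obtain ⟨g', hg'⟩ := ng_conj_into K p hp hpc E hE
  refine ⟨K.map (MulAut.conj g⁻¹).toMonoidHom, ?_, ?_, ?_⟩
  · have h1 : Nat.card (K.map (MulAut.conj g⁻¹).toMonoidHom) = Nat.card K :=
      Nat.card_congr (K.equivMapOfInjective _ (MulAut.conj g⁻¹).injective).symm.toEquiv
    rw [h1]
    have hS0 : Nat.card S ≠ 0 := Nat.card_pos.ne'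
    have h2 : Nat.card K * 2 ^ (Nat.card S).factorization 2 = Nat.card S := by
      rw [← hK]; exact Subgroup.card_mul_index K
    have h4 : Nat.card K = Nat.card S / 2 ^ (Nat.card S).factorization 2 :=
      Nat.eq_div_of_mul_eq_left (pow_pos (by norm_num) _).ne' h2
    rw [← Nat.not_even_iff_odd, even_iff_two_dvd, h4]
    exact Nat.not_dvd_ordCompl Nat.prime_two hS0
  · intro q hq
    refine ⟨g * q * g⁻¹, hg q hq, ?_⟩
    simp only [MulEquiv.coe_toMonoidHom, MulAut.conj_apply]
    group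
  · refine ⟨g⁻¹ * g', fun e he => ⟨g' * e * g'⁻¹, hg' e he, ?_⟩⟩
    simp only [MulEquiv.coe_toMonoidHom, MulAut.conj_apply]
    group

end Cfsg.Agent.Helper15.NGHALL
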