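import Mathlib
import Cfsg.Prelude.Def_Characters
import Cfsg.Prelude.Def_Blocks
import Cfsg.Agent.Helper3.Eigen
import Cfsg.Agent.Helper16.PPart
import Cfsg.Agent.Helper77.LocalRing

set_option autoImplicit false

namespace Cfsg.Agent.Helper15

section PRegCong

variable {G : Type*} [Group G]

/-- A character takes congruent values (modulo the local ideal at a `p`-modular maximal ideal)
at an element and at its `p`-regular part. -/
theorem character_sub_pRegular_memLocalIdeal [Finite G] {p : ℕ} {M : Ideal Cfsg.AlgInt}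
    (hM : Cfsg.IsPModular p M) {χ : G → ℂ} (hχ : Cfsg.IsCharacter G χ) {x a : G}
    (ha : Cfsg.IsPPart p x a) : Cfsg.MemLocalIdeal M (χ x - χ (a⁻¹ * x)) := by
  haveI := Fact.mk hM.1
  obtain ⟨d, ρ, rfl⟩ := hχ
  obtain ⟨i, hi⟩ := Cfsg.Agent.Helper16.isPPart_eq_pow ha
  obtain ⟨y, hay, hcomm, ⟨k, hk⟩, hy⟩ := ha
  obtain ⟨b, ζ, hζ, hb, hsum⟩ := Cfsg.Agent.Helper3.rep_exists_eigenbasis ρ x
  have hζ0 : ∀ j, ζ j ≠ 0 := by
    intro j h0
    have h1 := hζ j
    rw [h0, zero_pow (orderOf_pos x).ne'] at h1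
    exact zero_ne_one h1
  have hρa : ∀ j, ρ a (b j) = ζ j ^ i • b j := by
    intro j
    rw [← hi, map_pow]
    have h1 : ∀ r : ℕ, (ρ x ^ r) (b j) = ζ j ^ r • b j := by
      intro r
      induction r with
      | zero => simp
      | succ r ih =>
        rw [pow_succ, Module.End.mul_apply, hb j, map_smul, ih, smul_smul, pow_succ, mul_comm]
    exact h1 i
  have hρainv : ∀ j, ρ a⁻¹ (b j) = (ζ j ^ i)⁻¹ • b j := by
    intro j
    have h1 : ρ a⁻¹ (ρ a (b j)) = b j := by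
      rw [← Module.End.mul_apply, ← map_mul, inv_mul_cancel, map_one]
      rfl
    rw [hρa j, map_smul] at h1
    have h2 : (ζ j ^ i)⁻¹ • (ζ j ^ i • ρ a⁻¹ (b j)) = (ζ j ^ i)⁻¹ • b j := by rw [h1]
    rw [smul_smul, inv_mul_cancel₀ (pow_ne_zero i (hζ0 j)), one_smul] at h2
    exact h2
  have hρy : ∀ j, ρ (a⁻¹ * x) (b j) = (ζ j * (ζ j ^ i)⁻¹) • b j := by
    intro j
    rw [map_mul, Module.End.mul_apply, hb j, map_smul, hρainv j, smul_smul]
  have htr : ρ.character (a⁻¹ * x) = ∑ j, ζ j * (ζ j ^ i)⁻¹ :=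
    Cfsg.Agent.Helper3.trace_eq_sum_of_eigenbasis _ b _ hρy
  rw [hsum, htr, ← Finset.sum_sub_distrib]
  apply Cfsg.Agent.Helper77.memLocalIdeal_sum hM.2.1
  intro j _
  have h1 : ζ j - ζ j * (ζ j ^ i)⁻¹ = (ζ j * (ζ j ^ i)⁻¹) * (ζ j ^ i - 1) := by
    field_simp [pow_ne_zero i (hζ0 j)]
  rw [h1]
  apply Cfsg.Agent.Helper77.memLocalIdeal_mul hM.2.1
  · apply Cfsg.Agent.Helper77.memLocalRing_of_isIntegral hM.2.1
    apply IsIntegral.of_pow (orderOf_pos x)
    rw [mul_pow, inv_pow, ← pow_mul, mul_comm i, pow_mul, hζ j, one_pow, inv_one, mul_one]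
    exact isIntegral_one
  · apply Cfsg.Agent.Helper77.memLocalIdeal_root_sub_one hM (n := k)
    have h2 : (ρ a ^ (p ^ k)) (b j) = (ζ j ^ i) ^ (p ^ k) • b j := by
      have h3 : ∀ r : ℕ, (ρ a ^ r) (b j) = (ζ j ^ i) ^ r • b j := by
        intro r
        induction r with
        | zero => simp
        | succ r ih =>
          rw [pow_succ, Module.End.mul_apply, hρa j, map_smul, ih, smul_smul, pow_succ, mul_comm]
      exact h3 _
    rw [← map_pow, ← hk, pow_orderOf_eq_one, map_one] at h2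
    have h4 : ((ζ j ^ i) ^ orderOf a - 1) • b j = 0 := by
      rw [sub_smul, ← h2, one_smul]
      simp
    rcases smul_eq_zero.mp h4 with h5 | h5
    · rw [hk] at h5
      exact sub_eq_zero.mp h5
    · exact absurd h5 (b.ne_zero j)

end PRegCong

end Cfsg.Agent.Helper15
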