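import Mathlib
import Cfsg.Prelude.Def_Characters
import Cfsg.Agent.Helper15.MassM
import Cfsg.Agent.Helper15.ChiefGT

set_option autoImplicit false

namespace Cfsg.Agent.Helper15

open Cfsg
open scoped ComplexConjugate

section QPrimMax

variable {G : Type*} [Group G] [Fintype G]

/-- Isaacs 11.32 with `L` the core of the maximal subgroup `H`: if `ϑ ∈ Irr(H)` restricts
irreducibly to the core and induces irreducibly to `G`, and `G / core` is solvable, then the
induced character cannot restrict homogeneously to all normal subgroups above the core. -/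
theorem not_homog_of_max_core (H : Subgroup G) (hmax : IsCoatom H)
    (hsolv : Group.IsSolvable (G ⧸ H.normalCore)) (ϑ : H → ℂ) (hϑ : IsCharacter H ϑ)
    (hξ : IsIrrCharacter H.normalCore
      (fun x : H.normalCore => ϑ ⟨(x : G), H.normalCore_le x.2⟩))
    (hind : IsIrrCharacter G (indFun H ϑ))
    (hhom : ∀ N : Subgroup G, N.Normal → H.normalCore ≤ N →
      ∃ (φ : N → ℂ) (e : ℕ), IsIrrCharacter N φ ∧ (fun m : N => indFun H ϑ m) = (e : ℂ) • φ) :
    False := by
  classical
  set χ := indFun H ϑ with hχdef
  have hχcf : IsClassFunction G χ := isClassFunction_of_isChar (isChar_of_irr hind)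
  have hχ1 : χ 1 ≠ 0 := Cfsg.Agent.Helper80.irr_one_ne_zero ⟨χ, hind⟩
  have hcardH : (Nat.card H : ℂ) ≠ 0 := by exact_mod_cast Nat.card_pos.ne'
  have hcardL : (Nat.card H.normalCore : ℂ) ≠ 0 := by exact_mod_cast Nat.card_pos.ne'
  -- Step B: the restriction to the core
  obtain ⟨φL, eL, hφL, hL⟩ := hhom H.normalCore inferInstance le_rfl
  have heL : eL ≠ 0 := homog_ne_zero _ χ hχ1 φL eL hL
  have hLM := subInner_indFun_normal H.normalCore H ϑ χ hχcf
  rw [inf_eq_left.mpr H.normalCore_le] at hLM
  have hξeq : (fun x : H.normalCore => extendByZero H ϑ x) =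
      fun x : H.normalCore => ϑ ⟨(x : G), H.normalCore_le x.2⟩ :=
    funext fun x => Cfsg.Agent.Helper3.extendByZero_of_mem H ϑ (H.normalCore_le x.2)
  have h1 : subInner H.normalCore (extendByZero H ϑ) χ = (Nat.card H.normalCore : ℂ) *
      (eL * classInner (fun x : H.normalCore => ϑ ⟨(x : G), H.normalCore_le x.2⟩) φL) := by
    rw [subInner_eq_classInner, hξeq, hL, classInner_smul_right, Complex.conj_natCast]
  have h2 := subInner_homog H.normalCore χ φL hφL eL hL
  have h3 : (eL : ℂ) = (Nat.card G : ℂ) / (Nat.card H : ℂ) *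
      classInner (fun x : H.normalCore => ϑ ⟨(x : G), H.normalCore_le x.2⟩) φL := by
    rw [hLM, h1] at h2
    have heL' : (eL : ℂ) ≠ 0 := by exact_mod_cast heL
    have h4 : (Nat.card H.normalCore : ℂ) * (eL : ℂ) * ((Nat.card G : ℂ) / (Nat.card H : ℂ) *
        classInner (fun x : H.normalCore => ϑ ⟨(x : G), H.normalCore_le x.2⟩) φL) =
        (Nat.card H.normalCore : ℂ) * (eL : ℂ) * (eL : ℂ) := by
      rw [← mul_assoc] at h2
      push_cast at h2
      rw [← h2]
      ring
    exact (mul_left_cancel₀ (mul_ne_zero hcardL heL') h4).symm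
  have hξφ : (fun x : H.normalCore => ϑ ⟨(x : G), H.normalCore_le x.2⟩) = φL := by
    by_contra hne
    rw [irr_inner_ne hξ hφL hne, mul_zero] at h3
    exact heL (by exact_mod_cast h3)
  rw [hξφ, irr_inner_self hφL, mul_one] at h3
  rw [hξφ, irr_inner_self hφL, mul_one] at h1
  have hGH : Nat.card G = eL * Nat.card H := by
    have : (Nat.card G : ℂ) = (eL : ℂ) * (Nat.card H : ℂ) := by
      rw [h3]; field_simp
    exact_mod_cast this
  have hc : (Nat.card G : ℂ) / (Nat.card H : ℂ) = (eL : ℂ) := h3.symm
  have hcardHpos : 0 < Nat.card H := Nat.card_pos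
  have hcardLpos : 0 < Nat.card H.normalCore := Nat.card_pos
  by_cases hnorm : H.normalCore = H
  · -- `H` is normal
    have hT := subInner_indFun_normal (⊤ : Subgroup G) H ϑ χ hχcf
    rw [top_inf_eq, subInner_top, irr_inner_self hind, mul_one, hc] at hT
    have hHL : subInner H (extendByZero H ϑ) χ =
        subInner H.normalCore (extendByZero H ϑ) χ :=
      congrArg (fun S : Subgroup G => subInner S (extendByZero H ϑ) χ) hnorm.symm
    rw [hHL, h1] at hT
    have hcard : Nat.card H.normalCore = Nat.card H :=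
      congrArg (fun S : Subgroup G => Nat.card S) hnorm
    have hT' : Nat.card G = eL * (Nat.card H * eL) := by
      rw [hcard] at hT
      exact_mod_cast hT
    have heL1 : eL = 1 := by
      have h5 : eL * Nat.card H * 1 = eL * Nat.card H * eL := by
        rw [mul_one]
        calc eL * Nat.card H = Nat.card G := hGH.symm
          _ = eL * (Nat.card H * eL) := hT'
          _ = eL * Nat.card H * eL := by ring
      exact (Nat.eq_of_mul_eq_mul_left (Nat.mul_pos (Nat.pos_of_ne_zero heL) hcardHpos) h5).symm
    rw [heL1, one_mul] at hGH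
    exact hmax.1 ((Subgroup.card_eq_iff_eq_top H).mp hGH.symm)
  · obtain ⟨M, K, q, s, hMn, hKn, hLM', hMK, hMK', hinf, hsup, hMc, hKc, hcop, hq1, hMab, hnc⟩ :=
      coatom_chief_package H hmax hsolv hnorm
    have := hMn
    have := hKn
    -- Step E: the restriction to `M`
    obtain ⟨φM, eM, hφM, hM⟩ := hhom M hMn hLM'
    have heM : eM ≠ 0 := homog_ne_zero _ χ hχ1 φM eM hM
    have hMM := subInner_indFun_normal M H ϑ χ hχcf
    rw [hinf, h1, hc, subInner_homog M χ φM hφM eM hM] at hMM
    have hMM' : Nat.card M * eM * eM = eL * (Nat.card H.normalCore * eL) := by exact_mod_cast hMM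
    have hc1 := chief_card_mul_of_sup_eq_top M H hsup
    rw [hinf, hGH] at hc1
    have hc1' : eL * Nat.card H.normalCore = Nat.card M := by
      have : Nat.card H * (eL * Nat.card H.normalCore) = Nat.card H * Nat.card M := by
        rw [← hc1]; ring
      exact Nat.eq_of_mul_eq_mul_left hcardHpos this
    have heLq : eL = q := by
      have : Nat.card H.normalCore * eL = Nat.card H.normalCore * q := by
        rw [← hMc, ← hc1']; ring
      exact Nat.eq_of_mul_eq_mul_left hcardLpos this
    have hcardMpos : 0 < Nat.card M := Nat.card_pos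
    have heMq : eM * eM = q := by
      have : Nat.card M * (eM * eM) = Nat.card M * q := by
        rw [← heLq, ← mul_assoc, hMM', ← hc1']; ring
      exact Nat.eq_of_mul_eq_mul_left hcardMpos this
    -- Step F: the restriction to `K`
    obtain ⟨ψ, f, hψ, hK⟩ := hhom K hKn (hLM'.trans hMK)
    have hf : f ≠ 0 := homog_ne_zero _ χ hχ1 ψ f hK
    have hsupK : K ⊔ H = ⊤ := top_le_iff.mp (hsup ▸ sup_le_sup_right hMK H)
    have hc2 := chief_card_mul_of_sup_eq_top K H hsupK
    rw [hGH] at hc2
    have hc2' : eL * Nat.card (K ⊓ H : Subgroup G) = Nat.card K := by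
      have : Nat.card H * (eL * Nat.card (K ⊓ H : Subgroup G)) = Nat.card H * Nat.card K := by
        rw [← hc2]; ring
      exact Nat.eq_of_mul_eq_mul_left hcardHpos this
    have hKK := subInner_indFun_normal K H ϑ χ hχcf
    rw [hc, subInner_homog K χ ψ hψ f hK, subInner_eq_classInner] at hKK
    have hcardKpos : 0 < Nat.card K := Nat.card_pos
    have hηχ : classInner (fun y : (K ⊓ H : Subgroup G) => extendByZero H ϑ y)
        (fun y : (K ⊓ H : Subgroup G) => χ y) = ((f * f : ℕ) : ℂ) := by
      have hcK : (Nat.card K : ℂ) ≠ 0 := by exact_mod_cast hcardKpos.ne'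
      have : (Nat.card K : ℂ) * ((f * f : ℕ) : ℂ) = (Nat.card K : ℂ) *
          classInner (fun y : (K ⊓ H : Subgroup G) => extendByZero H ϑ y)
            (fun y : (K ⊓ H : Subgroup G) => χ y) := by
        calc (Nat.card K : ℂ) * ((f * f : ℕ) : ℂ) = ((Nat.card K * f * f : ℕ) : ℂ) := by
              push_cast; ring
          _ = (eL : ℂ) * ((Nat.card (K ⊓ H : Subgroup G) : ℂ) *
                classInner (fun y : (K ⊓ H : Subgroup G) => extendByZero H ϑ y)
                  (fun y : (K ⊓ H : Subgroup G) => χ y)) := hKK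
          _ = ((eL * Nat.card (K ⊓ H : Subgroup G) : ℕ) : ℂ) *
                classInner (fun y : (K ⊓ H : Subgroup G) => extendByZero H ϑ y)
                  (fun y : (K ⊓ H : Subgroup G) => χ y) := by push_cast; ring
          _ = _ := by rw [hc2']
      exact (mul_left_cancel₀ hcK this).symm
    -- `η` is irreducible
    have hηeq : (fun y : (K ⊓ H : Subgroup G) => extendByZero H ϑ y) =
        fun y : (K ⊓ H : Subgroup G) => ϑ (Subgroup.inclusion inf_le_right y) :=
      funext fun y => Cfsg.Agent.Helper3.extendByZero_of_mem H ϑ y.2.2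
    have hηchar : IsCharacter (K ⊓ H : Subgroup G)
        (fun y : (K ⊓ H : Subgroup G) => extendByZero H ϑ y) := by
      rw [hηeq]
      exact Cfsg.Agent.Helper79.isCharacter_comp hϑ (Subgroup.inclusion inf_le_right)
    have hLR : H.normalCore ≤ K ⊓ H := le_inf (hLM'.trans hMK) H.normalCore_le
    have hηirr : IsIrrCharacter (K ⊓ H : Subgroup G)
        (fun y : (K ⊓ H : Subgroup G) => extendByZero H ϑ y) := by
      apply isIrr_of_comp_isIrr (Subgroup.inclusion hLR) _ hηchar
      have : (fun s : H.normalCore => (fun y : (K ⊓ H : Subgroup G) => extendByZero H ϑ y)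
          (Subgroup.inclusion hLR s)) = φL := by
        rw [← hξφ, ← hξeq]
        rfl
      rw [this]
      exact hφL
    -- Bessel
    have hB := bessel_irr (fun y : (K ⊓ H : Subgroup G) => χ y) _ hηirr
    rw [classInner_conj_symm, hηχ, Complex.conj_natCast, Complex.normSq_natCast,
      ← subNorm_eq_sum] at hB
    have hKnorm : subNorm K χ = ((Nat.card K * f * f : ℕ) : ℝ) := by
      have h5 := subInner_self K χ
      rw [subInner_homog K χ ψ hψ f hK] at h5
      exact_mod_cast h5.symm
    -- Step G: `f = eM`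
    have hres : ∀ m : M, (f : ℂ) * ψ ⟨(m : G), hMK m.2⟩ = (eM : ℂ) * φM m := by
      intro m
      have h5 := congrFun hK ⟨(m : G), hMK m.2⟩
      have h6 := congrFun hM m
      simp only [Pi.smul_apply, smul_eq_mul] at h5 h6
      rw [← h5, ← h6]
    have hcon : classInner (Cfsg.Agent.Helper75.resTo hMK ψ) φM ≠ 0 := by
      have h5 : (f : ℂ) * classInner (Cfsg.Agent.Helper75.resTo hMK ψ) φM = (eM : ℂ) := by
        rw [← classInner_smul_left]
        have : (f : ℂ) • Cfsg.Agent.Helper75.resTo hMK ψ = (eM : ℂ) • φM := by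
          funext m
          exact hres m
        rw [this, classInner_smul_left, irr_inner_self hφM, mul_one]
      intro h0
      rw [h0, mul_zero] at h5
      exact heM (by exact_mod_cast h5.symm)
    obtain ⟨k, hk1, hk2⟩ := degree_dvd_relIndex hMK ψ hψ φM hφM hcon
    have hfk : f * k = eM := by
      have h5 := hres 1
      have h6 : (⟨((1 : M) : G), hMK (1 : M).2⟩ : K) = 1 := rfl
      rw [h6, hk1] at h5
      have hφ1 : φM 1 ≠ 0 := Cfsg.Agent.Helper80.irr_one_ne_zero ⟨φM, hφM⟩
      have h7 : ((f * k : ℕ) : ℂ) * φM 1 = (eM : ℂ) * φM 1 := by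
        push_cast
        rw [← h5]; ring
      exact_mod_cast mul_right_cancel₀ hφ1 h7
    have hrel : M.relIndex K = s := by
      have h5 := Subgroup.relIndex_mul_relIndex (⊥ : Subgroup G) M K bot_le hMK
      rw [Subgroup.relIndex_bot_left, Subgroup.relIndex_bot_left, hKc] at h5
      exact Nat.eq_of_mul_eq_mul_left hcardMpos h5
    have hk : k = 1 := by
      apply Nat.eq_one_of_dvd_coprimes hcop _ (hrel ▸ hk2)
      rw [← heMq, ← hfk]
      exact ⟨f * f * k, by ring⟩
    rw [hk, mul_one] at hfk
    rw [← hfk] at heMq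
    -- Step H: mass
    have hmass : subNorm K χ ≤ subNorm (K ⊓ H) χ := by
      rw [hKnorm]
      refine le_trans (le_of_eq ?_) hB
      have hnat : Nat.card K * f * f =
          Nat.card (K ⊓ H : Subgroup G) * ((f * f) * (f * f)) := by
        rw [mul_assoc, heMq, ← hc2', heLq]
        ring
      rw [hnat]
      push_cast
      ring
    have hvan := vanish_of_subNorm_le (K ⊓ H) K inf_le_left χ hmass
    have hvanL : ∀ g ∈ K, g ∉ H.normalCore → χ g = 0 := by
      intro g hgK hgL
      have : ∃ x : G, x * g * x⁻¹ ∉ H := by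
        by_contra hcon
        push Not at hcon
        exact hgL hcon
      obtain ⟨x, hx⟩ := this
      have := hvan (x * g * x⁻¹) (hKn.conj_mem g hgK x) (fun h => hx h.2)
      rwa [hχcf g x] at this
    -- Step I
    have hfin := subInner_eq_of_vanish H.normalCore K (hLM'.trans hMK) χ χ hvanL
    rw [subInner_homog K χ ψ hψ f hK, h2] at hfin
    have hfin' : Nat.card K * f * f = Nat.card H.normalCore * eL * eL := by exact_mod_cast hfin
    rw [mul_assoc, heMq, heLq] at hfin'
    have hKM : Nat.card K = Nat.card M := by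
      rw [hMc]
      have hq0 : 0 < q := by omega
      have : Nat.card K * q = Nat.card H.normalCore * q * q := hfin'
      exact Nat.eq_of_mul_eq_mul_right hq0 this
    exact hMK' (Subgroup.eq_of_le_of_card_ge hMK hKM.le)

end QPrimMax

end Cfsg.Agent.Helper15
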