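import Mathlib
import Cfsg.Agent.Helper8.S4504Defs
import Cfsg.Agent.Helper15.B42Defs
import Cfsg.Agent.Helper92.B42PSING
import Cfsg.Agent.Helper76.CentralChar
import Cfsg.Agent.Helper80.CharIrr
import Cfsg.Agent.Helper79.Basic

/-!
# Sub-CALL S4504S, piece COMPL (helper15): an irreducible character trivial on `K`, outside the
list of the principal block, vanishes at `x`.
-/

universe u
set_option autoImplicit false
open Cfsg Cfsg.Agent.Helper77 Cfsg.Agent.Helper15 Cfsg.Agent.Helper8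
open scoped ComplexConjugate

namespace Cfsg.Agent.Helper15

variable {G : Type u} [Group G] [Finite G]

/-- COMPL: an irreducible character trivial on `K`, outside the list, vanishes at `x`. -/
theorem s4504s_compl (p : ℕ) [Fact p.Prime] [Fintype G] (x : G) (K : Subgroup G)
    (h : D1Hyp p x K) (hKc : ∀ k ∈ K, k ∈ Subgroup.center G) (v : (ZMod p)ˣ)
    (hcls : ∀ b : ℕ, ¬ p ∣ b → (∃ n : G, n * x * n⁻¹ = x ^ b) ∨
        (∃ n : G, n * x ^ (v : ZMod p).val * n⁻¹ = x ^ b))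
    (ψ₁ ψ₂ : Cfsg.IrrCharacter G)
    (hψreg : ∀ g : G, ¬ p ∣ orderOf g → (ψ₂ : G → ℂ) g = (ψ₁ : G → ℂ) g)
    (hψK : ∀ k ∈ K, (ψ₁ : G → ℂ) k = (ψ₁ : G → ℂ) 1)
    (hw : (ψ₂ : G → ℂ) x = (ψ₁ : G → ℂ) (x ^ (v : ZMod p).val))
    (hw' : (ψ₂ : G → ℂ) (x ^ (v : ZMod p).val) = (ψ₁ : G → ℂ) x)
    (hwne : (ψ₁ : G → ℂ) x ≠ (ψ₁ : G → ℂ) (x ^ (v : ZMod p).val))
    (hwsum : (ψ₁ : G → ℂ) x + (ψ₁ : G → ℂ) (x ^ (v : ZMod p).val) ≠ 0)
    (X1 X2 : Finset (Cfsg.IrrCharacter G)) (ε : ℂ) (hε : ε ≠ 0)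
    (Γ : G → ℂ) (hΓreg : ∀ g : G, ¬ p ∣ orderOf g → Γ g = 0)
    (hΓ : ∀ g : G, Γ g = 1 + ∑ ζ ∈ X1, (ζ : G → ℂ) g - ∑ ζ ∈ X2, (ζ : G → ℂ) g
      + ε * (ψ₁ : G → ℂ) g)
    (hψ₁1 : (ψ₁ : G → ℂ) ≠ fun _ => 1) (hψ₁X1 : ψ₁ ∉ X1) (hψ₁X2 : ψ₁ ∉ X2)
    (hψ₂1 : (ψ₂ : G → ℂ) ≠ fun _ => 1) (hψ₂X1 : ψ₂ ∉ X1) (hψ₂X2 : ψ₂ ∉ X2) (hψne : ψ₁ ≠ ψ₂)
    (ξ : Cfsg.IrrCharacter G) (hξK : ∀ k ∈ K, (ξ : G → ℂ) k = (ξ : G → ℂ) 1)
    (hξ1 : (ξ : G → ℂ) ≠ fun _ => 1) (hξX1 : ξ ∉ X1) (hξX2 : ξ ∉ X2)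
    (hξψ₁ : ξ ≠ ψ₁) (hξψ₂ : ξ ≠ ψ₂) : (ξ : G → ℂ) x = 0 := by
  classical
  have hp : p.Prime := Fact.out
  obtain ⟨w, hwd⟩ : ∃ w : ℂ, (ψ₁ : G → ℂ) x = w := ⟨_, rfl⟩
  obtain ⟨w', hwd'⟩ : ∃ w' : ℂ, (ψ₁ : G → ℂ) (x ^ (v : ZMod p).val) = w' := ⟨_, rfl⟩
  obtain ⟨u, hu⟩ : ∃ u : ℂ, (ξ : G → ℂ) x = u := ⟨_, rfl⟩
  obtain ⟨u', hu'⟩ : ∃ u' : ℂ, (ξ : G → ℂ) (x ^ (v : ZMod p).val) = u' := ⟨_, rfl⟩
  rw [hwd, hwd'] at hwne hwsum
  rw [hwd'] at hw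
  rw [hwd] at hw'
  have hcase : ∀ b : ℕ, ¬ p ∣ b →
      ((ξ : G → ℂ) (x ^ b) = u ∧ (ψ₁ : G → ℂ) (x ^ b) = w ∧ (ψ₂ : G → ℂ) (x ^ b) = w') ∨
      ((ξ : G → ℂ) (x ^ b) = u' ∧ (ψ₁ : G → ℂ) (x ^ b) = w' ∧ (ψ₂ : G → ℂ) (x ^ b) = w) := by
    intro b hb
    rcases hcls b hb with ⟨n, hn⟩ | ⟨n, hn⟩
    · left
      rw [← hn, Helper76.irr_conj, Helper76.irr_conj, Helper76.irr_conj]
      exact ⟨hu, hwd, hw⟩
    · right
      rw [← hn, Helper76.irr_conj, Helper76.irr_conj, Helper76.irr_conj]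
      exact ⟨hu', hwd', hw'⟩
  have hdet : w ^ 2 - w' ^ 2 ≠ 0 := by
    have h3 : w ^ 2 - w' ^ 2 = (w - w') * (w + w') := by ring
    rw [h3]
    exact mul_ne_zero (sub_ne_zero.mpr hwne) hwsum
  obtain ⟨A, hA⟩ : ∃ A : ℂ, A = (u * w - u' * w') / (w ^ 2 - w' ^ 2) := ⟨_, rfl⟩
  obtain ⟨B, hB⟩ : ∃ B : ℂ, B = (u' * w - u * w') / (w ^ 2 - w' ^ 2) := ⟨_, rfl⟩
  have hAB1 : A * w + B * w' = u := by
    rw [hA, hB]; field_simp; ring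
  have hAB2 : A * w' + B * w = u' := by
    rw [hA, hB]; field_simp; ring
  -- central scalars are trivial
  have hι : ∀ z : K, K.subtype z ∈ Subgroup.center G := fun z => hKc _ z.2
  have hKreg : ∀ k : K, ¬ p ∣ orderOf (k : G) := by
    intro k hk
    apply h.hK
    have h3 : orderOf (k : G) = orderOf k := by
      rw [← Subgroup.orderOf_coe]
    rw [h3] at hk
    exact hk.trans (orderOf_dvd_natCard k)
  have h1reg : ¬ p ∣ orderOf (1 : G) := by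
    rw [orderOf_one]
    exact hp.one_lt.ne' ∘ Nat.dvd_one.mp
  have htrivK : ∀ φ : Cfsg.IrrCharacter G, (∀ k ∈ K, (φ : G → ℂ) k = (φ : G → ℂ) 1) →
      ∀ (g : G) (k : G), k ∈ K → (φ : G → ℂ) (g * k) = (φ : G → ℂ) g := by
    intro φ hφ g k hk
    obtain ⟨cφ, hcφ⟩ := Helper76.exists_central_scalar K.subtype hι φ
    have e1 := hcφ ⟨k, hk⟩ 1
    have e2 := hcφ ⟨k, hk⟩ g
    change (φ : G → ℂ) (1 * k) = _ at e1
    change (φ : G → ℂ) (g * k) = _ at e2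
    rw [one_mul, hφ k hk] at e1
    have hφ1 := Helper76.irr_one_ne_zero φ
    have e3 : cφ ⟨k, hk⟩ = 1 := by
      have e4 : (cφ ⟨k, hk⟩ - 1) * (φ : G → ℂ) 1 = 0 := by linear_combination -e1
      rcases mul_eq_zero.mp e4 with e5 | e5
      · exact sub_eq_zero.mp e5
      · exact absurd e5 hφ1
    rw [e2, e3, one_mul]
  have hψ₂K : ∀ k ∈ K, (ψ₂ : G → ℂ) k = (ψ₂ : G → ℂ) 1 := by
    intro k hk
    rw [hψreg k (hKreg ⟨k, hk⟩), hψreg 1 h1reg]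
    exact hψK k hk
  have hval : ∀ b : ℕ, ¬ p ∣ b → ∀ k ∈ K,
      (ξ : G → ℂ) (x ^ b * k) = A * (ψ₁ : G → ℂ) (x ^ b * k) + B * (ψ₂ : G → ℂ) (x ^ b * k) := by
    intro b hb k hk
    rw [htrivK ξ hξK _ k hk, htrivK ψ₁ hψK _ k hk, htrivK ψ₂ hψ₂K _ k hk]
    rcases hcase b hb with ⟨f1, f2, f3⟩ | ⟨f1, f2, f3⟩
    · rw [f1, f2, f3, ← hAB1]
    · rw [f1, f2, f3, ← hAB2]
  have hsing : ∀ g : G, p ∣ orderOf g →
      (ξ : G → ℂ) g - (A * (ψ₁ : G → ℂ) g + B * (ψ₂ : G → ℂ) g) = 0 := by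
    intro g hg
    obtain ⟨y, b, k, hb, hk, hy⟩ := Helper92.b42_psing p x K h g hg
    have e := hval b hb k hk
    rw [← hy, Helper76.irr_conj, Helper76.irr_conj, Helper76.irr_conj] at e
    rw [e, sub_self]
  -- first relation: `Δ = ψ₁ - ψ₂`
  have hpt : ∀ g : G, ((ξ : G → ℂ) g - (A * (ψ₁ : G → ℂ) g + B * (ψ₂ : G → ℂ) g))
      * conj ((ψ₁ : G → ℂ) g - (ψ₂ : G → ℂ) g) = 0 := by
    intro g
    by_cases hg : p ∣ orderOf g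
    · rw [hsing g hg, zero_mul]
    · rw [hψreg g hg, sub_self, map_zero, mul_zero]
  have hsum0 : ∑ g : G, ((ξ : G → ℂ) g - (A * (ψ₁ : G → ℂ) g + B * (ψ₂ : G → ℂ) g))
      * conj ((ψ₁ : G → ℂ) g - (ψ₂ : G → ℂ) g) = 0 :=
    Finset.sum_eq_zero (fun g _ => hpt g)
  have hexp : ∑ g : G, ((ξ : G → ℂ) g - (A * (ψ₁ : G → ℂ) g + B * (ψ₂ : G → ℂ) g))
      * conj ((ψ₁ : G → ℂ) g - (ψ₂ : G → ℂ) g)
      = ∑ g : G, (ξ : G → ℂ) g * conj ((ψ₁ : G → ℂ) g)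
        - ∑ g : G, (ξ : G → ℂ) g * conj ((ψ₂ : G → ℂ) g)
        - A * ∑ g : G, (ψ₁ : G → ℂ) g * conj ((ψ₁ : G → ℂ) g)
        + A * ∑ g : G, (ψ₁ : G → ℂ) g * conj ((ψ₂ : G → ℂ) g)
        - B * ∑ g : G, (ψ₂ : G → ℂ) g * conj ((ψ₁ : G → ℂ) g)
        + B * ∑ g : G, (ψ₂ : G → ℂ) g * conj ((ψ₂ : G → ℂ) g) := by
    rw [Finset.mul_sum, Finset.mul_sum, Finset.mul_sum, Finset.mul_sum,
      ← Finset.sum_sub_distrib, ← Finset.sum_sub_distrib, ← Finset.sum_add_distrib,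
      ← Finset.sum_sub_distrib, ← Finset.sum_add_distrib]
    refine Finset.sum_congr rfl (fun g _ => ?_)
    rw [map_sub]
    ring
  rw [hexp, Helper80.irr_orthogonality_conj, Helper80.irr_orthogonality_conj,
    Helper80.irr_orthogonality_conj, Helper80.irr_orthogonality_conj,
    Helper80.irr_orthogonality_conj, Helper80.irr_orthogonality_conj,
    if_neg hξψ₁, if_neg hξψ₂, if_pos rfl, if_neg hψne, if_neg (Ne.symm hψne), if_pos rfl]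
    at hsum0
  have hcardne : (Fintype.card G : ℂ) ≠ 0 := by
    exact_mod_cast Fintype.card_ne_zero
  have hABeq : A = B := by
    have e4 : (B - A) * (Fintype.card G : ℂ) = 0 := by linear_combination hsum0
    rcases mul_eq_zero.mp e4 with e5 | e5
    · exact (sub_eq_zero.mp e5).symm
    · exact absurd e5 hcardne
  -- second relation: `Γ`
  obtain ⟨triv, htriv⟩ : ∃ triv : Cfsg.IrrCharacter G, (triv : G → ℂ) = fun _ => 1 :=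
    ⟨⟨fun _ => 1, Helper79.isIrrCharacter_one⟩, rfl⟩
  have hT : ∀ φ : Cfsg.IrrCharacter G, (φ : G → ℂ) ≠ (fun _ => 1) → φ ∉ X1 → φ ∉ X2 →
      ∑ g : G, (φ : G → ℂ) g * conj (Γ g)
        = conj ε * ∑ g : G, (φ : G → ℂ) g * conj ((ψ₁ : G → ℂ) g) := by
    intro φ hφ1 hφX1 hφX2
    have hne1 : φ ≠ triv := by
      intro he
      apply hφ1
      rw [he, htriv]
    have e0 : ∑ g : G, (φ : G → ℂ) g = 0 := by
      have e := Helper80.irr_orthogonality_conj φ triv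
      rw [if_neg hne1] at e
      rw [← e]
      refine Finset.sum_congr rfl (fun g _ => ?_)
      rw [htriv]
      simp
    have e1 : ∀ S : Finset (Cfsg.IrrCharacter G), φ ∉ S →
        ∑ g : G, (φ : G → ℂ) g * ∑ ζ ∈ S, conj ((ζ : G → ℂ) g) = 0 := by
      intro S hS
      have e2 : ∑ g : G, (φ : G → ℂ) g * ∑ ζ ∈ S, conj ((ζ : G → ℂ) g)
          = ∑ ζ ∈ S, ∑ g : G, (φ : G → ℂ) g * conj ((ζ : G → ℂ) g) := by
        rw [Finset.sum_comm]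
        refine Finset.sum_congr rfl (fun g _ => ?_)
        rw [Finset.mul_sum]
      rw [e2]
      apply Finset.sum_eq_zero
      intro ζ hζ
      rw [Helper80.irr_orthogonality_conj, if_neg]
      intro he
      rw [he] at hS
      exact hS hζ
    have e3 : ∀ g : G, (φ : G → ℂ) g * conj (Γ g)
        = (φ : G → ℂ) g + (φ : G → ℂ) g * ∑ ζ ∈ X1, conj ((ζ : G → ℂ) g)
          - (φ : G → ℂ) g * ∑ ζ ∈ X2, conj ((ζ : G → ℂ) g)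
          + conj ε * ((φ : G → ℂ) g * conj ((ψ₁ : G → ℂ) g)) := by
      intro g
      rw [hΓ g, map_add, map_sub, map_add, map_one, map_sum, map_sum, map_mul]
      ring
    rw [Finset.sum_congr rfl (fun g _ => e3 g), Finset.sum_add_distrib, Finset.sum_sub_distrib,
      Finset.sum_add_distrib, e0, e1 X1 hφX1, e1 X2 hφX2, ← Finset.mul_sum]
    ring
  have hpt2 : ∀ g : G, ((ξ : G → ℂ) g - (A * (ψ₁ : G → ℂ) g + B * (ψ₂ : G → ℂ) g))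
      * conj (Γ g) = 0 := by
    intro g
    by_cases hg : p ∣ orderOf g
    · rw [hsing g hg, zero_mul]
    · rw [hΓreg g hg, map_zero, mul_zero]
  have hsum2 : ∑ g : G, ((ξ : G → ℂ) g - (A * (ψ₁ : G → ℂ) g + B * (ψ₂ : G → ℂ) g))
      * conj (Γ g) = 0 :=
    Finset.sum_eq_zero (fun g _ => hpt2 g)
  have hexp2 : ∑ g : G, ((ξ : G → ℂ) g - (A * (ψ₁ : G → ℂ) g + B * (ψ₂ : G → ℂ) g))
      * conj (Γ g)
      = ∑ g : G, (ξ : G → ℂ) g * conj (Γ g)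
        - A * ∑ g : G, (ψ₁ : G → ℂ) g * conj (Γ g)
        - B * ∑ g : G, (ψ₂ : G → ℂ) g * conj (Γ g) := by
    rw [Finset.mul_sum, Finset.mul_sum, ← Finset.sum_sub_distrib, ← Finset.sum_sub_distrib]
    refine Finset.sum_congr rfl (fun g _ => ?_)
    ring
  rw [hexp2, hT ξ hξ1 hξX1 hξX2, hT ψ₁ hψ₁1 hψ₁X1 hψ₁X2, hT ψ₂ hψ₂1 hψ₂X1 hψ₂X2,
    Helper80.irr_orthogonality_conj, Helper80.irr_orthogonality_conj,
    Helper80.irr_orthogonality_conj, if_neg hξψ₁, if_pos rfl, if_neg (Ne.symm hψne)] at hsum2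
  have hεc : conj ε ≠ 0 := by
    intro he
    apply hε
    have := congrArg conj he
    rwa [Complex.conj_conj, map_zero] at this
  have hA0 : A = 0 := by
    have e4 : A * (conj ε * (Fintype.card G : ℂ)) = 0 := by linear_combination -hsum2
    rcases mul_eq_zero.mp e4 with e5 | e5
    · exact e5
    · exact absurd e5 (mul_ne_zero hεc hcardne)
  rw [hu, ← hAB1, ← hABeq, hA0]
  ring

end Cfsg.Agent.Helper15
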