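import Mathlib
import Cfsg.Agent.Helper8.S4504Defs
import Cfsg.Agent.Helper15.S4504Shape
import Cfsg.Agent.Helper15.B42Main
import Cfsg.Agent.Helper12.S4504SNORMCARD
import Cfsg.Agent.Helper15.S4504SCOMPL
import Cfsg.Agent.Helper37.S4504SCENK
import Cfsg.Agent.Helper37.S4504SCLS
import Cfsg.Agent.Helper37.S4504SSPLIT
import Cfsg.Agent.Helper39.S4504SMUX
import Cfsg.Agent.Helper39.S4504SNT
import Cfsg.Agent.Helper39.S4504SPVB
import Cfsg.Agent.Helper74.S4504SONLY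
import Cfsg.Agent.Helper77.S4504SPVA
import Cfsg.Agent.Helper77.S4504SPVB
import Cfsg.Agent.Helper82.S4504SGALC
import Cfsg.Agent.Helper82.S4504SHALFINT
import Cfsg.Agent.Helper83.S4504SDEC

/-!
# S4504, stage STRUCT (helper15): the block data at the boundary `2 χ(1) + 1 = p`
-/

universe u
set_option autoImplicit false
open Cfsg Cfsg.Agent.Helper77 Cfsg.Agent.Helper15 Cfsg.Agent.Helper8
open scoped ComplexConjugate


namespace Cfsg.Agent.Helper15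

variable {G : Type u} [Group G] [Finite G]

/-- The counting data for two `p`-conjugate small exceptional characters with `t = 1`
(the first half of `b42_count`, without the final arithmetic). -/
theorem s4504_counts (p : ℕ) [Fact p.Prime] [Fintype G] (x : G) (hx : orderOf x = p)
    (F : Subgroup (ZMod p)ˣ) (hF : (F : Set (ZMod p)ˣ) = normUnits p x)
    (hf2 : 2 ≤ Nat.card F) (v : (ZMod p)ˣ) (hv : v ∉ F)
    (ξ₁ ξ₂ : Cfsg.IrrCharacter G) (l : ZMod p) (hl : l ≠ 0)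
    (h1 : B42Shape p x (ξ₁ : G → ℂ) 1 l) (h2 : B42Shape p x (ξ₂ : G → ℂ) 1 ((v : ZMod p) * l))
    (hreg : ∀ g : G, ¬ p ∣ orderOf g → (ξ₂ : G → ℂ) g = (ξ₁ : G → ℂ) g)
    (X : Finset (Cfsg.IrrCharacter G)) (c : Cfsg.IrrCharacter G → ℤ)
    (hcard : X.card = Nat.card F) (hsign : ∀ ζ ∈ X, c ζ = 1 ∨ c ζ = -1)
    (hval : ∀ ζ ∈ X, ∀ g : G, p ∣ orderOf g → (ζ : G → ℂ) g = (c ζ : ℂ))
    (ζ₁ : Cfsg.IrrCharacter G) (hζ₁ : ζ₁ ∈ X) (hcζ₁ : c ζ₁ = 1)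
    (hkerX : ∀ ζ ∈ X, ζ ≠ ζ₁ → (ζ : G → ℂ) x ≠ (ζ : G → ℂ) 1) :
    ξ₁ ≠ ξ₂ ∧
    (ξ₁ : G → ℂ) 1 = (Nat.card F : ℂ) ∧ (ξ₂ : G → ℂ) 1 = (Nat.card F : ℂ) ∧
    b42Prod (ξ₁ : G → ℂ) (ξ₁ : G → ℂ) 1 - b42Fix p x (b42Prod (ξ₁ : G → ℂ) (ξ₁ : G → ℂ))
      = ((Nat.card F * Nat.card F - Nat.card F : ℕ) : ℂ) ∧
    b42Prod (ξ₁ : G → ℂ) (ξ₂ : G → ℂ) 1 - b42Fix p x (b42Prod (ξ₁ : G → ℂ) (ξ₂ : G → ℂ))
      = ((Nat.card F * Nat.card F : ℕ) : ℂ) ∧
    (∀ ζ ∈ (X.filter (fun ζ => c ζ = 1)).erase ζ₁,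
      Cfsg.classInner (b42Prod (ξ₁ : G → ℂ) (ξ₁ : G → ℂ)) (ζ : G → ℂ) ≠ 0) ∧
    (∀ ζ ∈ X.filter (fun ζ => c ζ = -1),
      Cfsg.classInner (b42Prod (ξ₁ : G → ℂ) (ξ₂ : G → ℂ)) (ζ : G → ℂ) ≠ 0) ∧
    ((X.filter (fun ζ => c ζ = 1)).erase ζ₁).card * (p - 1)
      ≤ Nat.card F * Nat.card F - Nat.card F ∧
    (X.filter (fun ζ => c ζ = -1)).card * (p - 1) ≤ Nat.card F * Nat.card F ∧
    ((X.filter (fun ζ => c ζ = 1)).erase ζ₁).card + (X.filter (fun ζ => c ζ = -1)).card + 1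
      = Nat.card F := by
  classical
  have hp : p.Prime := Fact.out
  obtain ⟨f, hfdef⟩ : ∃ f : ℕ, f = Nat.card F := ⟨_, rfl⟩
  rw [← hfdef] at hf2 hcard ⊢
  have hχ1 : Cfsg.IsCharacter G (ξ₁ : G → ℂ) := isChar_of_irr ξ₁.2
  have hχ2 : Cfsg.IsCharacter G (ξ₂ : G → ℂ) := isChar_of_irr ξ₂.2
  have hα₁ : Cfsg.IsCharacter G (b42Prod (ξ₁ : G → ℂ) (ξ₁ : G → ℂ)) :=
    Helper79.isCharacter_mul hχ1 (Helper79.isCharacter_conj hχ1)
  have hα₂ : Cfsg.IsCharacter G (b42Prod (ξ₁ : G → ℂ) (ξ₂ : G → ℂ)) :=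
    Helper79.isCharacter_mul hχ1 (Helper79.isCharacter_conj hχ2)
  have h1' : B42Shape p x (ξ₁ : G → ℂ) 1 (((1 : (ZMod p)ˣ) : ZMod p) * l) := by
    rw [Units.val_one, one_mul]; exact h1
  have hfix1 : b42Fix p x (b42Prod (ξ₁ : G → ℂ) (ξ₁ : G → ℂ)) = (f : ℂ) := by
    rw [(Helper88.b42_fix_prod p x hx F hF _ _ 1 l hl 1 h1 h1').1 (one_mem F), ← hfdef]
    norm_num
  have hfix2 : b42Fix p x (b42Prod (ξ₁ : G → ℂ) (ξ₂ : G → ℂ)) = 0 :=
    (Helper88.b42_fix_prod p x hx F hF _ _ 1 l hl v h1 h2).2 hv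
  have hne : ξ₁ ≠ ξ₂ := by
    intro heq
    rw [← heq, hfix1] at hfix2
    have h0 : f = 0 := by exact_mod_cast hfix2
    omega
  have hd1 : (ξ₁ : G → ℂ) 1 = (f : ℂ) := by
    rw [Helper92.b42_shape_one p x F hF _ 1 l h1, ← hfdef]; norm_num
  have hd2 : (ξ₂ : G → ℂ) 1 = (f : ℂ) := by
    rw [Helper92.b42_shape_one p x F hF _ 1 _ h2, ← hfdef]; norm_num
  have hff : f ≤ f * f := Nat.le_mul_self f
  have hD1 : b42Prod (ξ₁ : G → ℂ) (ξ₁ : G → ℂ) 1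
      - b42Fix p x (b42Prod (ξ₁ : G → ℂ) (ξ₁ : G → ℂ)) = ((f * f - f : ℕ) : ℂ) := by
    rw [hfix1]
    unfold b42Prod
    rw [hd1, Complex.conj_natCast, Nat.cast_sub hff]
    push_cast
    ring
  have hD2 : b42Prod (ξ₁ : G → ℂ) (ξ₂ : G → ℂ) 1
      - b42Fix p x (b42Prod (ξ₁ : G → ℂ) (ξ₂ : G → ℂ)) = ((f * f : ℕ) : ℂ) := by
    rw [hfix2]
    unfold b42Prod
    rw [hd1, hd2, Complex.conj_natCast]
    push_cast
    ring
  have hxsing : ∀ b : ℕ, ¬ p ∣ b → p ∣ orderOf (x ^ b) := by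
    intro b hb
    have hcop : Nat.Coprime (orderOf x) b := by
      rw [hx]; exact (Nat.Prime.coprime_iff_not_dvd hp).mpr hb
    rw [hcop.orderOf_pow, hx]
  have hxs : p ∣ orderOf x := by rw [hx]
  obtain ⟨S₁, hS₁⟩ : ∃ S₁ : Finset (Cfsg.IrrCharacter G),
      S₁ = (X.filter (fun ζ => c ζ = 1)).erase ζ₁ := ⟨_, rfl⟩
  obtain ⟨S₂, hS₂⟩ : ∃ S₂ : Finset (Cfsg.IrrCharacter G),
      S₂ = X.filter (fun ζ => c ζ = -1) := ⟨_, rfl⟩
  rw [← hS₁, ← hS₂]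
  have hmem1 : ∀ ζ ∈ S₁, ζ ∈ X ∧ c ζ = 1 ∧ ζ ≠ ζ₁ := by
    intro ζ hζ
    rw [hS₁, Finset.mem_erase, Finset.mem_filter] at hζ
    exact ⟨hζ.2.1, hζ.2.2, hζ.1⟩
  have hmem2 : ∀ ζ ∈ S₂, ζ ∈ X ∧ c ζ = -1 := by
    intro ζ hζ
    rw [hS₂, Finset.mem_filter] at hζ
    exact hζ
  have hin1 : ∀ ζ ∈ S₁, Cfsg.classInner (b42Prod (ξ₁ : G → ℂ) (ξ₁ : G → ℂ)) (ζ : G → ℂ) ≠ 0 := by
    intro ζ hζ
    obtain ⟨hζX, hc, -⟩ := hmem1 ζ hζ
    obtain ⟨n₂, hn₂⟩ := Helper3.classInner_isCharacter_nat hα₂ (isChar_of_irr ζ.2)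
    have hkey := Helper92.b42_key_X p ξ₁ ξ₂ hreg hne ζ (c ζ) (hsign ζ hζX) (hval ζ hζX)
    rw [hn₂, hc] at hkey
    have h3 : Cfsg.classInner (b42Prod (ξ₁ : G → ℂ) (ξ₁ : G → ℂ)) (ζ : G → ℂ)
        = ((n₂ + 1 : ℕ) : ℂ) := by
      push_cast
      linear_combination hkey
    rw [h3]
    exact_mod_cast Nat.succ_ne_zero n₂
  have hin2 : ∀ ζ ∈ S₂, Cfsg.classInner (b42Prod (ξ₁ : G → ℂ) (ξ₂ : G → ℂ)) (ζ : G → ℂ) ≠ 0 := by
    intro ζ hζ
    obtain ⟨hζX, hc⟩ := hmem2 ζ hζ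
    obtain ⟨n₁, hn₁⟩ := Helper3.classInner_isCharacter_nat hα₁ (isChar_of_irr ζ.2)
    have hkey := Helper92.b42_key_X p ξ₁ ξ₂ hreg hne ζ (c ζ) (hsign ζ hζX) (hval ζ hζX)
    rw [hn₁, hc] at hkey
    rw [← hkey]
    have h3 : ((n₁ : ℂ) - ((-1 : ℤ) : ℂ)) = ((n₁ + 1 : ℕ) : ℂ) := by
      push_cast
      ring
    rw [h3]
    exact_mod_cast Nat.succ_ne_zero n₁
  have hb1 : S₁.card * (p - 1) ≤ f * f - f := by
    refine Helper72.b42_mu_le p x hx _ hα₁ S₁ hin1 _ _ hD1 ?_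
    intro ζ hζ
    obtain ⟨hζX, hc, hne1⟩ := hmem1 ζ hζ
    exact Helper72.b42_mu_X p x hx (ζ : G → ℂ) (isChar_of_irr ζ.2) (c ζ) (hsign ζ hζX)
      (fun b hb => hval ζ hζX _ (hxsing b hb)) (hkerX ζ hζX hne1)
  have hb2 : S₂.card * (p - 1) ≤ f * f := by
    refine Helper72.b42_mu_le p x hx _ hα₂ S₂ hin2 _ _ hD2 ?_
    intro ζ hζ
    obtain ⟨hζX, hc⟩ := hmem2 ζ hζ
    refine Helper72.b42_mu_X p x hx (ζ : G → ℂ) (isChar_of_irr ζ.2) (c ζ) (hsign ζ hζX)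
      (fun b hb => hval ζ hζX _ (hxsing b hb)) ?_
    rw [hval ζ hζX x hxs, hc, Helper81.irr_one_eq_charDegree]
    intro heq
    have h4 : ((-1 : ℤ) : ℂ) = ((Cfsg.charDegree (ζ : G → ℂ) : ℤ) : ℂ) := by
      rw [heq]; push_cast; rfl
    have h5 : (-1 : ℤ) = (Cfsg.charDegree (ζ : G → ℂ) : ℤ) := by exact_mod_cast h4
    omega
  have hcnt : S₁.card + S₂.card + 1 = f := by
    have hunion : X = X.filter (fun ζ => c ζ = 1) ∪ X.filter (fun ζ => c ζ = -1) := by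
      ext ζ
      simp only [Finset.mem_union, Finset.mem_filter]
      constructor
      · intro hζ
        rcases hsign ζ hζ with hc | hc
        · exact Or.inl ⟨hζ, hc⟩
        · exact Or.inr ⟨hζ, hc⟩
      · rintro (⟨hζ, -⟩ | ⟨hζ, -⟩) <;> exact hζ
    have hdisj : Disjoint (X.filter (fun ζ => c ζ = 1)) (X.filter (fun ζ => c ζ = -1)) := by
      rw [Finset.disjoint_left]
      intro ζ ha hb
      rw [Finset.mem_filter] at ha hb
      have := ha.2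
      rw [hb.2] at this
      omega
    have hcu := Finset.card_union_of_disjoint hdisj
    rw [← hunion, hcard] at hcu
    have hin : ζ₁ ∈ X.filter (fun ζ => c ζ = 1) := Finset.mem_filter.mpr ⟨hζ₁, hcζ₁⟩
    have hce := Finset.card_erase_of_mem hin
    have hpos : 0 < (X.filter (fun ζ => c ζ = 1)).card := Finset.card_pos.mpr ⟨ζ₁, hin⟩
    rw [hS₁, hS₂, hce]
    omega
  exact ⟨hne, hd1, hd2, hD1, hD2, hin1, hin2, hb1, hb2, hcnt⟩

/-- Stage 1 of STRUCT: the local data, `t = 1`, `|F| = d`, `K` central. -/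
theorem s4504_core {H : Type u} [Group H] [Finite H] (p : ℕ) [Fact p.Prime] (x : H)
    (χ : H → ℂ) (h : S4504Hyp p x χ) (d : ℕ) (hd : Cfsg.charDegree χ = d) :
    ∃ (K : Subgroup H) (F : Subgroup (ZMod p)ˣ) (l₀ : ZMod p) (v : (ZMod p)ˣ)
      (χ₂ : Cfsg.IrrCharacter H) (X : Finset (Cfsg.IrrCharacter H))
      (c : Cfsg.IrrCharacter H → ℤ) (ζ₁ : Cfsg.IrrCharacter H),
      D1Hyp p x K ∧ (F : Set (ZMod p)ˣ) = normUnits p x ∧ Nat.card F = d ∧ 2 ≤ d ∧ l₀ ≠ 0 ∧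
      v ∉ F ∧ (∀ k ∈ K, k ∈ Subgroup.center H) ∧
      B42Shape p x χ 1 l₀ ∧ B42Shape p x (χ₂ : H → ℂ) 1 ((v : ZMod p) * l₀) ∧
      (∀ g : H, ¬ p ∣ orderOf g → (χ₂ : H → ℂ) g = χ g) ∧
      X.card = d ∧ (∀ ζ ∈ X, c ζ = 1 ∨ c ζ = -1) ∧
      (∀ ζ ∈ X, ∀ g : H, p ∣ orderOf g → (ζ : H → ℂ) g = (c ζ : ℂ)) ∧
      ζ₁ ∈ X ∧ (∀ g : H, (ζ₁ : H → ℂ) g = 1) ∧ c ζ₁ = 1 ∧
      (∀ ζ ∈ X, ζ ≠ ζ₁ → (ζ : H → ℂ) x ≠ (ζ : H → ℂ) 1) := by
  classical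
  have hp : p.Prime := Fact.out
  haveI : Fintype H := Fintype.ofFinite H
  have hxo : orderOf x = p := h.grp.hx
  have hsq := h.grp.hsq
  have htop := h.grp.htop
  have hx1 : x ≠ 1 := by
    intro h1
    rw [h1, orderOf_one] at hxo
    exact hp.one_lt.ne hxo
  have hdiv : p ∣ Nat.card H := by rw [← hxo]; exact orderOf_dvd_natCard x
  obtain ⟨P, hxP⟩ : ∃ P : Sylow p H, x ∈ (P : Subgroup H) := by
    have hpg : IsPGroup p (Subgroup.zpowers x) :=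
      IsPGroup.of_card (n := 1) (by rw [Nat.card_zpowers, hxo, pow_one])
    obtain ⟨P, hP⟩ := hpg.exists_le_sylow
    exact ⟨P, hP (Subgroup.mem_zpowers x)⟩
  have hn0 : Nat.card H ≠ 0 := Nat.card_pos.ne'
  have hP : Nat.card P = p := by
    have h1 : 1 ≤ (Nat.card H).factorization p := by
      rw [← hp.pow_dvd_iff_le_factorization hn0, pow_one]; exact hdiv
    have h2 : ¬ 2 ≤ (Nat.card H).factorization p := by
      rw [← hp.pow_dvd_iff_le_factorization hn0]; exact hsq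
    rw [Sylow.card_eq_multiplicity]
    have h3 : (Nat.card H).factorization p = 1 := by omega
    rw [h3, pow_one]
  obtain ⟨K, hK, -, -, hC⟩ := Helper79.s4441_K P hP
  have hD : D1Hyp p x K := ⟨hxo, hK, hC x hxP hx1, hsq⟩
  obtain ⟨-, F, -, hF, -⟩ := Helper29.d1_units p x K hD ⟨fun _ => 1, Helper79.isIrrCharacter_one⟩
  have hmemF : ∀ u : (ZMod p)ˣ, u ∈ F ↔ u ∈ normUnits p x := fun u => by rw [← hF]; rfl
  have hχc : Cfsg.IsCharacter H χ := isChar_of_irr h.hχ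
  have hdeg := h.hdeg
  have hpd : p = 2 * d + 1 := by rw [← hd]; omega
  -- Part I: `F ≠ 1`
  have hFne : ∃ u ∈ normUnits p x, u ≠ 1 := by
    by_contra hno
    have hf : ∀ u ∈ normUnits p x, u = 1 :=
      fun u hu => by_contra fun hne => hno ⟨u, hu, hne⟩
    have hnu : normUnits p x = {1} := by
      ext u
      rw [Set.mem_singleton_iff]
      exact ⟨hf u, fun hu => by rw [hu]; exact (hmemF 1).mp (one_mem F)⟩
    have hcent := Helper45.b42_central_of_scalar p x χ hχc h.hfaith (by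
      intro ξ hdegξ hkerξ
      obtain ⟨θ, l₀, -, hsh⟩ := b42_struct_le p x K hD ξ hkerξ (by omega)
      refine ⟨Cfsg.charDegree (θ : K → ℂ), l₀, ?_, ?_⟩
      · have h1 := hsh 1
        rw [pow_one, hnu, finsum_mem_singleton] at h1
        rw [h1, Nat.cast_one, Units.val_one, one_mul, one_mul]
      · have h1 := hsh 0
        rw [pow_zero, hnu, finsum_mem_singleton] at h1
        rw [h1, Nat.cast_zero, zero_mul, zero_mul, ZMod.val_zero, pow_zero, mul_one])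
    apply h.grp.hnn
    constructor
    intro y hy g
    have h1 : g * y * g⁻¹ = y := by
      obtain ⟨k, rfl⟩ := Subgroup.mem_zpowers_iff.mp hy
      have h2 : g * x = x * g := hcent g
      have h3 : Commute g (x ^ k) := (show Commute g x from h2).zpow_right k
      rw [h3.eq, mul_inv_cancel_right]
    rw [h1]
    exact hy
  obtain ⟨u₁, hu₁, hu₁1⟩ := hFne
  obtain ⟨χ₁, hχ₁⟩ : ∃ χ₁ : Cfsg.IrrCharacter H, (χ₁ : H → ℂ) = χ := ⟨⟨χ, h.hχ⟩, rfl⟩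
  have hker : (χ₁ : H → ℂ) x ≠ (χ₁ : H → ℂ) 1 := by
    rw [hχ₁]; exact fun he => hx1 (h.hfaith x he)
  obtain ⟨θ, l₀, hl₀, hsh⟩ := b42_struct_le p x K hD χ₁ hker (by rw [hχ₁, hdeg])
  obtain ⟨t, ht⟩ : ∃ t : ℕ, t = Cfsg.charDegree (θ : K → ℂ) := ⟨_, rfl⟩
  rw [← ht] at hsh
  have htpos : 0 < t := by rw [ht]; exact Helper81.charDegree_pos θ
  obtain ⟨f, hfdef⟩ : ∃ f : ℕ, f = Nat.card F := ⟨_, rfl⟩
  have hdeg₁ : d = t * f := by
    have h1 := Helper92.b42_shape_one p x F hF _ t l₀ hsh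
    rw [Helper81.irr_one_eq_charDegree, ← hfdef] at h1
    have h2 : Cfsg.charDegree (χ₁ : H → ℂ) = t * f := by exact_mod_cast h1
    rw [← hd, ← hχ₁]; exact h2
  have hf2 : 2 ≤ Nat.card F := by
    have h1 : F ≠ ⊥ := by
      intro hbot
      have h2 : u₁ ∈ F := (hmemF u₁).mpr hu₁
      rw [hbot, Subgroup.mem_bot] at h2
      exact hu₁1 h2
    have h3 := (Subgroup.one_lt_card_iff_ne_bot F).mpr h1
    omega
  have hfle : f ≤ d := by rw [hdeg₁]; exact Nat.le_mul_of_pos_left f htpos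
  obtain ⟨v, hv⟩ : ∃ v : (ZMod p)ˣ, v ∉ F := by
    by_contra hall
    have h1 : F = ⊤ := by
      rw [eq_top_iff]
      intro v _
      by_contra hv
      exact hall ⟨v, hv⟩
    have h2 : Nat.card F = p - 1 := by
      rw [h1, Subgroup.card_top, Nat.card_eq_fintype_card, ZMod.card_units p]
    omega
  have hvn : v ∉ normUnits p x := fun hvn => hv ((hmemF v).mpr hvn)
  obtain ⟨χ₂, hsh₂, hreg⟩ := Helper66.b42_gal p x K hD χ₁ t l₀ hsh v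
  have hps : ∀ g : H, p ∣ orderOf g →
      ∃ (y : H) (b : ℕ) (k : H), ¬ p ∣ b ∧ k ∈ K ∧ y * g * y⁻¹ = x ^ b * k :=
    fun g hg => Helper92.b42_psing p x K hD g hg
  obtain ⟨X, c, ε₀, ψ₀, l, hpr⟩ := Helper15.b42_principal p x K hD (Helper91.b42_d1_strong p)
    (fun θ₀ hθ₀ ζ hζ b hb k hk => Helper12.b42_principal_values p x K hD θ₀ hθ₀ ζ hζ b hb k hk)
    hps v hvn
  obtain ⟨ζ₁, hζ₁X, hζ₁⟩ := hpr.triv
  have hxsing : p ∣ orderOf x := by rw [hxo]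
  have hcζ₁ : c ζ₁ = 1 := by
    have h1 := hpr.val ζ₁ hζ₁X x hxsing
    rw [hζ₁ x] at h1
    exact_mod_cast h1.symm
  have hkerX : ∀ ζ ∈ X, ζ ≠ ζ₁ → (ζ : H → ℂ) x ≠ (ζ : H → ℂ) 1 := by
    intro ζ hζ hne heq
    obtain ⟨L, hLn, hL⟩ := Helper27.b42_ker (ζ : H → ℂ) (isChar_of_irr ζ.2)
    have hLtop := htop L hLn ((hL x).mpr heq)
    have hall : ∀ g : H, (ζ : H → ℂ) g = (ζ : H → ℂ) 1 :=
      fun g => (hL g).mp (by rw [hLtop]; trivial)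
    have hζx := hpr.val ζ hζ x hxsing
    have h1 : ((Cfsg.charDegree (ζ : H → ℂ) : ℕ) : ℂ) = (c ζ : ℂ) := by
      rw [← Helper81.irr_one_eq_charDegree, ← heq, hζx]
    have h2 : ((Cfsg.charDegree (ζ : H → ℂ) : ℕ) : ℤ) = c ζ := by exact_mod_cast h1
    have hc1 : c ζ = 1 := by
      rcases hpr.sign ζ hζ with hc | hc
      · exact hc
      · rw [hc] at h2; omega
    apply hne
    apply Subtype.ext
    funext g
    rw [hall g, hζ₁ g, ← heq, hζx, hc1]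
    norm_num
  have hcardX : X.card = Nat.card F := by
    rw [hpr.card, ← hF]; rfl
  have hχ1 : Cfsg.IsCharacter H (χ₁ : H → ℂ) := isChar_of_irr χ₁.2
  have hχ2 : Cfsg.IsCharacter H (χ₂ : H → ℂ) := isChar_of_irr χ₂.2
  have hα₁ : Cfsg.IsCharacter H (b42Prod (χ₁ : H → ℂ) (χ₁ : H → ℂ)) :=
    Helper79.isCharacter_mul hχ1 (Helper79.isCharacter_conj hχ1)
  have hα₂ : Cfsg.IsCharacter H (b42Prod (χ₁ : H → ℂ) (χ₂ : H → ℂ)) :=
    Helper79.isCharacter_mul hχ1 (Helper79.isCharacter_conj hχ2)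
  have hsh' : B42Shape p x (χ₁ : H → ℂ) t (((1 : (ZMod p)ˣ) : ZMod p) * l₀) := by
    rw [Units.val_one, one_mul]; exact hsh
  have hfix1 : b42Fix p x (b42Prod (χ₁ : H → ℂ) (χ₁ : H → ℂ))
      = ((t ^ 2 * Nat.card F : ℕ) : ℂ) :=
    (Helper88.b42_fix_prod p x hxo F hF _ _ t l₀ hl₀ 1 hsh hsh').1 (one_mem F)
  have hfix2 : b42Fix p x (b42Prod (χ₁ : H → ℂ) (χ₂ : H → ℂ)) = 0 :=
    (Helper88.b42_fix_prod p x hxo F hF _ _ t l₀ hl₀ v hsh hsh₂).2 hv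
  have hne : χ₁ ≠ χ₂ := by
    intro heq
    rw [← heq, hfix1] at hfix2
    have h0 : t ^ 2 * Nat.card F = 0 := by exact_mod_cast hfix2
    have h1 : 0 < t ^ 2 * Nat.card F := Nat.mul_pos (pow_pos htpos 2) (by omega)
    omega
  have hcore : t = 1 ∧ (∀ k ∈ K, k ∈ Subgroup.center H) := by
    by_cases hA : ∃ ζ ∈ X, c ζ = -1
    · -- case A
      obtain ⟨ζs, hζsX, hcs⟩ := hA
      obtain ⟨n₁, hn₁⟩ := Helper3.classInner_isCharacter_nat hα₁ (isChar_of_irr ζs.2)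
      have hkey := Helper92.b42_key_X p χ₁ χ₂ hreg hne ζs (c ζs) (hpr.sign ζs hζsX)
        (hpr.val ζs hζsX)
      rw [hn₁, hcs] at hkey
      have hin : Cfsg.classInner (b42Prod (χ₁ : H → ℂ) (χ₂ : H → ℂ)) (ζs : H → ℂ) ≠ 0 := by
        rw [← hkey]
        have h3 : ((n₁ : ℂ) - ((-1 : ℤ) : ℂ)) = ((n₁ + 1 : ℕ) : ℂ) := by
          push_cast
          ring
        rw [h3]
        exact_mod_cast Nat.succ_ne_zero n₁
      have hfixs : b42Fix p x (ζs : H → ℂ) = 0 :=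
        Helper72.b42_fix_le p x hxo _ hα₂ hfix2 ζs hin
      have hKval : ∀ k ∈ K, (ζs : H → ℂ) k = (p : ℂ) - 1 := by
        intro k hk
        have hsum := Helper72.b42_nofix p x hxo (ζs : H → ℂ) (isChar_of_irr ζs.2) hfixs k
        obtain ⟨q, hq⟩ : ∃ q, p = q + 1 := ⟨p - 1, by have := hp.one_lt; omega⟩
        have hterm : ∀ b ∈ Finset.range q, (ζs : H → ℂ) (x ^ (b + 1) * k) = -1 := by
          intro b hb
          have hb' : ¬ p ∣ b + 1 := by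
            rw [Finset.mem_range] at hb
            intro hd
            have := Nat.le_of_dvd (Nat.succ_pos b) hd
            omega
          rw [hpr.val ζs hζsX _ (Helper92.b42_psing_mul p x K hD (b + 1) hb' k hk), hcs]
          norm_num
        have hsum2 : ∑ b ∈ Finset.range (q + 1), (ζs : H → ℂ) (x ^ b * k) = 0 := by
          rw [← hq]; exact hsum
        rw [Finset.sum_range_succ', Finset.sum_congr rfl hterm, pow_zero, one_mul,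
          Finset.sum_const, Finset.card_range, nsmul_eq_mul] at hsum2
        rw [hq]
        push_cast
        linear_combination hsum2
      have h1val : (ζs : H → ℂ) 1 = (p : ℂ) - 1 := hKval 1 (one_mem K)
      obtain ⟨L, hLn, hL⟩ := Helper27.b42_ker (ζs : H → ℂ) (isChar_of_irr ζs.2)
      have hKL : ∀ k ∈ K, k ∈ L := fun k hk => (hL k).mpr (by rw [hKval k hk, h1val])
      have hxL : x ∉ L := by
        intro hxL
        have h1 := (hL x).mp hxL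
        rw [hpr.val ζs hζsX x hxsing, hcs, h1val] at h1
        have h2 : (p : ℂ) = 0 := by
          push_cast at h1
          linear_combination -h1
        exact hp.ne_zero (by exact_mod_cast h2)
      have hLc := h.grp.hcen L hLn hxL
      have hKc : ∀ k ∈ K, k ∈ Subgroup.center H := fun k hk => hLc (hKL k hk)
      have hKab : ∀ a ∈ K, ∀ b ∈ K, a * b = b * a := by
        intro a ha b hb
        have h1 := Subgroup.mem_center_iff.mp (hKc a ha) b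
        exact h1.symm
      have ht1 : t = 1 := by rw [ht]; exact Helper27.b42_abelian_linear K hKab θ
      exact ⟨ht1, hKc⟩
    · -- case B is impossible
      exfalso
      have hcall : ∀ ζ ∈ X, c ζ = 1 :=
        fun ζ hζ => (hpr.sign ζ hζ).resolve_right (fun hc => hA ⟨ζ, hζ, hc⟩)
      have hε₀ : ε₀ = 1 := by
        rcases hpr.eps with he | he
        · exact he
        · exfalso
          have hdg := hpr.deg
          rw [he] at hdg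
          have hpos : 0 ≤ ∑ ζ ∈ X, c ζ * (Cfsg.charDegree (ζ : H → ℂ) : ℤ) :=
            Finset.sum_nonneg (fun ζ hζ => by rw [hcall ζ hζ]; positivity)
          have hψpos : 0 < (Cfsg.charDegree (ψ₀ : H → ℂ) : ℤ) := by
            exact_mod_cast Helper81.charDegree_pos ψ₀
          linarith
      have hexc : ∀ b : ℕ, ¬ p ∣ b → ∀ k ∈ K, (ψ₀ : H → ℂ) (x ^ b * k)
          = ∑ᶠ s ∈ normUnits p x,
              d1zeta p ^ ((b : ZMod p) * ((s : (ZMod p)ˣ) : ZMod p) * l).val := by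
        intro b hb k hk
        rw [hpr.exc b hb k hk, hε₀, Int.cast_one, one_mul]
      obtain ⟨ψ', l', hl', hin, hval'⟩ :=
        Helper67.b42_key_Y p x K hD hps F hF χ₁ χ₂ hreg hne ψ₀ l hpr.lne hexc
      have hfix' : b42Fix p x (ψ' : H → ℂ) = 0 :=
        Helper72.b42_fix_le p x hxo _ hα₂ hfix2 ψ' hin
      have hshψ : B42Shape p x (ψ' : H → ℂ) 1 l' :=
        Helper45.b42_shape_of_nofix p x hxo F hF (ψ' : H → ℂ) l' hl' hfix' hval'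
      obtain ⟨ψ'', hshψ', hregψ⟩ := Helper66.b42_gal p x K hD ψ' 1 l' hshψ v
      by_cases hfp : 2 * Nat.card F + 1 < p
      · exact b42_count p x hxo F hF hf2 hfp v hv ψ' ψ'' l' hl' hshψ hshψ' hregψ X c hcardX
          hpr.sign hpr.val ζ₁ hζ₁X hcζ₁ hkerX
      · obtain ⟨-, -, -, -, -, -, -, hb1, -, hcnt⟩ :=
          s4504_counts p x hxo F hF hf2 v hv ψ' ψ'' l' hl' hshψ hshψ' hregψ X c hcardX
            hpr.sign hpr.val ζ₁ hζ₁X hcζ₁ hkerX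
        have hS2 : (X.filter (fun ζ => c ζ = -1)).card = 0 := by
          rw [Finset.card_eq_zero, Finset.filter_eq_empty_iff]
          intro ζ hζ hc
          exact hA ⟨ζ, hζ, hc⟩
        rw [hS2] at hcnt
        rw [← hfdef] at hcnt hb1 hfp hf2
        have hpf : p - 1 = 2 * f := by
          have h1 : f ≤ t * f := Nat.le_mul_of_pos_left f htpos
          omega
        have hS1 : ((X.filter (fun ζ => c ζ = 1)).erase ζ₁).card = f - 1 := by omega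
        rw [hS1, hpf] at hb1
        obtain ⟨e, rfl⟩ : ∃ e, f = e + 2 := ⟨f - 2, by omega⟩
        have h7 : e + 2 - 1 = e + 1 := by omega
        rw [h7] at hb1
        have h8 : (e + 2) * (e + 2) - (e + 2) ≤ (e + 2) * (e + 2) := Nat.sub_le _ _
        have h9 : (e + 2) * (e + 2) - (e + 2) = (e + 2) * (e + 1) := by
          have : (e + 2) * (e + 2) = (e + 2) * (e + 1) + (e + 2) := by ring
          omega
        rw [h9] at hb1
        nlinarith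
  obtain ⟨ht1, hKc⟩ := hcore
  rw [ht1] at hsh hsh₂
  have hfd : Nat.card F = d := by rw [hdeg₁, ht1, one_mul, hfdef]
  refine ⟨K, F, l₀, v, χ₂, X, c, ζ₁, hD, hF, hfd, by omega, hl₀, hv, hKc, ?_, hsh₂, ?_,
    by rw [hcardX, hfd], hpr.sign, hpr.val, hζ₁X, hζ₁, hcζ₁, hkerX⟩
  · rw [← hχ₁]; exact hsh
  · intro g hg; rw [← hχ₁]; exact hreg g hg

/-- STRUCT -/
theorem s4504_struct {H : Type u} [Group H] [Finite H] (p : ℕ) [Fact p.Prime] (x : H)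
    (χ : H → ℂ) (h : S4504Hyp p x χ) (d : ℕ) (hd : Cfsg.charDegree χ = d) :
    Nonempty (S4504Tab p d x χ) := by
  classical
  have hp : p.Prime := Fact.out
  haveI : Fintype H := Fintype.ofFinite H
  obtain ⟨K, F, l₀, v, χ₂, X, c, ζ₁, hD, hF, hfd, hd2, hl₀, hv, hKc, hsh, hsh₂, hreg, hcardX,
    hsign, hval, hζ₁X, hζ₁, hcζ₁, hkerX⟩ := s4504_core p x χ h d hd
  obtain ⟨χ₁, rfl⟩ : ∃ χ₁ : Cfsg.IrrCharacter H, (χ₁ : H → ℂ) = χ := ⟨⟨χ, h.hχ⟩, rfl⟩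
  have hxo : orderOf x = p := h.grp.hx
  have hpd : p = 2 * d + 1 := by rw [← hd]; exact h.hdeg.symm
  have hpm : p - 1 = 2 * d := by omega
  have hcardF : 2 * Nat.card F + 1 = p := by rw [hfd]; omega
  have hf2 : 2 ≤ Nat.card F := by rw [hfd]; exact hd2
  have hdpos : 0 < d := by omega
  obtain ⟨hne, hd1, hd2', hD1, hD2, hin1, hin2, hb1, hb2, hcnt⟩ :=
    s4504_counts p x hxo F hF hf2 v hv χ₁ χ₂ l₀ hl₀ hsh hsh₂ hreg X c
      (by rw [hcardX, hfd]) hsign hval ζ₁ hζ₁X hcζ₁ hkerX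
  rw [hfd] at hd1 hd2' hD1 hD2 hb1 hb2 hcnt
  obtain ⟨S₁, hS₁⟩ : ∃ S₁ : Finset (Cfsg.IrrCharacter H),
      S₁ = (X.filter (fun ζ => c ζ = 1)).erase ζ₁ := ⟨_, rfl⟩
  obtain ⟨S₂, hS₂⟩ : ∃ S₂ : Finset (Cfsg.IrrCharacter H),
      S₂ = X.filter (fun ζ => c ζ = -1) := ⟨_, rfl⟩
  rw [← hS₁] at hin1 hb1 hcnt
  rw [← hS₂] at hin2 hb2 hcnt
  have hmem1 : ∀ ζ ∈ S₁, ζ ∈ X ∧ c ζ = 1 ∧ ζ ≠ ζ₁ := by
    intro ζ hζ
    rw [hS₁, Finset.mem_erase, Finset.mem_filter] at hζ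
    exact ⟨hζ.2.1, hζ.2.2, hζ.1⟩
  have hmem2 : ∀ ζ ∈ S₂, ζ ∈ X ∧ c ζ = -1 := by
    intro ζ hζ
    rw [hS₂, Finset.mem_filter] at hζ
    exact hζ
  have hxsing : ∀ b : ℕ, ¬ p ∣ b → p ∣ orderOf (x ^ b) := by
    intro b hb
    have hcop : Nat.Coprime (orderOf x) b := by
      rw [hxo]; exact (Nat.Prime.coprime_iff_not_dvd hp).mpr hb
    rw [hcop.orderOf_pow, hxo]
  have hxs : p ∣ orderOf x := by rw [hxo]
  have htriv : ∀ ζ : Cfsg.IrrCharacter H, (ζ : H → ℂ) = (fun _ => 1) → ζ = ζ₁ := by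
    intro ζ hζ
    apply Subtype.ext
    funext g
    rw [hζ, hζ₁ g]
  have hS1nt : ∀ ζ ∈ S₁, (ζ : H → ℂ) ≠ fun _ => 1 :=
    fun ζ hζ hζ1 => (hmem1 ζ hζ).2.2 (htriv ζ hζ1)
  have hS2ne : ∀ ζ ∈ S₂, ζ ≠ ζ₁ := by
    intro ζ hζ heq
    have h1 := (hmem2 ζ hζ).2
    rw [heq, hcζ₁] at h1
    omega
  have hS2nt : ∀ ζ ∈ S₂, (ζ : H → ℂ) ≠ fun _ => 1 :=
    fun ζ hζ hζ1 => hS2ne ζ hζ (htriv ζ hζ1)
  have hS1val : ∀ ζ ∈ S₁, ∀ b : ℕ, ¬ p ∣ b → (ζ : H → ℂ) (x ^ b) = 1 := by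
    intro ζ hζ b hb
    obtain ⟨hζX, hc, -⟩ := hmem1 ζ hζ
    rw [hval ζ hζX _ (hxsing b hb), hc]
    norm_num
  have hS2val : ∀ ζ ∈ S₂, ∀ b : ℕ, ¬ p ∣ b → (ζ : H → ℂ) (x ^ b) = -1 := by
    intro ζ hζ b hb
    obtain ⟨hζX, hc⟩ := hmem2 ζ hζ
    rw [hval ζ hζX _ (hxsing b hb), hc]
    norm_num
  have hmux1 : ∀ ζ ∈ S₁, ∃ m : ℕ, 1 ≤ m ∧
      (ζ : H → ℂ) 1 - b42Fix p x (ζ : H → ℂ) = ((m * (p - 1) : ℕ) : ℂ) ∧
      (ζ : H → ℂ) 1 = ((m * p : ℕ) : ℂ) + 1 := by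
    intro ζ hζ
    obtain ⟨hζX, hc, hne1⟩ := hmem1 ζ hζ
    obtain ⟨m, hm1, hm2, hm3⟩ := Helper39.s4504s_mux p x hxo (ζ : H → ℂ) (isChar_of_irr ζ.2)
      (c ζ) (hsign ζ hζX) (fun b hb => hval ζ hζX _ (hxsing b hb)) (hkerX ζ hζX hne1)
    refine ⟨m, hm1, hm2, ?_⟩
    rw [hm3, hc]
    norm_num
  have hmux2 : ∀ ζ ∈ S₂, ∃ m : ℕ, 1 ≤ m ∧
      (ζ : H → ℂ) 1 - b42Fix p x (ζ : H → ℂ) = ((m * (p - 1) : ℕ) : ℂ) ∧
      (ζ : H → ℂ) 1 = ((m * p : ℕ) : ℂ) - 1 := by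
    intro ζ hζ
    obtain ⟨hζX, hc⟩ := hmem2 ζ hζ
    obtain ⟨m, hm1, hm2, hm3⟩ := Helper39.s4504s_mux p x hxo (ζ : H → ℂ) (isChar_of_irr ζ.2)
      (c ζ) (hsign ζ hζX) (fun b hb => hval ζ hζX _ (hxsing b hb))
      (hkerX ζ hζX (hS2ne ζ hζ))
    refine ⟨m, hm1, hm2, ?_⟩
    rw [hm3, hc]
    push_cast
    ring
  have hnt := fun (ξ : Cfsg.IrrCharacter H) (hξ : (ξ : H → ℂ) ≠ fun _ => 1) =>
    Helper39.s4504s_nontriv p x hxo h.grp.htop ξ hξ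
  have hmin : ∀ ξ : Cfsg.IrrCharacter H, (ξ : H → ℂ) ≠ (fun _ => 1) →
      d ≤ Cfsg.charDegree (ξ : H → ℂ) := by
    intro ξ hξ
    by_contra hlt
    obtain ⟨θ', l', -, hsh'⟩ := b42_struct p x K hD ξ (hnt ξ hξ).1 (by omega)
    have h1 := Helper92.b42_shape_one p x F hF _ _ l' hsh'
    rw [Helper81.irr_one_eq_charDegree, hfd] at h1
    have h2 : Cfsg.charDegree (ξ : H → ℂ) = Cfsg.charDegree (θ' : K → ℂ) * d := by
      exact_mod_cast h1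
    have h3 := Helper81.charDegree_pos θ'
    have h4 : d ≤ Cfsg.charDegree (θ' : K → ℂ) * d := Nat.le_mul_of_pos_left d h3
    omega
  have hχ1c : Cfsg.IsCharacter H (χ₁ : H → ℂ) := isChar_of_irr χ₁.2
  have hχ2c : Cfsg.IsCharacter H (χ₂ : H → ℂ) := isChar_of_irr χ₂.2
  have hα₁ : Cfsg.IsCharacter H (b42Prod (χ₁ : H → ℂ) (χ₁ : H → ℂ)) :=
    Helper79.isCharacter_mul hχ1c (Helper79.isCharacter_conj hχ1c)
  have hα₂ : Cfsg.IsCharacter H (b42Prod (χ₁ : H → ℂ) (χ₂ : H → ℂ)) :=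
    Helper79.isCharacter_mul hχ1c (Helper79.isCharacter_conj hχ2c)
  have ha1 : Cfsg.classInner (b42Prod (χ₁ : H → ℂ) (χ₁ : H → ℂ)) (fun _ => (1 : ℂ))
      = ((1 : ℕ) : ℂ) := by
    have h11 := Helper3.classInner_irr χ₁ χ₁
    rw [if_pos rfl] at h11
    have e : Cfsg.classInner (b42Prod (χ₁ : H → ℂ) (χ₁ : H → ℂ)) (fun _ => (1 : ℂ))
        = Cfsg.classInner (χ₁ : H → ℂ) (χ₁ : H → ℂ) := by
      unfold Cfsg.classInner b42Prod
      simp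
    rw [e, h11, Nat.cast_one]
  have ha2 : Cfsg.classInner (b42Prod (χ₁ : H → ℂ) (χ₂ : H → ℂ)) (fun _ => (1 : ℂ))
      = ((0 : ℕ) : ℂ) := by
    have h12 := Helper3.classInner_irr χ₁ χ₂
    rw [if_neg hne] at h12
    have e : Cfsg.classInner (b42Prod (χ₁ : H → ℂ) (χ₂ : H → ℂ)) (fun _ => (1 : ℂ))
        = Cfsg.classInner (χ₁ : H → ℂ) (χ₂ : H → ℂ) := by
      unfold Cfsg.classInner b42Prod
      simp
    rw [e, h12, Nat.cast_zero]
  have hα1one : b42Prod (χ₁ : H → ℂ) (χ₁ : H → ℂ) 1 = ((d * d : ℕ) : ℂ) := by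
    unfold b42Prod
    rw [hd1, Complex.conj_natCast]
    push_cast
    ring
  have hα2one : b42Prod (χ₁ : H → ℂ) (χ₂ : H → ℂ) 1 = ((d * d : ℕ) : ℂ) := by
    unfold b42Prod
    rw [hd1, hd2', Complex.conj_natCast]
    push_cast
    ring
  have hμ1 : ∀ ζ ∈ S₁, ∃ m : ℕ, 1 ≤ m ∧
      (ζ : H → ℂ) 1 - b42Fix p x (ζ : H → ℂ) = ((m * (p - 1) : ℕ) : ℂ) := by
    intro ζ hζ
    obtain ⟨m, hm1, hm2, -⟩ := hmux1 ζ hζ
    exact ⟨m, hm1, hm2⟩
  have hμ2 : ∀ ζ ∈ S₂, ∃ m : ℕ, 1 ≤ m ∧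
      (ζ : H → ℂ) 1 - b42Fix p x (ζ : H → ℂ) = ((m * (p - 1) : ℕ) : ℂ) := by
    intro ζ hζ
    obtain ⟨m, hm1, hm2, -⟩ := hmux2 ζ hζ
    exact ⟨m, hm1, hm2⟩
  have hntD : ∀ ξ : Cfsg.IrrCharacter H, (ξ : H → ℂ) ≠ (fun _ => 1) →
      (ξ : H → ℂ) 1 - b42Fix p x (ξ : H → ℂ) ≠ 0 := fun ξ hξ => (hnt ξ hξ).2
  have hdec1 := fun (r : ℕ) (hDr : d * d - d = S₁.card * (p - 1) + r) (hr : r < p - 1) =>
    Helper83.s4504s_dec p x hxo _ hα₁ 1 ha1 S₁ hS1nt hin1 hμ1 (d * d - d) r hD1 hDr hr hntD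
  have hdec2 := fun (r : ℕ) (hDr : d * d = S₂.card * (p - 1) + r) (hr : r < p - 1) =>
    Helper83.s4504s_dec p x hxo _ hα₂ 0 ha2 S₂ hS2nt hin2 hμ2 (d * d) r hD2 hDr hr hntD
  have hpm1 : 0 < p - 1 := by omega
  have hdegS1 : (∀ ζ ∈ S₁, (ζ : H → ℂ) 1 - b42Fix p x (ζ : H → ℂ) = ((p - 1 : ℕ) : ℂ)) →
      ∀ ζ ∈ S₁, (ζ : H → ℂ) 1 = ((p + 1 : ℕ) : ℂ) := by
    intro hi ζ hζ
    obtain ⟨m, hm1, hm2, hm3⟩ := hmux1 ζ hζ
    have h1 := hi ζ hζ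
    rw [hm2] at h1
    have h2 : m * (p - 1) = p - 1 := by exact_mod_cast h1
    have h3 : m = 1 := Nat.eq_of_mul_eq_mul_right hpm1 (by rw [h2, one_mul])
    rw [hm3, h3]
    push_cast
    ring
  have hdegS2 : (∀ ζ ∈ S₂, (ζ : H → ℂ) 1 - b42Fix p x (ζ : H → ℂ) = ((p - 1 : ℕ) : ℂ)) →
      ∀ ζ ∈ S₂, (ζ : H → ℂ) 1 = ((p - 1 : ℕ) : ℂ) := by
    intro hi ζ hζ
    obtain ⟨m, hm1, hm2, hm3⟩ := hmux2 ζ hζ
    have h1 := hi ζ hζ
    rw [hm2] at h1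
    have h2 : m * (p - 1) = p - 1 := by exact_mod_cast h1
    have h3 : m = 1 := Nat.eq_of_mul_eq_mul_right hpm1 (by rw [h2, one_mul])
    rw [hm3, h3, Nat.cast_sub hp.one_le]
    push_cast
    ring
  have h2S1 : 2 * S₁.card ≤ d - 1 := by
    have h1 : (2 * S₁.card) * d ≤ (d - 1) * d := by
      have e : (d - 1) * d = d * d - d := by rw [Nat.sub_mul, one_mul]
      rw [e]
      calc (2 * S₁.card) * d = S₁.card * (p - 1) := by rw [hpm]; ring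
        _ ≤ d * d - d := hb1
    exact Nat.le_of_mul_le_mul_right h1 hdpos
  have h2S2 : 2 * S₂.card ≤ d := by
    have h1 : (2 * S₂.card) * d ≤ d * d := by
      calc (2 * S₂.card) * d = S₂.card * (p - 1) := by rw [hpm]; ring
        _ ≤ d * d := hb2
    exact Nat.le_of_mul_le_mul_right h1 hdpos
  have hff : d ≤ d * d := Nat.le_mul_self d
  -- the package
  have hpack : ∃ ψ₁ : Cfsg.IrrCharacter H, ψ₁ ∉ S₁ ∧ ψ₁ ∉ S₂ ∧ (ψ₁ : H → ℂ) ≠ (fun _ => 1) ∧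
      (ψ₁ : H → ℂ) 1 = (((if Even d then d + 1 else d) : ℕ) : ℂ) ∧
      (ψ₁ : H → ℂ) 1 - b42Fix p x (ψ₁ : H → ℂ) = (d : ℂ) ∧
      (∀ g : H, (χ₁ : H → ℂ) g * conj ((χ₁ : H → ℂ) g)
        = 1 + ∑ ζ ∈ S₁, (ζ : H → ℂ) g + (if Even d then (ψ₁ : H → ℂ) g else 0)) ∧
      (∀ g : H, (χ₁ : H → ℂ) g * conj ((χ₂ : H → ℂ) g)
        = ∑ ζ ∈ S₂, (ζ : H → ℂ) g + (if Even d then 0 else (ψ₁ : H → ℂ) g)) ∧
      (∀ ζ ∈ S₁, (ζ : H → ℂ) 1 = ((p + 1 : ℕ) : ℂ)) ∧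
      (∀ ζ ∈ S₂, (ζ : H → ℂ) 1 = ((p - 1 : ℕ) : ℂ)) ∧
      2 * S₁.card + 1 + (if Even d then 1 else 0) = d := by
    rcases Nat.even_or_odd d with hev | hodd
    · have hA : 2 * S₁.card + 2 = d := by
        obtain ⟨k, hk⟩ := hev
        omega
      have hB : 2 * S₂.card = d := by
        obtain ⟨k, hk⟩ := hev
        omega
      have e1 : d * d = S₁.card * (2 * d) + d + d := by
        have h1 : d * d = (2 * S₁.card + 2) * d := by rw [hA]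
        rw [h1]; ring
      have hDr1 : d * d - d = S₁.card * (p - 1) + d := by
        rw [hpm]; omega
      have hDr2 : d * d = S₂.card * (p - 1) + 0 := by
        rw [hpm]
        have h1 : d * d = (2 * S₂.card) * d := by rw [hB]
        rw [h1]; ring
      obtain ⟨hi1, -, hiii1⟩ := hdec1 d hDr1 (by omega)
      obtain ⟨hi2, hii2, -⟩ := hdec2 0 hDr2 (by omega)
      have hq1 := hdegS1 hi1
      have hq2 := hdegS2 hi2
      have hone : b42Prod (χ₁ : H → ℂ) (χ₁ : H → ℂ) 1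
          = ((1 + S₁.card * (p + 1) + (d + 1) : ℕ) : ℂ) := by
        rw [hα1one]
        congr 1
        have e2 : S₁.card * (p + 1) = S₁.card * (2 * d) + 2 * S₁.card := by
          rw [hpd]; ring
        omega
      obtain ⟨ψ₁, hψS1, hψnt, hψ1, hψD, hψdec⟩ :=
        hiii1 hdpos (p + 1) (d + 1) d hq1 hone (by omega) hmin
      refine ⟨ψ₁, hψS1, ?_, hψnt, ?_, hψD, ?_, ?_, hq1, hq2, ?_⟩
      · intro hmem
        have h1 := hq2 ψ₁ hmem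
        rw [hψ1] at h1
        have h2 : d + 1 = p - 1 := by exact_mod_cast h1
        omega
      · rw [if_pos hev]; exact hψ1
      · intro g
        rw [if_pos hev]
        have h1 := hψdec g
        rw [Nat.cast_one] at h1
        exact h1
      · intro g
        rw [if_pos hev]
        have h1 := hii2 rfl g
        rw [Nat.cast_zero, zero_add] at h1
        rw [add_zero]
        exact h1
      · rw [if_pos hev]; omega
    · have hnev : ¬ Even d := Nat.not_even_iff_odd.mpr hodd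
      have hA : 2 * S₁.card + 1 = d := by
        obtain ⟨k, hk⟩ := hodd
        omega
      have hB : 2 * S₂.card + 1 = d := by
        obtain ⟨k, hk⟩ := hodd
        omega
      have e1 : d * d = S₁.card * (2 * d) + d := by
        have h1 : d * d = (2 * S₁.card + 1) * d := by rw [hA]
        rw [h1]; ring
      have e2 : d * d = S₂.card * (2 * d) + d := by
        have h1 : d * d = (2 * S₂.card + 1) * d := by rw [hB]
        rw [h1]; ring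
      have hDr1 : d * d - d = S₁.card * (p - 1) + 0 := by
        rw [hpm]; omega
      have hDr2 : d * d = S₂.card * (p - 1) + d := by
        rw [hpm]; exact e2
      obtain ⟨hi1, hii1, -⟩ := hdec1 0 hDr1 (by omega)
      obtain ⟨hi2, -, hiii2⟩ := hdec2 d hDr2 (by omega)
      have hq1 := hdegS1 hi1
      have hq2 := hdegS2 hi2
      have hone : b42Prod (χ₁ : H → ℂ) (χ₂ : H → ℂ) 1
          = ((0 + S₂.card * (p - 1) + d : ℕ) : ℂ) := by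
        rw [hα2one]
        congr 1
        rw [hpm]; omega
      obtain ⟨ψ₁, hψS2, hψnt, hψ1, hψD, hψdec⟩ :=
        hiii2 hdpos (p - 1) d d hq2 hone (by omega) hmin
      refine ⟨ψ₁, ?_, hψS2, hψnt, ?_, hψD, ?_, ?_, hq1, hq2, ?_⟩
      · intro hmem
        have h1 := hq1 ψ₁ hmem
        rw [hψ1] at h1
        have h2 : d = p + 1 := by exact_mod_cast h1
        omega
      · rw [if_neg hnev]; exact hψ1
      · intro g
        rw [if_neg hnev]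
        have h1 := hii1 rfl g
        rw [Nat.cast_one] at h1
        rw [add_zero]
        exact h1
      · intro g
        rw [if_neg hnev]
        have h1 := hψdec g
        rw [Nat.cast_zero, zero_add] at h1
        exact h1
      · rw [if_neg hnev]; omega
  obtain ⟨ψ₁, hψS1, hψS2, hψnt, hψ1, hψD, hdecA, hdecB, hq1, hq2, hcardS⟩ := hpack
  obtain ⟨ψ₂, τ, hτ, hψreg, hψpow⟩ := Helper82.s4504s_galc p x K hD ψ₁ v
  obtain ⟨hconj, hhalf⟩ := Helper77.s4504s_conj p x hxo F hF (χ₁ : H → ℂ) l₀ hl₀ hsh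
  obtain ⟨hsum, hswap, hkeep, hvx⟩ := Helper39.s4504s_swap p x hxo F hF hcardF v hv
    (χ₁ : H → ℂ) (χ₂ : H → ℂ) l₀ hl₀ hsh hsh₂
  have hdiff := Helper77.s4504s_diff p x hxo F hF hcardF v hv
    (χ₁ : H → ℂ) (χ₂ : H → ℂ) l₀ hl₀ hsh hsh₂
  obtain ⟨hcls, hv2⟩ := Helper37.s4504s_cls p x hxo F hF hcardF v hv
  have hcenK : Subgroup.center H = K := Helper37.s4504s_center p x K hD hKc h.grp.hnn
  have hpC : (p : ℂ) ≠ 0 := by exact_mod_cast hp.ne_zero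
  have hdC : (d : ℂ) ≠ 0 := by exact_mod_cast hdpos.ne'
  have hp1 : ¬ p ∣ 1 := fun hdv => hp.one_lt.ne' (Nat.dvd_one.mp hdv)
  have hvp : ¬ p ∣ (v : ZMod p).val := by
    intro hdvd
    have h1 : (((v : ZMod p).val : ℕ) : ZMod p) = 0 := (ZMod.natCast_eq_zero_iff _ _).mpr hdvd
    rw [ZMod.natCast_zmod_val] at h1
    exact v.ne_zero h1
  have hxne : (χ₁ : H → ℂ) x ≠ (χ₂ : H → ℂ) x := by
    intro heq
    have h1 : (χ₁ : H → ℂ) (x ^ (v : ZMod p).val) = (χ₁ : H → ℂ) x := by rw [hvx, heq]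
    obtain ⟨n, hn⟩ := (hconj _ hvp).mp h1
    have h2 : v ∈ normUnits p x := ⟨n, hn⟩
    rw [← hF] at h2
    exact hv h2
  have hvx₂ : (χ₂ : H → ℂ) (x ^ (v : ZMod p).val) = (χ₁ : H → ℂ) x :=
    (hswap _ hvp (by rw [hvx]; exact fun e => hxne e.symm)).2
  have hK_reg : ∀ k ∈ K, ¬ p ∣ orderOf k := by
    intro k hk hdvd
    have h1 : orderOf (⟨k, hk⟩ : K) ∣ Nat.card K := orderOf_dvd_natCard _
    rw [Subgroup.orderOf_mk] at h1
    exact hD.hK (hdvd.trans h1)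
  have hcz : ∀ ξ : Cfsg.IrrCharacter H, ∃ cz : Subgroup.center H → ℂ,
      ∀ (z : Subgroup.center H) (g : H), (ξ : H → ℂ) (g * (z : H)) = cz z * (ξ : H → ℂ) g :=
    fun ξ => Helper76.exists_central_scalar (Subgroup.center H).subtype (fun z => z.2) ξ
  have hXZ : ∀ ζ ∈ X, ∀ z ∈ Subgroup.center H, (ζ : H → ℂ) z = (ζ : H → ℂ) 1 := by
    intro ζ hζ z hz
    obtain ⟨cz, hcz'⟩ := hcz ζ
    have hzK : z ∈ K := by rw [← hcenK]; exact hz
    have h1 : (ζ : H → ℂ) (x * z) = cz ⟨z, hz⟩ * (ζ : H → ℂ) x := hcz' ⟨z, hz⟩ x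
    have h2 : p ∣ orderOf (x ^ 1 * z) := Helper92.b42_psing_mul p x K hD 1 hp1 z hzK
    rw [pow_one] at h2
    rw [hval ζ hζ _ h2, hval ζ hζ x hxs] at h1
    have hc0 : (c ζ : ℂ) ≠ 0 := by
      rcases hsign ζ hζ with hc | hc <;> rw [hc] <;> norm_num
    have hcz1 : cz ⟨z, hz⟩ = 1 := by
      apply mul_right_cancel₀ hc0
      rw [one_mul]
      exact h1.symm
    have h3 : (ζ : H → ℂ) (1 * z) = cz ⟨z, hz⟩ * (ζ : H → ℂ) 1 := hcz' ⟨z, hz⟩ 1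
    rw [one_mul, hcz1, one_mul] at h3
    exact h3
  have hαZ : ∀ z ∈ Subgroup.center H,
      (χ₁ : H → ℂ) z * conj ((χ₁ : H → ℂ) z) = (χ₁ : H → ℂ) 1 * conj ((χ₁ : H → ℂ) 1) ∧
      (χ₂ : H → ℂ) z = (χ₁ : H → ℂ) z := by
    intro z hz
    obtain ⟨cz, hcz'⟩ := hcz χ₁
    have h1 : (χ₁ : H → ℂ) (1 * z) = cz ⟨z, hz⟩ * (χ₁ : H → ℂ) 1 := hcz' ⟨z, hz⟩ 1
    rw [one_mul] at h1
    have hmul := Helper76.scalar_mul (Subgroup.center H).subtype (χ₁ : H → ℂ)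
      (Helper76.irr_one_ne_zero χ₁) cz hcz'
    have hnorm := Helper76.scalar_norm cz hmul.1 hmul.2 ⟨z, hz⟩
    constructor
    · rw [h1, map_mul]
      linear_combination ((χ₁ : H → ℂ) 1 * conj ((χ₁ : H → ℂ) 1)) * hnorm
    · exact hreg z (hK_reg z (by rw [← hcenK]; exact hz))
  have hψform : ∀ g : H, (ψ₁ : H → ℂ) g = (χ₁ : H → ℂ) g * conj ((χ₁ : H → ℂ) g)
      + (χ₁ : H → ℂ) g * conj ((χ₂ : H → ℂ) g) - 1 - ∑ ζ ∈ S₁, (ζ : H → ℂ) g
      - ∑ ζ ∈ S₂, (ζ : H → ℂ) g := by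
    intro g
    have h1 := hdecA g
    have h2 := hdecB g
    by_cases hev : Even d
    · rw [if_pos hev] at h1 h2
      linear_combination -h1 - h2
    · rw [if_neg hev] at h1 h2
      linear_combination -h1 - h2
  have hψZ : ∀ z ∈ Subgroup.center H, (ψ₁ : H → ℂ) z = (ψ₁ : H → ℂ) 1 := by
    intro z hz
    obtain ⟨hz1, hz2⟩ := hαZ z hz
    have e1 : ∑ ζ ∈ S₁, (ζ : H → ℂ) z = ∑ ζ ∈ S₁, (ζ : H → ℂ) 1 :=
      Finset.sum_congr rfl (fun ζ hζ => hXZ ζ (hmem1 ζ hζ).1 z hz)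
    have e2 : ∑ ζ ∈ S₂, (ζ : H → ℂ) z = ∑ ζ ∈ S₂, (ζ : H → ℂ) 1 :=
      Finset.sum_congr rfl (fun ζ hζ => hXZ ζ (hmem2 ζ hζ).1 z hz)
    have e3 : (χ₂ : H → ℂ) 1 = (χ₁ : H → ℂ) 1 := by rw [hd2', hd1]
    rw [hψform z, hψform 1, e1, e2, hz2, e3, hz1]
  have hψcl : ∀ g y : H, (ψ₁ : H → ℂ) (y * g * y⁻¹) = (ψ₁ : H → ℂ) g :=
    fun g y => Helper81.irr_conj ψ₁ g y
  have hsplit := Helper37.s4504s_split p x hxo F hF hcardF v hv (ψ₁ : H → ℂ) hψcl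
  rw [hfd] at hsplit
  have hfixψ : ∑ b ∈ Finset.range p, (ψ₁ : H → ℂ) (x ^ b)
      = (p : ℂ) * ((ψ₁ : H → ℂ) 1 - d) := by
    have h1 : b42Fix p x (ψ₁ : H → ℂ) = (ψ₁ : H → ℂ) 1 - d := by linear_combination -hψD
    unfold b42Fix at h1
    rw [← h1, ← mul_assoc, mul_inv_cancel₀ hpC, one_mul]
  have hpC' : (p : ℂ) = 2 * d + 1 := by rw [hpd]; push_cast; ring
  have hwsum : (ψ₁ : H → ℂ) x + (ψ₁ : H → ℂ) (x ^ (v : ZMod p).val)
      = if Even d then 1 else -1 := by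
    have h1 := hsplit.symm.trans hfixψ
    by_cases hev : Even d
    · rw [if_pos hev] at hψ1 ⊢
      rw [hψ1, hpC'] at h1
      push_cast at h1
      apply mul_left_cancel₀ hdC
      linear_combination h1
    · rw [if_neg hev] at hψ1 ⊢
      rw [hψ1, hpC'] at h1
      apply mul_left_cancel₀ hdC
      linear_combination h1
  have hψ₂x : (ψ₂ : H → ℂ) x = (ψ₁ : H → ℂ) (x ^ (v : ZMod p).val) := by
    have h1 := hψpow 1
    rw [pow_one, one_mul] at h1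
    exact h1
  have hψ₂v : (ψ₂ : H → ℂ) (x ^ (v : ZMod p).val) = (ψ₁ : H → ℂ) x := by
    have h1 := hψpow (v : ZMod p).val
    obtain ⟨n, hn⟩ := hv2
    rw [h1, ← hn]
    exact hψcl x n
  have hwne : (ψ₁ : H → ℂ) x ≠ (ψ₁ : H → ℂ) (x ^ (v : ZMod p).val) := by
    intro heq
    rw [← heq] at hwsum
    have h1 : 2 * (ψ₁ : H → ℂ) x = (((if Even d then 1 else -1 : ℤ)) : ℂ) := by
      by_cases hev : Even d
      · rw [if_pos hev] at hwsum ⊢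
        push_cast
        linear_combination hwsum
      · rw [if_neg hev] at hwsum ⊢
        push_cast
        linear_combination hwsum
    obtain ⟨k, hk⟩ := Helper82.s4504s_halfint p x hxo (ψ₁ : H → ℂ) (isChar_of_irr ψ₁.2) _ h1
    split_ifs at hk <;> omega
  have hψne : ψ₁ ≠ ψ₂ := by
    intro heq
    apply hwne
    rw [← hψ₂x, ← heq]
  have hψ₂one : (ψ₂ : H → ℂ) 1 = (ψ₁ : H → ℂ) 1 :=
    hψreg 1 (by rw [orderOf_one]; exact hp1)
  have hψ₂nt : (ψ₂ : H → ℂ) ≠ fun _ => 1 := by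
    intro he
    have h1 := congrFun he 1
    rw [hψ₂one, hψ1] at h1
    have h2 : (if Even d then d + 1 else d) = 1 := by exact_mod_cast h1
    split_ifs at h2 <;> omega
  have hψ₂S1 : ψ₂ ∉ S₁ := by
    intro hm
    have h1 := hq1 ψ₂ hm
    rw [hψ₂one, hψ1] at h1
    have h2 : (if Even d then d + 1 else d) = p + 1 := by exact_mod_cast h1
    split_ifs at h2 <;> omega
  have hψ₂S2 : ψ₂ ∉ S₂ := by
    intro hm
    have h1 := hq2 ψ₂ hm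
    rw [hψ₂one, hψ1] at h1
    have h2 : (if Even d then d + 1 else d) = p - 1 := by exact_mod_cast h1
    split_ifs at h2 <;> omega
  have hcompl : ∀ ξ : Cfsg.IrrCharacter H,
      (∀ z ∈ Subgroup.center H, (ξ : H → ℂ) z = (ξ : H → ℂ) 1) →
      (ξ : H → ℂ) ≠ (fun _ => 1) → ξ ∉ S₁ → ξ ∉ S₂ → ξ ≠ ψ₁ → ξ ≠ ψ₂ → (ξ : H → ℂ) x = 0 := by
    intro ξ hξZ hξ1 hξS1 hξS2 hξψ₁ hξψ₂
    refine Helper15.s4504s_compl p x K hD hKc v hcls ψ₁ ψ₂ hψreg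
      (fun k hk => hψZ k (hKc k hk)) hψ₂x hψ₂v hwne ?_ S₁ S₂ (if Even d then 1 else -1) ?_
      (fun g => (χ₁ : H → ℂ) g * conj ((χ₁ : H → ℂ) g)
        - (χ₁ : H → ℂ) g * conj ((χ₂ : H → ℂ) g)) ?_ ?_ hψnt hψS1 hψS2 hψ₂nt hψ₂S1 hψ₂S2 hψne ξ
      (fun k hk => hξZ k (hKc k hk)) hξ1 hξS1 hξS2 hξψ₁ hξψ₂
    · rw [hwsum]
      split_ifs <;> norm_num
    · split_ifs <;> norm_num
    · intro g hg
      show (χ₁ : H → ℂ) g * conj ((χ₁ : H → ℂ) g)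
        - (χ₁ : H → ℂ) g * conj ((χ₂ : H → ℂ) g) = 0
      rw [hreg g hg]
      ring
    · intro g
      show (χ₁ : H → ℂ) g * conj ((χ₁ : H → ℂ) g)
        - (χ₁ : H → ℂ) g * conj ((χ₂ : H → ℂ) g) = _
      have h1 := hdecA g
      have h2 := hdecB g
      by_cases hev : Even d
      · rw [if_pos hev] at h1 h2 ⊢
        linear_combination h1 - h2
      · rw [if_neg hev] at h1 h2 ⊢
        linear_combination h1 - h2
  have honly : ∀ ξ : Cfsg.IrrCharacter H,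
      (∀ z ∈ Subgroup.center H,
        (ξ : H → ℂ) z * (χ₁ : H → ℂ) 1 = (χ₁ : H → ℂ) z * (ξ : H → ℂ) 1) →
      (ξ : H → ℂ) ≠ (χ₁ : H → ℂ) → ξ ≠ χ₂ →
      (ξ : H → ℂ) x = 0 ∨ ∀ b : ℕ, ¬ p ∣ b → (ξ : H → ℂ) (x ^ b) = (ξ : H → ℂ) x := by
    intro ξ hcc h1 h2
    right
    have hsumx := hsum 1 hp1
    rw [pow_one] at hsumx
    exact Helper74.s4504s_only p x K hD hKc v hcls χ₁ χ₂ hne hreg hsumx hvx hvx₂ hxne ξ hcc
      (fun he => h1 (by rw [he])) h2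
  have hsum1 : ∑ b ∈ Finset.range p, (ψ₁ : H → ℂ) (x ^ b) = if Even d then (p : ℂ) else 0 := by
    rw [hfixψ, hψ1]
    split_ifs <;> push_cast <;> ring
  exact ⟨{
    χ₂ := χ₂
    X1 := S₁
    X2 := S₂
    ψ₁ := ψ₁
    ψ₂ := ψ₂
    hcent := by
      intro g hg
      obtain ⟨i, k, hk, rfl⟩ := (hD.hC g).mp hg
      exact ⟨i, k, hKc k hk, rfl⟩
    hnormcard := by
      rw [Helper12.s4504s_normcard p x K hD F hF, hfd, hcenK]
    hconj := hconj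
    hreg₂ := hreg
    hsum := hsum
    hdiff := by
      intro b hb
      rw [hdiff b hb, hfd]
    hhalf := hhalf.trans hfd
    hswap := hswap
    hkeep := hkeep
    honly := honly
    hX1deg := by
      intro ξ hξ
      have h1 := hq1 ξ hξ
      rw [Helper81.irr_one_eq_charDegree] at h1
      exact_mod_cast h1
    hX1val := hS1val
    hX1Z := fun ξ hξ z hz => hXZ ξ (hmem1 ξ hξ).1 z hz
    hX2deg := by
      intro ξ hξ
      have h1 := hq2 ξ hξ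
      rw [Helper81.irr_one_eq_charDegree] at h1
      exact_mod_cast h1
    hX2val := hS2val
    hX2Z := fun ξ hξ z hz => hXZ ξ (hmem2 ξ hξ).1 z hz
    hX1card := hcardS
    hψdeg := by
      rw [Helper81.irr_one_eq_charDegree] at hψ1
      exact_mod_cast hψ1
    hψne := hψne
    hψreg := hψreg
    hψZ := hψZ
    hψx := by
      rw [hψ₂x, hwsum]
      by_cases hev : Even d
      · rw [if_pos hev, hev.neg_one_pow]
      · rw [if_neg hev, (Nat.not_even_iff_odd.mp hev).neg_one_pow]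
    hψsum₁ := hsum1
    hψsum₂ := by
      have h1 : ∑ b ∈ Finset.range p, (ψ₂ : H → ℂ) (x ^ b)
          = τ (∑ b ∈ Finset.range p, (ψ₁ : H → ℂ) (x ^ b)) := by
        rw [map_sum]
        exact Finset.sum_congr rfl (fun b _ => hτ _)
      rw [h1, hsum1]
      split_ifs <;> simp
    hcomplete := hcompl
    hdec₁ := hdecA
    hdec₂ := by
      intro g hg
      have h1 := hdecB g
      rw [hreg g hg] at h1
      exact h1 }⟩

end Cfsg.Agent.Helper15
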