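import Mathlib
import Cfsg.Agent.Helper15.S4504Shape
import Cfsg.Agent.Helper29.D1IG

/-!
# S4705, stage SHAPE: the arithmetic of the value at `x` (helper15)

A character of degree `p - 2` whose value at `x` is `ε t ∑_{s ∈ F} ω^(s l₀)`: either `x` acts as a
scalar, or `ε = -1`, `t = 1`, `|F| = 2` and the restriction to `⟨x⟩` is the regular character
minus `ω^l₀` and `ω^(-l₀)`.
-/

universe u
set_option autoImplicit false
open Cfsg Cfsg.Agent.Helper77 Cfsg.Agent.Helper15 Cfsg.Agent.Helper88
open scoped ComplexConjugate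

namespace Cfsg.Agent.Helper15

variable {G : Type u} [Group G] [Finite G]

theorem s4705s_arith (p : ℕ) [Fact p.Prime] (hp5 : 5 < p) (x : G) (hx : orderOf x = p)
    (F : Subgroup (ZMod p)ˣ) (hF : (F : Set (ZMod p)ˣ) = normUnits p x)
    (χ : G → ℂ) (hχ : Cfsg.IsCharacter G χ) (t : ℕ) (ht : 0 < t) (l₀ : ZMod p) (hl₀ : l₀ ≠ 0)
    (ε : ℤ) (hε : ε = 1 ∨ ε = -1)
    (hval : χ x = (ε : ℂ) * (t : ℂ)
      * ∑ᶠ s ∈ normUnits p x, d1zeta p ^ (((s : (ZMod p)ˣ) : ZMod p) * l₀).val)
    (hker : χ x ≠ χ 1) (hdeg2 : Cfsg.charDegree χ + 2 = p) :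
    (χ x = χ 1 * d1zeta p ^ l₀.val) ∨
    (ε = -1 ∧ t = 1 ∧ Nat.card F = 2 ∧
      ∀ b : ℕ, χ (x ^ b) + (d1zeta p ^ l₀.val) ^ b + ((d1zeta p ^ l₀.val)⁻¹) ^ b
        = if p ∣ b then (p : ℂ) else 0) := by
  classical
  obtain ⟨n, ρ, rfl⟩ := hχ
  have hp : p.Prime := Fact.out
  haveI : NeZero p := ⟨hp.ne_zero⟩
  have hζ : IsPrimitiveRoot (d1zeta p) p := Complex.isPrimitiveRoot_exp p hp.ne_zero
  have hζp := hζ.pow_eq_one
  generalize d1zeta p = ζ at hζ hζp hval ⊢
  have hf : (ρ x) ^ p = 1 := by rw [← map_pow, ← hx, pow_orderOf_eq_one, map_one]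
  obtain ⟨s, hs1, hs2, hs3⟩ := Helper75.exists_eigen_multiset (ρ x) p hp.ne_zero hf
  have hchar : ∀ k : ℕ, ρ.character (x ^ k) = (s.map (fun μ => μ ^ k)).sum := by
    intro k
    rw [← hs3 k, ← map_pow]
    rfl
  set m : ZMod p → ℕ := fun j => s.count (ζ ^ j.val) with hm
  have hexp : ∀ k : ℕ, ρ.character (x ^ k) = ∑ j : ZMod p, (m j : ℂ) * ζ ^ (j.val * k) := by
    intro k
    rw [hchar k, mult_expand88 p ζ hζ s hs1]
    refine Finset.sum_congr rfl (fun j _ => ?_)
    rw [pow_mul]
  have hdegC : ρ.character 1 = ((∑ j : ZMod p, m j : ℕ) : ℂ) := by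
    have h0 := hexp 0
    simp only [pow_zero, mul_zero, mul_one] at h0
    rw [h0]
    push_cast
    rfl
  have hdeg : Cfsg.charDegree ρ.character = ∑ j : ZMod p, m j := by
    unfold Cfsg.charDegree
    rw [hdegC, Complex.natCast_re, Nat.floor_natCast]
  have hx1 : ρ.character x = ∑ j : ZMod p, (m j : ℂ) * ζ ^ j.val := by
    have h1 := hexp 1
    simpa using h1
  -- the finite set `F`
  let Fs : Finset (ZMod p)ˣ := Finset.univ.filter (· ∈ F)
  have hmemFs : ∀ s : (ZMod p)ˣ, s ∈ Fs ↔ s ∈ F := fun s => by simp [Fs]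
  have hfs : ∀ f : (ZMod p)ˣ → ℂ, ∑ᶠ s ∈ normUnits p x, f s = ∑ s ∈ Fs, f s := by
    intro f
    have hset : (F : Set (ZMod p)ˣ) = (Fs : Set (ZMod p)ˣ) := by
      ext s; simp [Fs]
    rw [← hF, hset, finsum_mem_coe_finset]
  have hcard : Fs.card = Nat.card F := by
    rw [Nat.card_eq_fintype_card]
    exact (Fintype.card_of_subtype Fs hmemFs).symm
  have hinjL : ∀ a ∈ Fs, ∀ b ∈ Fs, (a : ZMod p) * l₀ = (b : ZMod p) * l₀ → a = b := by
    intro a _ b _ hab
    exact Units.ext (mul_right_cancel₀ hl₀ hab)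
  let L : Finset (ZMod p) := Fs.image (fun s : (ZMod p)ˣ => (s : ZMod p) * l₀)
  have hLcard : L.card = Nat.card F := by
    rw [← hcard]
    exact Finset.card_image_of_injOn (fun a ha b hb hab => hinjL a ha b hb hab)
  have hL0 : (0 : ZMod p) ∉ L := by
    intro h0
    obtain ⟨s', -, hs'⟩ := Finset.mem_image.mp h0
    rcases mul_eq_zero.mp hs' with h | h
    · exact s'.ne_zero h
    · exact hl₀ h
  have hLl₀ : l₀ ∈ L := Finset.mem_image.mpr ⟨1, (hmemFs 1).mpr F.one_mem, by simp⟩
  have hLsum : ∀ g : ZMod p → ℂ, ∑ s ∈ Fs, g ((s : ZMod p) * l₀)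
      = ∑ j : ZMod p, (if j ∈ L then g j else 0) := by
    intro g
    rw [Finset.sum_ite_mem, Finset.univ_inter]
    exact (Finset.sum_image hinjL).symm
  -- all the coefficients of the relation are equal
  have hsum0 : ∑ j : ZMod p,
      ((((m j : ℤ) - ε * t * (if j ∈ L then 1 else 0) : ℤ)) : ℂ) * ζ ^ j.val = 0 := by
    have h2 : ∑ s ∈ Fs, ζ ^ ((s : ZMod p) * l₀).val
        = ∑ j : ZMod p, (if j ∈ L then ζ ^ j.val else 0) := hLsum (fun j => ζ ^ j.val)
    rw [hfs, h2, hx1] at hval
    have hterm : ∀ j : ZMod p,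
        ((((m j : ℤ) - ε * t * (if j ∈ L then 1 else 0) : ℤ)) : ℂ) * ζ ^ j.val
        = (m j : ℂ) * ζ ^ j.val - (ε : ℂ) * (t : ℂ) * (if j ∈ L then ζ ^ j.val else 0) := by
      intro j
      split_ifs <;> push_cast <;> ring
    rw [Finset.sum_congr rfl (fun j _ => hterm j), Finset.sum_sub_distrib, ← Finset.mul_sum,
      ← hval, sub_self]
  have hK1 : ∀ j : ZMod p, (m j : ℤ) = m 0 + ε * t * (if j ∈ L then 1 else 0) := by
    intro j
    have h1 := coeff_const88 p ζ hζ
      (fun j => (m j : ℤ) - ε * t * (if j ∈ L then 1 else 0)) hsum0 j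
    simp only [if_neg hL0] at h1
    linarith
  have hn : ((∑ j : ZMod p, m j : ℕ) : ℤ) = p * m 0 + ε * t * Nat.card F := by
    have e1 : ∑ _j : ZMod p, ((m 0 : ℤ)) = p * m 0 := by
      rw [Finset.sum_const, Finset.card_univ, ZMod.card, nsmul_eq_mul]
    have e2 : ∑ j : ZMod p, (if j ∈ L then (1 : ℤ) else 0) = Nat.card F := by
      rw [Finset.sum_ite_mem, Finset.univ_inter, Finset.sum_const, nsmul_eq_mul, mul_one, hLcard]
    rw [Nat.cast_sum, Finset.sum_congr rfl (fun j _ => hK1 j), Finset.sum_add_distrib,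
      ← Finset.mul_sum, e1, e2]
  have hfdvd : Nat.card F ∣ p - 1 := by
    have h1 := Subgroup.card_subgroup_dvd_card F
    rwa [Nat.card_eq_fintype_card (α := (ZMod p)ˣ), ZMod.card_units p] at h1
  have hfpos : 0 < Nat.card F := Nat.card_pos
  have hl : (m l₀ : ℤ) = m 0 + ε * t := by
    have h1 := hK1 l₀
    rw [if_pos hLl₀, mul_one] at h1
    exact h1
  rw [hdeg] at hdeg2
  have hdegZ : ((∑ j : ZMod p, m j : ℕ) : ℤ) + 2 = p := by exact_mod_cast hdeg2
  have hpZ : (5 : ℤ) < p := by exact_mod_cast hp5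
  have htZ : (0 : ℤ) < t := by exact_mod_cast ht
  have hfZ : (0 : ℤ) < (Nat.card F : ℤ) := by exact_mod_cast hfpos
  have hmlZ : (0 : ℤ) ≤ m l₀ := Nat.cast_nonneg _
  have hm0Z : (0 : ℤ) ≤ m 0 := Nat.cast_nonneg _
  obtain ⟨k, hk⟩ := hfdvd
  have hkZ : (p : ℤ) - 1 = (Nat.card F : ℤ) * (k : ℤ) := by
    have : ((p - 1 : ℕ) : ℤ) = ((Nat.card F * k : ℕ) : ℤ) := by rw [hk]
    rw [Nat.cast_sub hp.one_le] at this
    push_cast at this
    exact this
  have hkpos : 0 < k := by
    rcases Nat.eq_zero_or_pos k with h0 | h0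
    · rw [h0, mul_zero] at hk; omega
    · exact h0
  have hkZ1 : (1 : ℤ) ≤ k := by exact_mod_cast hkpos
  rcases hε with h | h
  · -- ε = 1: the scalar case
    left
    subst h
    have hM0 : (m 0 : ℤ) = 0 := by
      by_contra hne
      have : (1 : ℤ) ≤ m 0 := by omega
      nlinarith [mul_pos htZ hfZ]
    have htf : (t : ℤ) * Nat.card F = p - 2 := by
      rw [hM0] at hn
      linarith
    -- f divides p - 1 and p - 2
    have hf1 : Nat.card F = 1 := by
      have h1 : (Nat.card F : ℤ) ∣ 1 := by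
        have e : (1 : ℤ) = (Nat.card F : ℤ) * (k : ℤ) - (t : ℤ) * Nat.card F := by
          rw [← hkZ, htf]; ring
        rw [e]
        exact Dvd.dvd.sub (Dvd.intro _ rfl) (Dvd.intro_left _ rfl)
      have h2 : (Nat.card F : ℤ) = 1 := by
        have := Int.le_of_dvd one_pos h1
        omega
      exact_mod_cast h2
    have ht2 : (t : ℤ) = p - 2 := by
      rw [hf1] at htf
      push_cast at htf
      linarith
    -- L = {l₀}
    have hLeq : L = {l₀} := by
      have h1 : L.card = 1 := by rw [hLcard, hf1]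
      obtain ⟨a, ha⟩ := Finset.card_eq_one.mp h1
      rw [ha] at hLl₀ ⊢
      rw [Finset.mem_singleton] at hLl₀
      rw [hLl₀]
    have hmj : ∀ j : ZMod p, (m j : ℂ) = if j = l₀ then ((p : ℂ) - 2) else 0 := by
      intro j
      have h1 := hK1 j
      rw [hM0] at h1
      by_cases hj : j = l₀
      · have hjL : j ∈ L := by rw [hLeq, Finset.mem_singleton]; exact hj
        rw [if_pos hjL] at h1
        rw [if_pos hj]
        have h2 : (m j : ℤ) = p - 2 := by linarith
        have h3 : ((m j : ℤ) : ℂ) = ((p - 2 : ℤ) : ℂ) := by rw [h2]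
        push_cast at h3
        exact h3
      · have hjL : j ∉ L := by rw [hLeq, Finset.mem_singleton]; exact hj
        rw [if_neg hjL] at h1
        rw [if_neg hj]
        have h2 : (m j : ℤ) = 0 := by linarith
        have h3 : m j = 0 := by exact_mod_cast h2
        rw [h3, Nat.cast_zero]
    have hone : ρ.character 1 = (p : ℂ) - 2 := by
      rw [hdegC]
      have : ((∑ j : ZMod p, m j : ℕ) : ℂ) = (((∑ j : ZMod p, m j : ℕ) : ℤ) : ℂ) := by
        push_cast; rfl
      rw [this]
      have h2 : ((∑ j : ZMod p, m j : ℕ) : ℤ) = (p : ℤ) - 2 := by linarith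
      rw [h2]
      push_cast
      rfl
    rw [hx1, hone, Finset.sum_eq_single l₀]
    · rw [hmj l₀, if_pos rfl]
    · intro j _ hj
      rw [hmj j, if_neg hj, zero_mul]
    · intro hh
      exact absurd (Finset.mem_univ _) hh
  · -- ε = -1
    subst h
    have htM : (t : ℤ) ≤ m 0 := by linarith
    have hM1 : (1 : ℤ) ≤ m 0 := by linarith
    have hn' : (p : ℤ) * m 0 - t * Nat.card F = p - 2 := by linarith
    by_cases hM : m 0 = 1
    · -- the main case
      right
      have hM' : (m 0 : ℤ) = 1 := by exact_mod_cast hM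
      have ht1 : t = 1 := by
        have : (t : ℤ) = 1 := by rw [hM'] at htM; omega
        exact_mod_cast this
      have hf2 : Nat.card F = 2 := by
        have h1 : (t : ℤ) = 1 := by exact_mod_cast ht1
        rw [hM', h1] at hn'
        have : (Nat.card F : ℤ) = 2 := by linarith
        exact_mod_cast this
      refine ⟨rfl, ht1, hf2, ?_⟩
      -- F = {1, -1}
      have hneg1 : (-1 : (ZMod p)ˣ) ∈ F := by
        haveI : Fact (Nat.Prime 2) := ⟨Nat.prime_two⟩
        obtain ⟨u, hu⟩ := exists_prime_orderOf_dvd_card' (G := F) 2 (by rw [hf2])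
        have hu2 : (u : (ZMod p)ˣ) ^ 2 = 1 := by
          have h1 : u ^ 2 = 1 := by rw [← hu]; exact pow_orderOf_eq_one u
          have h2 := congrArg (fun w : F => (w : (ZMod p)ˣ)) h1
          simpa using h2
        have hu1 : (u : (ZMod p)ˣ) ≠ 1 := by
          intro h1
          have h2 : u = 1 := Subtype.ext h1
          rw [h2, orderOf_one] at hu
          omega
        have h3 : ((u : (ZMod p)ˣ) : ZMod p) ^ 2 = 1 := by
          rw [← Units.val_pow_eq_pow_val, hu2, Units.val_one]
        have h4 : (((u : (ZMod p)ˣ) : ZMod p) - 1) * (((u : (ZMod p)ˣ) : ZMod p) + 1) = 0 := by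
          linear_combination h3
        have h5 : (u : (ZMod p)ˣ) = -1 := by
          rcases mul_eq_zero.mp h4 with h6 | h6
          · exfalso
            apply hu1
            apply Units.ext
            rw [Units.val_one]
            linear_combination h6
          · apply Units.ext
            rw [Units.val_neg, Units.val_one]
            linear_combination h6
        rw [← h5]
        exact u.2
      have hne : l₀ ≠ -l₀ := by
        intro hh
        have h1 : (2 : ZMod p) * l₀ = 0 := by linear_combination hh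
        rcases mul_eq_zero.mp h1 with h2 | h2
        · have h3 : ((2 : ℕ) : ZMod p) = 0 := by exact_mod_cast h2
          rw [ZMod.natCast_eq_zero_iff] at h3
          have := Nat.le_of_dvd (by norm_num) h3
          omega
        · exact hl₀ h2
      have hLeq : L = {l₀, -l₀} := by
        have hsub : ({l₀, -l₀} : Finset (ZMod p)) ⊆ L := by
          intro j hj
          rw [Finset.mem_insert, Finset.mem_singleton] at hj
          rcases hj with rfl | rfl
          · exact hLl₀
          · exact Finset.mem_image.mpr ⟨-1, (hmemFs (-1)).mpr hneg1, by simp⟩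
        have hc2 : ({l₀, -l₀} : Finset (ZMod p)).card = 2 := Finset.card_pair hne
        exact (Finset.eq_of_subset_of_card_le hsub (by rw [hLcard, hf2, hc2])).symm
      have hmj : ∀ j : ZMod p, (m j : ℂ) = if j ∈ L then 0 else 1 := by
        intro j
        have h1 := hK1 j
        rw [hM'] at h1
        have h1t : (t : ℤ) = 1 := by exact_mod_cast ht1
        rw [h1t] at h1
        by_cases hj : j ∈ L
        · rw [if_pos hj] at h1 ⊢
          have h2 : (m j : ℤ) = 0 := by linarith
          have h3 : m j = 0 := by exact_mod_cast h2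
          rw [h3, Nat.cast_zero]
        · rw [if_neg hj] at h1 ⊢
          have h2 : (m j : ℤ) = 1 := by linarith
          have h3 : m j = 1 := by exact_mod_cast h2
          rw [h3, Nat.cast_one]
      intro b
      -- the full sum
      have hfull : ∑ j : ZMod p, ζ ^ (j.val * b) = if p ∣ b then (p : ℂ) else 0 := by
        have h1 := Helper29.d1_zmod_sum_val p (fun k => ζ ^ (k * b))
        rw [h1]
        by_cases hb : p ∣ b
        · rw [if_pos hb]
          obtain ⟨c, rfl⟩ := hb
          have h2 : ∀ k ∈ Finset.range p, ζ ^ (k * (p * c)) = 1 := by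
            intro k _
            rw [mul_comm k, mul_assoc, pow_mul, hζp, one_pow]
          rw [Finset.sum_congr rfl h2, Finset.sum_const, Finset.card_range, nsmul_eq_mul, mul_one]
        · rw [if_neg hb]
          have hcop : Nat.Coprime b p :=
            (Nat.Coprime.symm ((Nat.Prime.coprime_iff_not_dvd hp).mpr hb))
          have hprim : IsPrimitiveRoot (ζ ^ b) p := hζ.pow_of_coprime b hcop
          have h2 := hprim.geom_sum_eq_zero hp.one_lt
          rw [← h2]
          refine Finset.sum_congr rfl (fun k _ => ?_)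
          rw [mul_comm, pow_mul]
      have hnegval : ζ ^ (-l₀).val = (ζ ^ l₀.val)⁻¹ := by
        have h1 : (-l₀).val + l₀.val = p := by
          rw [ZMod.neg_val, if_neg hl₀]
          have := ZMod.val_lt l₀
          omega
        have h2 : ζ ^ (-l₀).val * ζ ^ l₀.val = 1 := by rw [← pow_add, h1, hζp]
        exact eq_inv_of_mul_eq_one_left h2
      rw [hexp b]
      have hsplit : ∑ j : ZMod p, (m j : ℂ) * ζ ^ (j.val * b)
          = ∑ j : ZMod p, ζ ^ (j.val * b) - ∑ j ∈ L, ζ ^ (j.val * b) := by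
        have e : ∑ j ∈ L, ζ ^ (j.val * b)
            = ∑ j : ZMod p, (if j ∈ L then ζ ^ (j.val * b) else 0) := by
          rw [Finset.sum_ite_mem, Finset.univ_inter]
        rw [eq_sub_iff_add_eq, e, ← Finset.sum_add_distrib]
        refine Finset.sum_congr rfl (fun j _ => ?_)
        rw [hmj j]
        split_ifs <;> ring
      rw [hsplit, hfull, hLeq, Finset.sum_pair hne, pow_mul, pow_mul, hnegval]
      ring
    · exfalso
      have hM2 : (2 : ℤ) ≤ m 0 := by
        have h1 : (m 0 : ℤ) ≠ 1 := fun h => hM (by exact_mod_cast h)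
        omega
      by_cases hk1 : k = 1
      · -- f = p - 1
        have hfz : (Nat.card F : ℤ) = (p : ℤ) - 1 := by
          rw [hkZ, hk1]; push_cast; ring
        rw [hfz] at hn hn'
        have hMt : (m 0 : ℤ) = t := by
          by_contra hne
          have : (t : ℤ) + 1 ≤ m 0 := by omega
          nlinarith
        have hN : ∑ j : ZMod p, m j = m 0 := by
          have h1 : ((∑ j : ZMod p, m j : ℕ) : ℤ) = (m 0 : ℤ) := by
            rw [hn, hMt]; ring
          exact_mod_cast h1
        have hzero : ∀ j : ZMod p, j ≠ 0 → m j = 0 := by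
          intro j hj
          have h1 := Finset.add_sum_erase Finset.univ m (Finset.mem_univ (0 : ZMod p))
          have h2 : ∑ j ∈ Finset.univ.erase (0 : ZMod p), m j = 0 := by omega
          exact Finset.sum_eq_zero_iff.mp h2 j (Finset.mem_erase.mpr ⟨hj, Finset.mem_univ _⟩)
        apply hker
        rw [hx1, hdegC, hN, Finset.sum_eq_single (0 : ZMod p)]
        · simp
        · intro j _ hj
          rw [hzero j hj]
          simp
        · intro h
          exact absurd (Finset.mem_univ _) h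
      · have hk2 : (2 : ℤ) ≤ k := by
          have : 2 ≤ k := by omega
          exact_mod_cast this
        have h2f : 2 * (Nat.card F : ℤ) ≤ (p : ℤ) - 1 := by
          rw [hkZ]
          nlinarith
        nlinarith [mul_nonneg (by linarith : (0 : ℤ) ≤ (m 0 : ℤ) - t) hfZ.le,
          mul_nonneg (by linarith : (0 : ℤ) ≤ (m 0 : ℤ) - 2)
            (by linarith : (0 : ℤ) ≤ (p : ℤ) + 1),
          mul_nonneg hm0Z (by linarith : (0 : ℤ) ≤ (p : ℤ) - 1 - 2 * Nat.card F)]

end Cfsg.Agent.Helper15
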