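import Mathlib
import Cfsg.Agent.Helper15.S4504Shape

/-!
# S4705, stage SHAPE: the value at `x` together with the `θ`-coefficients (helper15)

Variant of `Helper15.b42_value_x_le`: the smallness hypothesis is `deg + 1 < p`, and the output
keeps the formula for the `θ`-coefficients `dco K θ χ (x ^ i)`.
-/

universe u
set_option autoImplicit false
open Cfsg Cfsg.Agent.Helper77 Cfsg.Agent.Helper15 Cfsg.Agent.Helper88
open scoped ComplexConjugate

namespace Cfsg.Agent.Helper15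

variable {G : Type u} [Group G] [Finite G]

theorem s4705s_valx (p : ℕ) [Fact p.Prime] (x : G) (K : Subgroup G) (h : D1Hyp p x K)
    (χ₁ : Cfsg.IrrCharacter G) (hker : (χ₁ : G → ℂ) x ≠ (χ₁ : G → ℂ) 1)
    (hsmall : Cfsg.charDegree (χ₁ : G → ℂ) + 1 < p) :
    ∃ (θ : Cfsg.IrrCharacter K) (l₀ : ZMod p) (ε : ℤ) (E F : Subgroup (ZMod p)ˣ),
      l₀ ≠ 0 ∧ (ε = 1 ∨ ε = -1) ∧
      (E : Set (ZMod p)ˣ) = stabUnits p x K (θ : K → ℂ) ∧
      (F : Set (ZMod p)ˣ) = normUnits p x ∧ E ≤ F ∧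
      (χ₁ : G → ℂ) x = (ε : ℂ) * (Cfsg.charDegree (θ : K → ℂ) : ℂ)
        * ∑ᶠ s ∈ normUnits p x, d1zeta p ^ (((s : (ZMod p)ˣ) : ZMod p) * l₀).val ∧
      (∀ i : ZMod p, i ≠ 0 → dco K (θ : K → ℂ) (χ₁ : G → ℂ) (x ^ i.val)
          = (ε : ℂ) * ∑ᶠ s ∈ stabUnits p x K (θ : K → ℂ),
              d1zeta p ^ (i * ((s : (ZMod p)ˣ) : ZMod p) * l₀).val) := by
  classical
  have hp : p.Prime := Fact.out
  have hstrong : B42StrongStmt G p := Helper91.b42_d1_strong p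
  have hnotint : ∀ r : ℤ, (χ₁ : G → ℂ) x ≠ (r : ℂ) := by
    intro r hr
    rcases Helper72.b42_int_value p x h.hx _ (Helper79.irr_isCharacter χ₁) r hr with h1 | h1
    · exact hker h1
    · have := hp.two_le
      omega
  have hne0 : (χ₁ : G → ℂ) x ≠ 0 := by
    intro h0
    exact hnotint 0 (by rw [h0]; simp)
  obtain ⟨θ, hθ⟩ := Helper49.b42vx_exists_theta p x K h χ₁ hne0
  obtain ⟨X, Y, c, ε, hXY, hdisj, hXcard, hYne, hc, hε, hXval, hYval, hdeg⟩ := hstrong x K h θ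
  obtain ⟨E, F, hE, hF, hEF⟩ := Helper29.d1_units p x K h θ
  have hval := Helper55.d1_value_at_x p (Helper75.d1_cc p) (Helper74.d1_inj p) x K h θ χ₁ hθ
  have hecard : Nat.card (stabUnits p x K (θ : K → ℂ)) = Nat.card E := by
    rw [← hE]; rfl
  have hepos : 0 < Nat.card E := Nat.card_pos
  have hdvd : Nat.card E ∣ Nat.card F := Subgroup.card_dvd_of_le hEF
  rw [hecard] at hval
  letI : Fintype E := Fintype.ofFinite E
  letI : Fintype F := Fintype.ofFinite F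
  have hFsum : ∀ g : (ZMod p)ˣ → ℂ,
      ∑ᶠ u ∈ normUnits p x, g u = ∑ u : F, g (u : (ZMod p)ˣ) := by
    intro g
    rw [← hF]
    exact (finsum_set_coe_eq_finsum_mem (F : Set (ZMod p)ˣ)).symm.trans
      (finsum_eq_sum_of_fintype _)
  have hEsum : ∀ g : (ZMod p)ˣ → ℂ,
      ∑ᶠ u ∈ stabUnits p x K (θ : K → ℂ), g u = ∑ u : E, g (u : (ZMod p)ˣ) := by
    intro g
    rw [← hE]
    exact (finsum_set_coe_eq_finsum_mem (E : Set (ZMod p)ˣ)).symm.trans
      (finsum_eq_sum_of_fintype _)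
  have hθ1 : (θ : K → ℂ) 1 = (Cfsg.charDegree (θ : K → ℂ) : ℂ) :=
    Helper81.irr_one_eq_charDegree θ
  have hEne : (Nat.card E : ℂ) ≠ 0 := by exact_mod_cast hepos.ne'
  rw [hFsum, hθ1] at hval
  rcases (hXY χ₁).2 hθ with hX | hY
  · -- non-exceptional: the value is an integer
    exfalso
    obtain ⟨m, hm⟩ := hdvd
    have e1 : ∑ u : F, dco K (θ : K → ℂ) (χ₁ : G → ℂ) (x ^ ((u : (ZMod p)ˣ) : ZMod p).val)
        = (Nat.card F : ℂ) * (c χ₁ : ℂ) := by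
      have e0 : ∀ u : F, dco K (θ : K → ℂ) (χ₁ : G → ℂ) (x ^ ((u : (ZMod p)ˣ) : ZMod p).val)
          = (c χ₁ : ℂ) := fun u => hXval χ₁ hX _ (Units.ne_zero _)
      rw [Finset.sum_congr rfl (fun u _ => e0 u)]
      rw [Finset.sum_const, Finset.card_univ, nsmul_eq_mul, Nat.card_eq_fintype_card]
    rw [e1, hm] at hval
    apply hnotint ((Cfsg.charDegree (θ : K → ℂ) : ℤ) * (m : ℤ) * c χ₁)
    apply mul_left_cancel₀ hEne
    rw [hval]
    push_cast
    ring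
  · obtain ⟨l₀, hl₀, hYv⟩ := hYval χ₁ hY
    refine ⟨θ, l₀, ε, E, F, hl₀, hε, hE, hF, hEF, ?_, hYv⟩
    rw [hFsum]
    have e1 : ∑ u : F, dco K (θ : K → ℂ) (χ₁ : G → ℂ) (x ^ ((u : (ZMod p)ˣ) : ZMod p).val)
        = (ε : ℂ) * ((Nat.card E : ℂ)
          * ∑ u : F, d1zeta p ^ (((u : (ZMod p)ˣ) : ZMod p) * l₀).val) := by
      have e2 : ∀ u : F, dco K (θ : K → ℂ) (χ₁ : G → ℂ) (x ^ ((u : (ZMod p)ˣ) : ZMod p).val)
          = (ε : ℂ) * ∑ s : E,
              d1zeta p ^ ((((u : (ZMod p)ˣ) * (s : (ZMod p)ˣ) : (ZMod p)ˣ) : ZMod p) * l₀).val := by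
        intro u
        rw [hYv ((u : (ZMod p)ˣ) : ZMod p) (Units.ne_zero _), hEsum]
        congr 1
      rw [Finset.sum_congr rfl (fun u _ => e2 u), ← Finset.mul_sum, Finset.sum_comm]
      congr 1
      have e3 : ∀ s : E, ∑ u : F,
          d1zeta p ^ ((((u : (ZMod p)ˣ) * (s : (ZMod p)ˣ) : (ZMod p)ˣ) : ZMod p) * l₀).val
          = ∑ u : F, d1zeta p ^ (((u : (ZMod p)ˣ) : ZMod p) * l₀).val := by
        intro s
        exact Fintype.sum_equiv (Equiv.mulRight (⟨(s : (ZMod p)ˣ), hEF s.2⟩ : F)) _ _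
          (fun u => rfl)
      rw [Finset.sum_congr rfl (fun s _ => e3 s)]
      rw [Finset.sum_const, Finset.card_univ, nsmul_eq_mul, Nat.card_eq_fintype_card]
    rw [e1] at hval
    apply mul_left_cancel₀ hEne
    rw [hval]
    ring

end Cfsg.Agent.Helper15
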