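import Mathlib
import Cfsg.Agent.Helper79.S4705Defs

set_option autoImplicit false
open Cfsg Cfsg.Agent.Helper79
open scoped ComplexConjugate

universe u

namespace Cfsg.Agent.Helper15

variable {H : Type u} [Group H] [Finite H]

/-- MULT: the value of a character at an involution inverting `x`. -/
theorem s4705z_mult (p : ℕ) [Fact p.Prime] (hp2 : p ≠ 2) (x t : H) (hx : orderOf x = p)
    (ht : t * t = 1) (htx : t * x * t⁻¹ = x⁻¹) (χ : H → ℂ) (hχ : Cfsg.IsCharacter H χ)
    (m₁ : ℕ) (hm : ∑ b ∈ Finset.range p, χ (x ^ b) = ((p * m₁ : ℕ) : ℂ)) :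
    ∃ α : ℕ, α ≤ m₁ ∧ χ t + (m₁ : ℂ) = 2 * (α : ℂ) := by
  classical
  have hpp : p.Prime := Fact.out
  obtain ⟨n, ρ, hρ⟩ := hχ
  have hχg : ∀ g, LinearMap.trace ℂ (Fin n → ℂ) (ρ g) = χ g := fun g => by rw [← hρ]; rfl
  have hxp : x ^ p = 1 := by rw [← hx]; exact pow_orderOf_eq_one x
  have hp0 : (p : ℂ) ≠ 0 := by exact_mod_cast hpp.ne_zero
  have h2p0 : (2 : ℂ) * (p : ℂ) ≠ 0 := mul_ne_zero two_ne_zero hp0
  -- conjugacy of the reflections
  have hsc : SemiconjBy t x x⁻¹ := by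
    unfold SemiconjBy
    rw [← htx]
    group
  have hconj : ∀ b : ℕ, χ (t * x ^ b) = χ t := by
    intro b
    obtain ⟨k, hk⟩ := hpp.odd_of_ne_two hp2
    have h1 : t * x ^ (b * (k + 1)) = (x⁻¹) ^ (b * (k + 1)) * t := (hsc.pow_right _).eq
    have h2 : x ^ (b * (k + 1)) * x ^ (b * (k + 1)) = x ^ b := by
      rw [← pow_add]
      have h3 : b * (k + 1) + b * (k + 1) = p * b + b := by rw [hk]; ring
      rw [h3, pow_add, pow_mul, hxp, one_pow, one_mul]
    have h4 : (x ^ (b * (k + 1)))⁻¹ * t * ((x ^ (b * (k + 1)))⁻¹)⁻¹ = t * x ^ b := by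
      rw [inv_inv, ← inv_pow, ← h1, mul_assoc, h2]
    rw [← h4, ← hρ]
    exact Representation.char_conj ρ t _
  -- the sum over the powers of x
  obtain ⟨S, hS⟩ : ∃ S : Module.End ℂ (Fin n → ℂ), S = ∑ b ∈ Finset.range p, ρ (x ^ b) :=
    ⟨_, rfl⟩
  have hxS : ρ x * S = S := by
    rw [hS, Finset.mul_sum]
    have h1 : ∀ b, ρ x * ρ (x ^ b) = ρ (x ^ (b + 1)) := fun b => by
      rw [← map_mul, pow_succ']
    simp only [h1]
    have h2 := Finset.sum_range_succ' (fun b => ρ (x ^ b)) p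
    have h3 := Finset.sum_range_succ (fun b => ρ (x ^ b)) p
    rw [h3] at h2
    simp only [hxp, pow_zero] at h2
    exact (add_right_cancel h2).symm
  have hxiS : ρ x⁻¹ * S = S := by
    calc ρ x⁻¹ * S = ρ x⁻¹ * (ρ x * S) := by rw [hxS]
      _ = S := by rw [← mul_assoc, ← map_mul, inv_mul_cancel, map_one, one_mul]
  have hTT : ρ t * ρ t = 1 := by rw [← map_mul, ht, map_one]
  have hxT : ρ x * ρ t = ρ t * ρ x⁻¹ := by
    rw [← map_mul, ← map_mul]
    congr 1
    have hti : t⁻¹ = t := inv_eq_of_mul_eq_one_left ht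
    calc x * t = (t * t) * x * t := by rw [ht, one_mul]
      _ = t * (t * x * t⁻¹) := by rw [hti]; simp only [mul_assoc]
      _ = t * x⁻¹ := by rw [htx]
  -- the fixed spaces
  have hmemx : ∀ v : Fin n → ℂ, v ∈ LinearMap.ker (ρ x - 1) ↔ ρ x v = v := by
    intro v
    rw [LinearMap.mem_ker, LinearMap.sub_apply, sub_eq_zero]
    rfl
  have hmemt : ∀ v : Fin n → ℂ, v ∈ LinearMap.ker (ρ t - 1) ↔ ρ t v = v := by
    intro v
    rw [LinearMap.mem_ker, LinearMap.sub_apply, sub_eq_zero]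
    rfl
  have hSfix : ∀ v : Fin n → ℂ, ρ x v = v → S v = (p : ℂ) • v := by
    intro v hv
    have h1 : ∀ b : ℕ, ρ (x ^ b) v = v := by
      intro b
      induction b with
      | zero => rw [pow_zero, map_one]; rfl
      | succ b ih =>
        rw [pow_succ, map_mul, Module.End.mul_apply, hv, ih]
    rw [hS, LinearMap.sum_apply]
    simp only [h1]
    rw [Finset.sum_const, Finset.card_range, Nat.cast_smul_eq_nsmul]
  -- the projection onto the fixed space of x
  have hA : LinearMap.IsProj (LinearMap.ker (ρ x - 1)) ((p : ℂ)⁻¹ • S) := by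
    refine ⟨fun v => ?_, fun v hv => ?_⟩
    · rw [hmemx, LinearMap.smul_apply, map_smul, ← Module.End.mul_apply, hxS]
    · rw [hmemx] at hv
      rw [LinearMap.smul_apply, hSfix v hv, smul_smul, inv_mul_cancel₀ hp0, one_smul]
  -- the projection onto the fixed space of x and t
  have hP : LinearMap.IsProj (LinearMap.ker (ρ x - 1) ⊓ LinearMap.ker (ρ t - 1))
      (((2 : ℂ) * (p : ℂ))⁻¹ • ((1 + ρ t) * S)) := by
    refine ⟨fun v => ?_, fun v hv => ?_⟩
    · rw [Submodule.mem_inf, hmemx, hmemt]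
      constructor
      · rw [LinearMap.smul_apply, map_smul, ← Module.End.mul_apply]
        congr 2
        rw [← mul_assoc, mul_add, mul_one, hxT, add_mul, hxS, mul_assoc, hxiS, add_mul, one_mul]
      · rw [LinearMap.smul_apply, map_smul, ← Module.End.mul_apply]
        congr 2
        rw [← mul_assoc, mul_add, mul_one, hTT, add_comm]
    · rw [Submodule.mem_inf, hmemx, hmemt] at hv
      rw [LinearMap.smul_apply, Module.End.mul_apply, hSfix v hv.1, map_smul,
        LinearMap.add_apply, Module.End.one_apply, hv.2, ← two_smul ℂ v, smul_smul, smul_smul]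
      have hsc1 : ((2 : ℂ) * (p : ℂ))⁻¹ * (p : ℂ) * 2 = 1 := by
        field_simp
      rw [hsc1, one_smul]
  have htrA := hA.trace
  have htrP := hP.trace
  -- the traces
  have htrS : LinearMap.trace ℂ (Fin n → ℂ) S = ((p * m₁ : ℕ) : ℂ) := by
    rw [hS, map_sum, ← hm]
    exact Finset.sum_congr rfl (fun b _ => hχg _)
  have htrTS : LinearMap.trace ℂ (Fin n → ℂ) ((1 + ρ t) * S)
      = ((p * m₁ : ℕ) : ℂ) + (p : ℂ) * χ t := by
    rw [add_mul, one_mul, map_add, htrS]
    congr 1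
    rw [hS, Finset.mul_sum, map_sum]
    have h1 : ∀ b ∈ Finset.range p,
        LinearMap.trace ℂ (Fin n → ℂ) (ρ t * ρ (x ^ b)) = χ t := by
      intro b _
      rw [← map_mul, hχg, hconj]
    rw [Finset.sum_congr rfl h1, Finset.sum_const, Finset.card_range, nsmul_eq_mul]
  rw [map_smul, htrS, smul_eq_mul] at htrA
  rw [map_smul, htrTS, smul_eq_mul] at htrP
  have hm1 : Module.finrank ℂ (LinearMap.ker (ρ x - 1)) = m₁ := by
    have h1 : ((Module.finrank ℂ (LinearMap.ker (ρ x - 1)) : ℕ) : ℂ) = (m₁ : ℂ) := by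
      rw [← htrA]
      push_cast
      field_simp
    exact_mod_cast h1
  refine ⟨Module.finrank ℂ ↥(LinearMap.ker (ρ x - 1) ⊓ LinearMap.ker (ρ t - 1)), ?_, ?_⟩
  · rw [← hm1]
    exact Submodule.finrank_mono inf_le_left
  · rw [← htrP]
    push_cast
    field_simp
    ring

end Cfsg.Agent.Helper15
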