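import Mathlib
import Cfsg.Agent.Helper79.S4705Defs
import Cfsg.Agent.Helper79.Basic
import Cfsg.Agent.Helper81.CharBasic
import Cfsg.Agent.Helper76.CentralChar
import Cfsg.Agent.Helper15.DetChar

set_option autoImplicit false
open Cfsg Cfsg.Agent.Helper79
open scoped ComplexConjugate

universe u

namespace Cfsg.Agent.Helper15

variable {H : Type u} [Group H] [Finite H]

/-- ODD: the centre has odd order (determinant of `ζ` on the perfect group `H`). -/
theorem s4705z_odd (p : ℕ) [Fact p.Prime] (x : H) (ζ : H → ℂ) (h : S4705Wk p x ζ)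
    (hperf : commutator H = ⊤) : Odd (Nat.card (Subgroup.center H)) := by
  have hpp : p.Prime := Fact.out
  have hp5 := h.hp
  by_contra hodd
  have heven : Even (Nat.card (Subgroup.center H)) := Nat.not_odd_iff_even.mp hodd
  haveI : Fact (Nat.Prime 2) := ⟨Nat.prime_two⟩
  obtain ⟨z, hz⟩ := exists_prime_orderOf_dvd_card' (G := Subgroup.center H) 2 heven.two_dvd
  have hz1 : z ≠ 1 := by
    rintro rfl
    rw [orderOf_one] at hz
    omega
  have hz2 : (z : H) * (z : H) = 1 := by
    have h1 : z ^ 2 = 1 := by rw [← hz]; exact pow_orderOf_eq_one z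
    have h2 := congrArg (fun w : Subgroup.center H => (w : H)) h1
    simp only [Subgroup.coe_pow, Subgroup.coe_one] at h2
    rw [← pow_two]
    exact h2
  have hzH : (z : H) ≠ 1 := fun hh => hz1 (Subtype.ext hh)
  obtain ⟨n, ρ, hirr, hρ⟩ := h.hζ
  haveI := hirr
  -- the degree
  have hn : (n : ℂ) = ζ 1 := by
    rw [← hρ, Representation.char_one]
    simp
  have hdeg := Cfsg.Agent.Helper81.irr_one_eq_charDegree ⟨ζ, h.hζ⟩
  have hn' : n = Cfsg.charDegree ζ := by
    have : (n : ℂ) = (Cfsg.charDegree ζ : ℂ) := by rw [hn]; exact hdeg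
    exact_mod_cast this
  have hnp : n + 2 = p := by rw [hn']; exact h.hdeg
  have hpodd : Odd p := hpp.odd_of_ne_two (by omega)
  have hnodd : Odd n := by
    rcases hpodd with ⟨k, hk⟩
    exact ⟨k - 1, by omega⟩
  -- Schur: z acts as a scalar
  obtain ⟨c, hc⟩ := Cfsg.Agent.Helper76.schur_scalar ρ (ρ (z : H)) (fun g => by
    rw [← map_mul, ← map_mul, (Subgroup.mem_center_iff.mp z.2 g)])
  have hfin : Module.finrank ℂ (Fin n → ℂ) = n := by simp
  have hc2 : c ^ 2 = 1 := by
    have h1 : ρ ((z : H) * (z : H)) = 1 := by rw [hz2, map_one]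
    rw [map_mul, hc] at h1
    have h2 : (c • (1 : Module.End ℂ (Fin n → ℂ))) * (c • (1 : Module.End ℂ (Fin n → ℂ)))
        = (c ^ 2) • (1 : Module.End ℂ (Fin n → ℂ)) := by
      rw [smul_mul_smul_comm, mul_one, pow_two]
    rw [h2] at h1
    have h3 := congrArg (LinearMap.trace ℂ (Fin n → ℂ)) h1
    rw [map_smul, LinearMap.trace_one, hfin, smul_eq_mul] at h3
    have hn0 : (n : ℂ) ≠ 0 := by
      have : n ≠ 0 := by omega
      exact_mod_cast this
    exact mul_right_cancel₀ hn0 (by rw [h3, one_mul])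
  have hcne : c ≠ 1 := by
    intro hc1
    apply hzH
    apply h.hfaith
    rw [← hρ]
    unfold Representation.character
    have hρ1 : ρ (1 : H) = 1 := map_one ρ
    rw [hc, hc1, one_smul, hρ1]
  have hcm : c = -1 := by
    have h1 : (c - 1) * (c + 1) = 0 := by linear_combination hc2
    rcases mul_eq_zero.mp h1 with h2 | h2
    · exact absurd (sub_eq_zero.mp h2) hcne
    · linear_combination h2
  -- the determinant
  have hdet : LinearMap.det (ρ (z : H)) = -1 := by
    rw [hc, hcm, LinearMap.det_smul, hfin, map_one, mul_one]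
    exact hnodd.neg_one_pow
  have htriv : detHom ρ (z : H) = 1 := by
    have hk : (z : H) ∈ (detHom ρ).ker := by
      have hmem : (z : H) ∈ commutator H := by rw [hperf]; exact Subgroup.mem_top _
      exact Abelianization.commutator_subset_ker (detHom ρ) hmem
    exact hk
  have h1 : ((detHom ρ (z : H) : ℂˣ) : ℂ) = 1 := by rw [htriv]; rfl
  rw [detHom_coe, hdet] at h1
  norm_num at h1

end Cfsg.Agent.Helper15
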