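import Mathlib
import Cfsg.Agent.Helper3.SU2Defs

set_option autoImplicit false

namespace Cfsg.Agent.Helper15

open Cfsg.Agent.Helper3.SU2 Cfsg.Agent.Helper13

variable {F : Type*} [Field F] [Fintype F] {n : ℕ}

theorem su2c_h15_cube (hF : Fintype.card F = 2 ^ 2) (x : F) (hx : x ≠ 0) : x ^ 3 = 1 := by
  have h := ufld2_norm hF x hx
  rw [Cfsg.Agent.Helper5.frobQ_apply] at h
  linear_combination h

theorem su2c_h15_single_left (hF : Fintype.card F = 2 ^ 2) (u : Fin n → F) (i : Fin n) :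
    Cfsg.hermForm n F 2 (Pi.single i 1) u = u i ^ 2 := by
  rw [uh_single_left hF, Cfsg.Agent.Helper5.frobQ_apply]

theorem su2c_keyx (hF : Fintype.card F = 2 ^ 2) {Φ : Set (Fin n → F)} (hΦ : PhiCl Φ)
    (p0 p1 p2 p3 p4 : Fin n) (h01 : p0 ≠ p1) (h02 : p0 ≠ p2) (h03 : p0 ≠ p3) (h04 : p0 ≠ p4)
    (h14 : p1 ≠ p4) (h24 : p2 ≠ p4) (h34 : p3 ≠ p4)
    (hw : win p1 p2 p3 p4 ∈ Φ) (hE : Edge Φ p0 p4) (ν : F) (hν : ν ≠ 0) :
    ν • Pi.single p0 (1 : F) + Pi.single p1 1 + Pi.single p2 1 + Pi.single p3 1 ∈ Φ := by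
  have h2 : (2 : F) = 0 := ufld2_two hF
  have h3 : ν ^ 3 = 1 := su2c_h15_cube hF ν hν
  have hx : Pi.single p0 (1 : F) + (ν ^ 2) • Pi.single p4 (1 : F) ∈ Φ :=
    hE (ν ^ 2) (pow_ne_zero 2 hν)
  have hx0 : (Pi.single p0 (1 : F) + (ν ^ 2) • Pi.single p4 (1 : F) : Fin n → F) p0 = 1 := by
    simp [Pi.single_apply, h04]
  have hx1 : (Pi.single p0 (1 : F) + (ν ^ 2) • Pi.single p4 (1 : F) : Fin n → F) p1 = 0 := by
    simp [Pi.single_apply, h01.symm, h14]
  have hx2 : (Pi.single p0 (1 : F) + (ν ^ 2) • Pi.single p4 (1 : F) : Fin n → F) p2 = 0 := by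
    simp [Pi.single_apply, h02.symm, h24]
  have hx3 : (Pi.single p0 (1 : F) + (ν ^ 2) • Pi.single p4 (1 : F) : Fin n → F) p3 = 0 := by
    simp [Pi.single_apply, h03.symm, h34]
  have hx4 : (Pi.single p0 (1 : F) + (ν ^ 2) • Pi.single p4 (1 : F) : Fin n → F) p4 = ν ^ 2 := by
    simp [Pi.single_apply, h04.symm]
  have hxx : Cfsg.hermForm n F 2 (Pi.single p0 (1 : F) + (ν ^ 2) • Pi.single p4 (1 : F))
      (Pi.single p0 (1 : F) + (ν ^ 2) • Pi.single p4 (1 : F)) = 0 := by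
    rw [uh_add_left, uh_smul_left, su2c_h15_single_left hF, su2c_h15_single_left hF, hx0, hx4]
    linear_combination h2 + (ν ^ 3 + 1) * h3
  have hyx : Cfsg.hermForm n F 2 (win p1 p2 p3 p4)
      (Pi.single p0 (1 : F) + (ν ^ 2) • Pi.single p4 (1 : F)) = ν := by
    unfold win
    rw [uh_add_left, uh_add_left, uh_add_left, su2c_h15_single_left hF,
      su2c_h15_single_left hF, su2c_h15_single_left hF, su2c_h15_single_left hF,
      hx1, hx2, hx3, hx4]
    linear_combination ν * h3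
  have key := hΦ.tv _ _ hx hw hxx
  rw [hyx] at key
  have e : (win p1 p2 p3 p4 + ν • (Pi.single p0 (1 : F) + (ν ^ 2) • Pi.single p4 (1 : F)) :
      Fin n → F) = ν • Pi.single p0 (1 : F) + Pi.single p1 1 + Pi.single p2 1 + Pi.single p3 1 := by
    have e1 : (win p1 p2 p3 p4 + ν • (Pi.single p0 (1 : F) + (ν ^ 2) • Pi.single p4 (1 : F)) :
        Fin n → F) = ν • Pi.single p0 (1 : F) + Pi.single p1 1 + Pi.single p2 1 + Pi.single p3 1
          + (1 + ν ^ 3) • Pi.single p4 (1 : F) := by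
      unfold win
      module
    rw [e1, h3, one_add_one_eq_two, h2, zero_smul, add_zero]
  rw [e] at key
  exact key

end Cfsg.Agent.Helper15
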