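import Mathlib
import Cfsg.Agent.Helper3.SU2Defs
import Cfsg.Agent.Helper15.SU2CKEYX

set_option autoImplicit false

namespace Cfsg.Agent.Helper15

open Cfsg.Agent.Helper3.SU2 Cfsg.Agent.Helper13

variable {F : Type*} [Field F] [Fintype F] {n : ℕ}

theorem su2c_keye (hF : Fintype.card F = 2 ^ 2) {Φ : Set (Fin n → F)} (hΦ : PhiCl Φ)
    (p0 p3 p4 : Fin n) (h03 : p0 ≠ p3) (h04 : p0 ≠ p4) (h34 : p3 ≠ p4)
    (h : Pi.single p0 (1 : F) + Pi.single p3 (1 : F) ∈ Φ) (hE : Edge Φ p0 p4) :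
    Edge Φ p3 p4 := by
  intro μ hμ
  have h2 : (2 : F) = 0 := ufld2_two hF
  have h3 : μ ^ 3 = 1 := su2c_h15_cube hF μ hμ
  have hx : Pi.single p0 (1 : F) + μ • Pi.single p4 (1 : F) ∈ Φ := hE μ hμ
  have hx0 : (Pi.single p0 (1 : F) + μ • Pi.single p4 (1 : F) : Fin n → F) p0 = 1 := by
    simp [Pi.single_apply, h04]
  have hx3 : (Pi.single p0 (1 : F) + μ • Pi.single p4 (1 : F) : Fin n → F) p3 = 0 := by
    simp [Pi.single_apply, h03.symm, h34]
  have hx4 : (Pi.single p0 (1 : F) + μ • Pi.single p4 (1 : F) : Fin n → F) p4 = μ := by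
    simp [Pi.single_apply, h04.symm]
  have hxx : Cfsg.hermForm n F 2 (Pi.single p0 (1 : F) + μ • Pi.single p4 (1 : F))
      (Pi.single p0 (1 : F) + μ • Pi.single p4 (1 : F)) = 0 := by
    rw [uh_add_left, uh_smul_left, su2c_h15_single_left hF, su2c_h15_single_left hF, hx0, hx4]
    linear_combination h2 + h3
  have hyx : Cfsg.hermForm n F 2 (Pi.single p0 (1 : F) + Pi.single p3 (1 : F))
      (Pi.single p0 (1 : F) + μ • Pi.single p4 (1 : F)) = 1 := by
    rw [uh_add_left, su2c_h15_single_left hF, su2c_h15_single_left hF, hx0, hx3]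
    ring
  have key := hΦ.tv _ _ hx h hxx
  rw [hyx] at key
  have e : (Pi.single p0 (1 : F) + Pi.single p3 (1 : F)
        + (1 : F) • (Pi.single p0 (1 : F) + μ • Pi.single p4 (1 : F)) :
      Fin n → F) = Pi.single p3 (1 : F) + μ • Pi.single p4 (1 : F) := by
    have e1 : (Pi.single p0 (1 : F) + Pi.single p3 (1 : F)
        + (1 : F) • (Pi.single p0 (1 : F) + μ • Pi.single p4 (1 : F)) :
        Fin n → F) = Pi.single p3 (1 : F) + μ • Pi.single p4 (1 : F)
          + (2 : F) • Pi.single p0 (1 : F) := by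
      module
    rw [e1, h2, zero_smul, add_zero]
  rw [e] at key
  exact key

end Cfsg.Agent.Helper15
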