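import Mathlib
import Cfsg.Agent.Helper3.SU2Defs
import Cfsg.Agent.Helper15.SU2CKEYX

set_option autoImplicit false

namespace Cfsg.Agent.Helper15

open Cfsg.Agent.Helper3.SU2 Cfsg.Agent.Helper13

variable {F : Type*} [Field F] [Fintype F] {n : ℕ}

theorem su2c_keyy (hF : Fintype.card F = 2 ^ 2) {Φ : Set (Fin n → F)} (hΦ : PhiCl Φ)
    (pm p0 p1 p2 p3 : Fin n) (hm0 : pm ≠ p0) (hm1 : pm ≠ p1) (hm2 : pm ≠ p2) (hm3 : pm ≠ p3)
    (h03 : p0 ≠ p3) (h13 : p1 ≠ p3) (h23 : p2 ≠ p3)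
    (hw : win pm p0 p1 p2 ∈ Φ) (hE : Edge Φ pm p3) (ν : F) (hν : ν ≠ 0) :
    Pi.single p0 (1 : F) + Pi.single p1 1 + Pi.single p2 1 + ν • Pi.single p3 1 ∈ Φ := by
  have h2 : (2 : F) = 0 := ufld2_two hF
  have h3 : ν ^ 3 = 1 := su2c_h15_cube hF ν hν
  have hx : Pi.single pm (1 : F) + ν • Pi.single p3 (1 : F) ∈ Φ := hE ν hν
  have hxm : (Pi.single pm (1 : F) + ν • Pi.single p3 (1 : F) : Fin n → F) pm = 1 := by
    simp [Pi.single_apply, hm3]
  have hx0 : (Pi.single pm (1 : F) + ν • Pi.single p3 (1 : F) : Fin n → F) p0 = 0 := by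
    simp [Pi.single_apply, hm0.symm, h03]
  have hx1 : (Pi.single pm (1 : F) + ν • Pi.single p3 (1 : F) : Fin n → F) p1 = 0 := by
    simp [Pi.single_apply, hm1.symm, h13]
  have hx2 : (Pi.single pm (1 : F) + ν • Pi.single p3 (1 : F) : Fin n → F) p2 = 0 := by
    simp [Pi.single_apply, hm2.symm, h23]
  have hx3 : (Pi.single pm (1 : F) + ν • Pi.single p3 (1 : F) : Fin n → F) p3 = ν := by
    simp [Pi.single_apply, hm3.symm]
  have hxx : Cfsg.hermForm n F 2 (Pi.single pm (1 : F) + ν • Pi.single p3 (1 : F))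
      (Pi.single pm (1 : F) + ν • Pi.single p3 (1 : F)) = 0 := by
    rw [uh_add_left, uh_smul_left, su2c_h15_single_left hF, su2c_h15_single_left hF, hxm, hx3]
    linear_combination h2 + h3
  have hyx : Cfsg.hermForm n F 2 (win pm p0 p1 p2)
      (Pi.single pm (1 : F) + ν • Pi.single p3 (1 : F)) = 1 := by
    unfold win
    rw [uh_add_left, uh_add_left, uh_add_left, su2c_h15_single_left hF,
      su2c_h15_single_left hF, su2c_h15_single_left hF, su2c_h15_single_left hF,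
      hxm, hx0, hx1, hx2]
    ring
  have key := hΦ.tv _ _ hx hw hxx
  rw [hyx] at key
  have e : (win pm p0 p1 p2 + (1 : F) • (Pi.single pm (1 : F) + ν • Pi.single p3 (1 : F)) :
      Fin n → F) = Pi.single p0 (1 : F) + Pi.single p1 1 + Pi.single p2 1 + ν • Pi.single p3 1 := by
    have e1 : (win pm p0 p1 p2 + (1 : F) • (Pi.single pm (1 : F) + ν • Pi.single p3 (1 : F)) :
        Fin n → F) = Pi.single p0 (1 : F) + Pi.single p1 1 + Pi.single p2 1 + ν • Pi.single p3 1
          + (2 : F) • Pi.single pm (1 : F) := by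
      unfold win
      module
    rw [e1, h2, zero_smul, add_zero]
  rw [e] at key
  exact key

end Cfsg.Agent.Helper15
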