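import Cfsg.Agent.Helper15.FixedPts
import Cfsg.Agent.Helper15.DetExt
import Cfsg.Agent.Helper15.ProjExt2
import Cfsg.Agent.Helper15.LinExt
import Cfsg.Agent.Helper75.ConjFun
import Cfsg.Agent.Helper80.CharOrtho
import Cfsg.Agent.Helper79.Basic

/-!
# Thompson's theorem on character degrees and normal `p`-complements (Isaacs 12.2)

If every irreducible character of `G` of degree prime to `p` is linear, then `G` has a normal
`p`-complement.

Proof: let `N` be a normal subgroup of `p`-power index of least order.  Every `G`-invariant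
linear character of `N` has order prime to `p` (else the kernel of a suitable power would be a
smaller normal subgroup of `p`-power index).  Hence every `G`-invariant irreducible character
of `N` of degree prime to `p` extends to `G` (Gallagher), and so is linear.  Counting
`|N| = ∑ ϑ(1)²` modulo `p` over the orbits of a Sylow `p`-subgroup gives
`|N| ≡ #(invariant linear characters of N)`, and the latter is prime to `p` by Cauchy.
-/

set_option autoImplicit false

namespace Cfsg.Agent.Helper15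

open Cfsg

universe u

variable {G : Type u} [Group G]

/-- The (left) action of `G` on the irreducible characters of a normal subgroup. -/
@[instance_reducible] noncomputable def irrConjAction (N : Subgroup G) [N.Normal] :
    MulAction G (IrrCharacter N) where
  smul g ϑ := ⟨Helper75.conjFun N g⁻¹ ϑ.1, Helper75.isIrrCharacter_conjFun N g⁻¹ ϑ.2⟩
  one_smul ϑ := Subtype.ext (by
    show Helper75.conjFun N (1 : G)⁻¹ ϑ.1 = ϑ.1
    rw [inv_one, Helper75.conjFun_one])
  mul_smul g h ϑ := Subtype.ext (by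
    show Helper75.conjFun N (g * h)⁻¹ ϑ.1 =
      Helper75.conjFun N g⁻¹ (Helper75.conjFun N h⁻¹ ϑ.1)
    rw [mul_inv_rev, Helper75.conjFun_mul])

/-- If `N` is normal of `p`-power index and `P` is a Sylow `p`-subgroup then `G = N P`. -/
theorem exists_mul_of_sylow [Finite G] (p : ℕ) [hp : Fact p.Prime] (N : Subgroup G) [N.Normal]
    (k : ℕ) (hk : N.index = p ^ k) (P : Sylow p G) (g : G) :
    ∃ n ∈ N, ∃ u ∈ (P : Subgroup G), g = n * u := by
  have h1 : (N ⊔ (P : Subgroup G)).index ∣ p ^ k := hk ▸ Subgroup.index_dvd_of_le le_sup_left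
  have h2 : (N ⊔ (P : Subgroup G)).index ∣ (P : Subgroup G).index :=
    Subgroup.index_dvd_of_le le_sup_right
  obtain ⟨j, -, hj⟩ := (Nat.dvd_prime_pow hp.out).mp h1
  have h3 : ¬ p ∣ (P : Subgroup G).index := P.not_dvd_index
  have hj0 : j = 0 := by
    by_contra h
    apply h3
    exact dvd_trans (by rw [hj]; exact dvd_pow_self p h) h2
  have h4 : N ⊔ (P : Subgroup G) = ⊤ := by
    rw [← Subgroup.index_eq_one, hj, hj0, pow_zero]
  have h5 : g ∈ (↑(N ⊔ (P : Subgroup G)) : Set G) := by rw [h4]; trivial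
  rw [Subgroup.normal_mul] at h5
  obtain ⟨n, hn, u, hu, rfl⟩ := Set.mem_mul.mp h5
  exact ⟨n, hn, u, hu, rfl⟩

/-- Minimality: every `G`-invariant homomorphism `N →* ℂˣ` has order prime to `p`. -/
theorem orderOf_coprime_of_minimal [Finite G] (p : ℕ) [hp : Fact p.Prime] (N : Subgroup G)
    [hN : N.Normal] (k : ℕ) (hk : N.index = p ^ k)
    (hmin : ∀ K : Subgroup G, K.Normal → (∃ j, K.index = p ^ j) → K ≤ N → K = N)
    (f : N →* ℂˣ)
    (hinv : ∀ (g : G) (n : N), f ⟨g * n * g⁻¹, hN.conj_mem (n : G) n.2 g⟩ = f n) :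
    Nat.Coprime (orderOf f) p := by
  have ho : orderOf f ≠ 0 := (orderOf_hom_pos f).ne'
  obtain ⟨a, m, hm, hom⟩ := Nat.exists_eq_pow_mul_and_not_dvd ho p hp.out.ne_one
  obtain ⟨f', hf'⟩ : ∃ f' : N →* ℂˣ, f' = f ^ m := ⟨_, rfl⟩
  have hf'app : ∀ n : N, f' n = f n ^ m := fun n => by rw [hf']; rfl
  have hf'pow : ∀ n : N, f' n ^ (p ^ a) = 1 := by
    intro n
    rw [hf'app, ← pow_mul, mul_comm, ← hom]
    exact hom_pow_orderOf_apply f n
  have hf'inv : ∀ (g : G) (n : N),
      f' ⟨g * n * g⁻¹, hN.conj_mem (n : G) n.2 g⟩ = f' n := by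
    intro g n
    rw [hf'app, hf'app, hinv]
  obtain ⟨K, hKdef⟩ : ∃ K : Subgroup G, K = f'.ker.map N.subtype := ⟨_, rfl⟩
  have hKmem : ∀ x : G, x ∈ K ↔ ∃ hx : x ∈ N, f' ⟨x, hx⟩ = 1 := by
    intro x
    rw [hKdef]
    constructor
    · rintro ⟨y, hy, rfl⟩
      exact ⟨y.2, MonoidHom.mem_ker.mp hy⟩
    · rintro ⟨hx, h1⟩
      exact ⟨⟨x, hx⟩, MonoidHom.mem_ker.mpr h1, rfl⟩
  have hKN : K ≤ N := fun x hx => ((hKmem x).mp hx).1
  have hKnormal : K.Normal := by
    constructor
    intro x hx g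
    obtain ⟨hxN, h1⟩ := (hKmem x).mp hx
    refine (hKmem _).mpr ⟨hN.conj_mem x hxN g, ?_⟩
    rw [← h1]
    exact hf'inv g ⟨x, hxN⟩
  have hidx : K.index = f'.ker.index * N.index := by
    rw [hKdef]
    exact Subgroup.index_map_subtype _
  have hker : f'.ker.index = Nat.card f'.range := Subgroup.index_ker f'
  have hpg : IsPGroup p f'.range := by
    rintro ⟨y, n, rfl⟩
    refine ⟨a, Subtype.ext ?_⟩
    simpa using hf'pow n
  have hfin : Finite f'.range := Set.finite_range f'
  obtain ⟨b, hb⟩ := IsPGroup.iff_card.mp hpg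
  have hK : K = N := hmin K hKnormal ⟨b + k, by rw [hidx, hker, hb, hk, pow_add]⟩ hKN
  have hf'1 : f' = 1 := by
    ext n
    have h1 : (n : G) ∈ K := by rw [hK]; exact n.2
    obtain ⟨hx, h2⟩ := (hKmem _).mp h1
    have h3 : f' n = 1 := h2
    rw [h3]
    rfl
  have hdvd : orderOf f ∣ m := orderOf_dvd_of_pow_eq_one (hf' ▸ hf'1)
  rw [hom] at hdvd
  have hm0 : m ≠ 0 := by
    rintro rfl
    exact hm (dvd_zero p)
  have hpa : p ^ a = 1 := by
    have h1 := Nat.le_of_dvd (Nat.pos_of_ne_zero hm0) hdvd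
    have h2 : 0 < p ^ a := pow_pos hp.out.pos a
    by_contra hne
    have h3 : 2 ≤ p ^ a := by omega
    have h4 : 2 * m ≤ p ^ a * m := Nat.mul_le_mul_right m h3
    omega
  rw [hom, hpa, one_mul]
  exact ((Nat.Prime.coprime_iff_not_dvd hp.out).mpr hm).symm

/-- Under minimality, a `G`-invariant irreducible character of `N` of degree prime to `p`
extends to `G`. -/
theorem exists_irr_extension_of_minimal [Finite G] (p : ℕ) [hp : Fact p.Prime] (N : Subgroup G)
    [hN : N.Normal] (k : ℕ) (hk : N.index = p ^ k)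
    (hmin : ∀ K : Subgroup G, K.Normal → (∃ j, K.index = p ^ j) → K ≤ N → K = N)
    (ϑ : N → ℂ) (hϑ : IsIrrCharacter N ϑ)
    (hinv : ∀ (g : G) (n : N), ϑ ⟨g * n * g⁻¹, hN.conj_mem (n : G) n.2 g⟩ = ϑ n)
    (d : ℕ) (hd : ϑ 1 = d) (hcop : Nat.Coprime d p) :
    ∃ χ : G → ℂ, IsIrrCharacter G χ ∧ ∀ n : N, χ n = ϑ n := by
  have hϑc := isChar_of_irr hϑ
  obtain ⟨f, hf⟩ := detChar_exists_hom ϑ hϑc
  have hfinv : ∀ (g : G) (n : N), f ⟨g * n * g⁻¹, hN.conj_mem (n : G) n.2 g⟩ = f n := by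
    intro g n
    apply Units.ext
    rw [← hf, ← hf]
    exact detChar_invariant N ϑ hϑc hinv g n
  have hfo := orderOf_coprime_of_minimal p N k hk hmin f hfinv
  have hcop2 : Nat.Coprime N.index (orderOf f) := by
    rw [hk]
    exact Nat.Coprime.pow_left k hfo.symm
  obtain ⟨F, hF, -⟩ := exists_hom_extension_coprime N f hfinv hcop2
  obtain ⟨d', θ, hθirr, hθ⟩ := hϑ
  have hd' : d' = d := by
    have h1 := hd
    rw [← hθ, Representation.char_one] at h1
    simpa using h1
  subst hd'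
  have hdet : ∀ n : N, (F n : ℂ) = LinearMap.det (θ n) := by
    intro n
    rw [hF, ← hf, detChar_of_rep θ ϑ ⟨d', θ, hθ⟩ hθ]
  obtain ⟨ρ, hρ⟩ := exists_rep_extension_of_det θ hθirr (by rw [hθ]; exact hinv) F hdet
    (by rw [hk]; exact Nat.Coprime.pow_left k hcop.symm)
  exact exists_irr_extension_of_rep θ hθirr hθ ρ hρ

/-- The group of `G`-invariant homomorphisms `N →* ℂˣ`. -/
def invHoms (N : Subgroup G) [hN : N.Normal] : Subgroup (N →* ℂˣ) where
  carrier := {f | ∀ (g : G) (n : N), f ⟨g * n * g⁻¹, hN.conj_mem (n : G) n.2 g⟩ = f n}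
  mul_mem' := fun {a b} ha hb g n => by
    rw [MonoidHom.mul_apply, MonoidHom.mul_apply, ha, hb]
  one_mem' := fun g n => rfl
  inv_mem' := fun {a} ha g n => by
    rw [MonoidHom.inv_apply, MonoidHom.inv_apply, ha]

theorem mem_invHoms (N : Subgroup G) [hN : N.Normal] (f : N →* ℂˣ) :
    f ∈ invHoms N ↔
      ∀ (g : G) (n : N), f ⟨g * n * g⁻¹, hN.conj_mem (n : G) n.2 g⟩ = f n := Iff.rfl

/-- The linear character of a homomorphism. -/
noncomputable def homIrr {H : Type u} [Group H] (f : H →* ℂˣ) : IrrCharacter H :=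
  ⟨fun n => (f n : ℂ), Helper79.isIrrCharacter_of_hom f⟩

theorem homIrr_injective {H : Type u} [Group H] : Function.Injective (homIrr (H := H)) := by
  intro f f' h
  ext n
  exact congrFun (congrArg Subtype.val h) n

theorem finite_invHoms [Finite G] (N : Subgroup G) [hN : N.Normal] : Finite (invHoms N) :=
  Finite.of_injective (fun f : invHoms N => homIrr f.1)
    (fun _ _ h => Subtype.ext (homIrr_injective h))

/-- Under minimality the number of invariant homomorphisms is prime to `p`. -/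
theorem card_invHoms_coprime [Finite G] (p : ℕ) [hp : Fact p.Prime] (N : Subgroup G)
    [hN : N.Normal] (k : ℕ) (hk : N.index = p ^ k)
    (hmin : ∀ K : Subgroup G, K.Normal → (∃ j, K.index = p ^ j) → K ≤ N → K = N) :
    ¬ p ∣ Nat.card (invHoms N) := by
  intro hdvd
  have := finite_invHoms N
  obtain ⟨x, hx⟩ := exists_prime_orderOf_dvd_card' p hdvd
  have h1 : orderOf (x : N →* ℂˣ) = p := by rw [Subgroup.orderOf_coe, hx]
  have h2 := orderOf_coprime_of_minimal p N k hk hmin x.1 ((mem_invHoms N x.1).mp x.2)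
  rw [h1, Nat.coprime_self] at h2
  exact hp.out.ne_one h2

attribute [local instance] irrConjAction

/-- Fixed by a Sylow `p`-subgroup iff `G`-invariant (when `N` has `p`-power index). -/
theorem fixed_iff_invariant [Finite G] (p : ℕ) [hp : Fact p.Prime] (N : Subgroup G)
    [hN : N.Normal] (k : ℕ) (hk : N.index = p ^ k) (P : Sylow p G) (ϑ : IrrCharacter N) :
    (∀ u : (P : Subgroup G), u • ϑ = ϑ) ↔
      ∀ (g : G) (n : N), ϑ.1 ⟨g * n * g⁻¹, hN.conj_mem (n : G) n.2 g⟩ = ϑ.1 n := by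
  constructor
  · intro h g n
    obtain ⟨a, ha, u, hu, rfl⟩ := exists_mul_of_sylow p N k hk P g
    have h1 : Helper75.conjFun N u ϑ.1 = ϑ.1 := by
      have h2 := h ⟨u⁻¹, inv_mem hu⟩
      have h3 := congrArg Subtype.val h2
      have h4 : ((⟨u⁻¹, inv_mem hu⟩ : (P : Subgroup G)) • ϑ).1 =
          Helper75.conjFun N (u⁻¹)⁻¹ ϑ.1 := rfl
      rw [h4, inv_inv] at h3
      exact h3
    have h5 : Helper75.conjFun N a ϑ.1 = ϑ.1 := by
      funext x
      rw [Helper75.conjFun_apply]
      have h6 := isClassFunction_of_isChar (isChar_of_irr ϑ.2) x ⟨a, ha⟩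
      rw [← h6]
      congr 1
    have h6 : Helper75.conjFun N (a * u) ϑ.1 = ϑ.1 := by
      rw [Helper75.conjFun_mul, h5, h1]
    exact congrFun h6 n
  · intro h u
    apply Subtype.ext
    show Helper75.conjFun N (u : G)⁻¹ ϑ.1 = ϑ.1
    funext n
    exact h _ n

/-- **Thompson's theorem** (Isaacs 12.2): if every irreducible character of `G` of degree prime
to `p` is linear, then `G` has a normal `p`-complement. -/
theorem thompson_normal_complement [Finite G] (p : ℕ) [hp : Fact p.Prime]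
    (h : ∀ χ : G → ℂ, IsIrrCharacter G χ → ∀ d : ℕ, χ 1 = d → Nat.Coprime d p → d = 1) :
    ∃ N : Subgroup G, N.Normal ∧ Nat.Coprime (Nat.card N) p ∧ ∃ k : ℕ, N.index = p ^ k := by
  classical
  obtain ⟨N, ⟨hNn, k, hk⟩, hNmin⟩ := Set.exists_min_image
    {K : Subgroup G | K.Normal ∧ ∃ j, K.index = p ^ j} (fun K => Nat.card K) (Set.toFinite _)
    ⟨⊤, inferInstance, 0, by simp⟩
  have hmin : ∀ K : Subgroup G, K.Normal → (∃ j, K.index = p ^ j) → K ≤ N → K = N := by
    intro K hK1 hK2 hKN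
    exact Subgroup.eq_of_le_of_card_ge hKN (hNmin K ⟨hK1, hK2⟩)
  refine ⟨N, hNn, ?_, k, hk⟩
  have instN : Fintype N := Fintype.ofFinite N
  have instI : Fintype (IrrCharacter N) := Fintype.ofFinite _
  obtain ⟨P⟩ : Nonempty (Sylow p G) := inferInstance
  have hw : ∀ (u : (P : Subgroup G)) (ϑ : IrrCharacter N),
      charDegree (u • ϑ).1 ^ 2 = charDegree ϑ.1 ^ 2 := by
    intro u ϑ
    have h1 : (u • ϑ).1 1 = ϑ.1 1 := by
      show Helper75.conjFun N (u : G)⁻¹ ϑ.1 1 = ϑ.1 1
      rw [Helper75.conjFun_apply]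
      have h0 : (⟨(u : G)⁻¹ * ((1 : N) : G) * (u : G)⁻¹⁻¹,
          hNn.conj_mem ((1 : N) : G) (1 : N).2 (u : G)⁻¹⟩ : N) = 1 := by
        apply Subtype.ext
        simp
      rw [h0]
    unfold charDegree
    rw [h1]
  have hfix := sum_modEq_sum_fixed (P := (P : Subgroup G)) (X := IrrCharacter N) p P.isPGroup'
    (fun ϑ => charDegree ϑ.1 ^ 2) hw
  rw [Helper80.irr_sum_charDegree_sq] at hfix
  have hterm : ∀ ϑ : IrrCharacter N,
      (if (∀ u : (P : Subgroup G), u • ϑ = ϑ) then charDegree ϑ.1 ^ 2 else 0) ≡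
      (if ((∀ u : (P : Subgroup G), u • ϑ = ϑ) ∧ charDegree ϑ.1 = 1) then 1 else 0)
        [MOD p] := by
    intro ϑ
    by_cases hfx : ∀ u : (P : Subgroup G), u • ϑ = ϑ
    · rw [if_pos hfx]
      by_cases hc : Nat.Coprime (charDegree ϑ.1) p
      · have hinv := (fixed_iff_invariant p N k hk P ϑ).mp hfx
        obtain ⟨χ, hχ, hχN⟩ := exists_irr_extension_of_minimal p N k hk hmin ϑ.1 ϑ.2 hinv
          (charDegree ϑ.1) (Helper80.irr_one_eq ϑ) hc
        have h1 : χ 1 = (charDegree ϑ.1 : ℂ) := by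
          rw [← Helper80.irr_one_eq ϑ]
          exact hχN 1
        have h2 := h χ hχ _ h1 hc
        rw [if_pos ⟨hfx, h2⟩, h2, one_pow]
      · have hdvd : p ∣ charDegree ϑ.1 := by
          by_contra hnd
          exact hc ((Nat.Prime.coprime_iff_not_dvd hp.out).mpr hnd).symm
        have hne : charDegree ϑ.1 ≠ 1 := by
          intro h1
          rw [h1] at hdvd
          exact hp.out.one_lt.ne' (Nat.dvd_one.mp hdvd)
        rw [if_neg (fun hh => hne hh.2)]
        exact Nat.modEq_zero_iff_dvd.mpr (dvd_pow hdvd two_ne_zero)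
    · rw [if_neg hfx, if_neg (fun hh => hfx hh.1)]
  have h2 := hfix.trans (Nat.ModEq.sum (fun ϑ _ => hterm ϑ))
  have h3 : (∑ ϑ : IrrCharacter N,
      if ((∀ u : (P : Subgroup G), u • ϑ = ϑ) ∧ charDegree ϑ.1 = 1) then 1 else 0) =
      Nat.card (invHoms N) := by
    rw [← Finset.card_filter, ← Fintype.card_subtype, ← Nat.card_eq_fintype_card]
    symm
    apply Nat.card_congr
    refine Equiv.ofBijective (fun f : invHoms N => ⟨homIrr f.1,
      ⟨(fixed_iff_invariant p N k hk P _).mpr (fun g n => ?_), ?_⟩⟩) ⟨?_, ?_⟩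
    · show ((f.1 _ : ℂˣ) : ℂ) = ((f.1 n : ℂˣ) : ℂ)
      rw [(mem_invHoms N f.1).mp f.2 g n]
    · show charDegree (fun n : N => ((f.1 n : ℂˣ) : ℂ)) = 1
      unfold charDegree
      simp
    · intro f f' hff
      apply Subtype.ext
      exact homIrr_injective (congrArg Subtype.val hff)
    · rintro ⟨ϑ, hfx, hdeg⟩
      have h1 : ϑ.1 1 = 1 := by
        rw [Helper80.irr_one_eq ϑ, hdeg]
        simp
      obtain ⟨f, hf⟩ := linChar_exists_hom ϑ.1 ⟨isChar_of_irr ϑ.2, h1⟩
      have hinv := (fixed_iff_invariant p N k hk P ϑ).mp hfx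
      refine ⟨⟨f, (mem_invHoms N f).mpr (fun g n => ?_)⟩, ?_⟩
      · apply Units.ext
        rw [← hf, ← hf]
        exact hinv g n
      · apply Subtype.ext
        apply Subtype.ext
        funext n
        exact (hf n).symm
  rw [h3] at h2
  have h4 := card_invHoms_coprime p N k hk hmin
  have h5 : ¬ p ∣ Fintype.card N := fun hd => h4 ((Nat.ModEq.dvd_iff h2 (dvd_refl p)).mp hd)
  rw [Nat.card_eq_fintype_card]
  exact ((Nat.Prime.coprime_iff_not_dvd hp.out).mpr h5).symm

end Cfsg.Agent.Helper15
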