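import Mathlib

/-!
# Winter's theorem: definitions

`IsPEl p x`: `x` is a `p`-element.  `PClosed p G`: the `p`-elements of `G` are closed under
multiplication (equivalently, `G` has a normal Sylow `p`-subgroup).
-/

set_option autoImplicit false

namespace Cfsg.Agent.Helper15

universe u

/-- `x` is a `p`-element: some `p`-power power of `x` is trivial. -/
def IsPEl {G : Type*} [Monoid G] (p : ℕ) (x : G) : Prop := ∃ k : ℕ, x ^ p ^ k = 1

/-- The `p`-elements of `G` are closed under multiplication. -/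
def PClosed (p : ℕ) (G : Type*) [Group G] : Prop :=
  ∀ x y : G, IsPEl p x → IsPEl p y → IsPEl p (x * y)

theorem isPEl_one {G : Type*} [Monoid G] (p : ℕ) : IsPEl p (1 : G) := ⟨0, by simp⟩

theorem IsPEl.conj {G : Type*} [Group G] {p : ℕ} {x : G} (h : IsPEl p x) (g : G) :
    IsPEl p (g * x * g⁻¹) := by
  obtain ⟨k, hk⟩ := h
  exact ⟨k, by rw [conj_pow, hk, mul_one, mul_inv_cancel]⟩

theorem IsPEl.inv {G : Type*} [Group G] {p : ℕ} {x : G} (h : IsPEl p x) : IsPEl p x⁻¹ := by
  obtain ⟨k, hk⟩ := h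
  exact ⟨k, by rw [inv_pow, hk, inv_one]⟩

theorem IsPEl.map {G H : Type*} [Monoid G] [Monoid H] {p : ℕ} {x : G} (h : IsPEl p x)
    (f : G →* H) : IsPEl p (f x) := by
  obtain ⟨k, hk⟩ := h
  exact ⟨k, by rw [← map_pow, hk, map_one]⟩

theorem IsPEl.pow_mono {G : Type*} [Monoid G] {p : ℕ} {x : G} {k l : ℕ} (h : x ^ p ^ k = 1)
    (hkl : k ≤ l) : x ^ p ^ l = 1 := by
  obtain ⟨d, rfl⟩ := Nat.exists_eq_add_of_le hkl
  rw [pow_add, pow_mul, h, one_pow]

/-- If the `p`-elements are closed under multiplication, every Sylow `p`-subgroup is normal. -/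
theorem sylow_normal_of_pclosed {G : Type*} [Group G] {p : ℕ} (h : PClosed p G)
    (P : Sylow p G) : (P : Subgroup G).Normal := by
  let H : Subgroup G :=
    { carrier := {x | IsPEl p x}
      mul_mem' := fun {a b} ha hb => h a b ha hb
      one_mem' := isPEl_one p
      inv_mem' := fun {a} ha => ha.inv }
  have hH : IsPGroup p H := by
    intro g
    obtain ⟨k, hk⟩ := g.2
    exact ⟨k, Subtype.ext (by simpa using hk)⟩
  have hPH : (P : Subgroup G) ≤ H := by
    intro x hx
    obtain ⟨k, hk⟩ := P.isPGroup' ⟨x, hx⟩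
    exact ⟨k, by simpa using congrArg Subtype.val hk⟩
  have hEq : H = (P : Subgroup G) := P.is_maximal' hH hPH
  rw [← hEq]
  constructor
  intro n hn g
  exact IsPEl.conj hn g

/-- A group with a normal Sylow `p`-subgroup has `p`-elements closed under multiplication. -/
theorem pclosed_of_sylow_normal {G : Type*} [Group G] [Finite G] {p : ℕ} [Fact p.Prime]
    (P : Sylow p G) (hP : (P : Subgroup G).Normal) : PClosed p G := by
  have key : ∀ x : G, IsPEl p x → x ∈ (P : Subgroup G) := by
    intro x hx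
    have hz : IsPGroup p (Subgroup.zpowers x) := by
      obtain ⟨k, hk⟩ := hx
      rw [IsPGroup.iff_orderOf]
      intro g
      obtain ⟨g, hg⟩ := g
      obtain ⟨i, rfl⟩ := Subgroup.mem_zpowers_iff.mp hg
      have h1 : (⟨x ^ i, hg⟩ : Subgroup.zpowers x) ^ p ^ k = 1 := by
        apply Subtype.ext
        simp only [Subgroup.coe_pow, Subgroup.coe_one]
        rw [← zpow_natCast, ← zpow_mul, mul_comm, zpow_mul, zpow_natCast, hk, one_zpow]
      exact (Nat.dvd_prime_pow Fact.out).mp (orderOf_dvd_of_pow_eq_one h1) |>.imp fun _ h => h.2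
    obtain ⟨Q, hQ⟩ := hz.exists_le_sylow
    obtain ⟨g, hg⟩ := MulAction.exists_smul_eq G Q P
    have hQP : (Q : Subgroup G) = (P : Subgroup G) := by
      have h1 : g⁻¹ • P = P := by
        have := hP
        exact Sylow.smul_eq_of_normal
      have h3 : g⁻¹ • P = Q := by rw [← hg, inv_smul_smul]
      rw [← h3, h1]
    rw [← hQP]
    exact hQ (Subgroup.mem_zpowers x)
  intro x y hx hy
  have hxy : x * y ∈ (P : Subgroup G) := Subgroup.mul_mem _ (key x hx) (key y hy)
  obtain ⟨k, hk⟩ := P.isPGroup' ⟨x * y, hxy⟩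
  exact ⟨k, by simpa using congrArg Subtype.val hk⟩

end Cfsg.Agent.Helper15
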