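import Mathlib
import Cfsg.Agent.Helper15.WinterDefs

/-!
# Winter's theorem: fixed points of conjugation by a `p`-element on a stable set
-/

set_option autoImplicit false

namespace Cfsg.Agent.Helper15

universe u

/-- If conjugation by the `p`-element `x` maps the set `S` into itself, the number of fixed
points is congruent to `|S|` modulo `p`. -/
theorem winter_fixed_card {Q : Type u} [Group Q] [Finite Q] (p : ℕ) (hp : p.Prime) (x : Q)
    (hx : IsPEl p x) (S : Set Q) (hS : ∀ s ∈ S, x * s * x⁻¹ ∈ S) :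
    S.ncard ≡ {s | s ∈ S ∧ x * s * x⁻¹ = s}.ncard [MOD p] := by
  classical
  have : Fact p.Prime := ⟨hp⟩
  obtain ⟨k, hk⟩ := hx
  let _ : Fintype S := Fintype.ofFinite S
  let f : Function.End S := fun s => ⟨x * s * x⁻¹, hS s s.2⟩
  have hfn : ∀ n : ℕ, ∀ s : S, ((f ^ n) s : Q) = x ^ n * s * (x ^ n)⁻¹ := by
    intro n
    induction n with
    | zero =>
      intro s
      simp
      rfl
    | succ n ih =>
      intro s
      have h1 : (f ^ (n + 1)) s = f ((f ^ n) s) := by rw [pow_succ']; rfl
      rw [h1]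
      show x * ((f ^ n) s : Q) * x⁻¹ = _
      rw [ih s, pow_succ']
      group
  have hf : f ^ p ^ k = 1 := by
    funext s
    apply Subtype.ext
    rw [hfn, hk]
    simp
    rfl
  have h := Equiv.Perm.card_fixedPoints_modEq (f := f) hf
  have h1 : Fintype.card S = S.ncard := by
    rw [← Nat.card_eq_fintype_card, Nat.card_coe_set_eq]
  have h2 : Fintype.card (Function.fixedPoints f) = {s | s ∈ S ∧ x * s * x⁻¹ = s}.ncard := by
    rw [← Nat.card_eq_fintype_card, ← Nat.card_coe_set_eq]
    apply Nat.card_congr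
    exact
      { toFun := fun a => ⟨a.1.1, a.1.2, congrArg Subtype.val a.2⟩
        invFun := fun b => ⟨⟨b.1, b.2.1⟩, Subtype.ext b.2.2⟩
        left_inv := fun a => rfl
        right_inv := fun b => rfl }
  rw [h1, h2] at h
  exact h

/-- Existence of a fixed point when `p ∤ |S|`. -/
theorem winter_fixed_point {Q : Type u} [Group Q] [Finite Q] (p : ℕ) (hp : p.Prime) (x : Q)
    (hx : IsPEl p x) (S : Set Q) (hS : ∀ s ∈ S, x * s * x⁻¹ ∈ S) (hcard : ¬ p ∣ S.ncard) :
    ∃ s ∈ S, x * s * x⁻¹ = s := by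
  have h := winter_fixed_card p hp x hx S hS
  by_contra hcon
  have h0 : {s | s ∈ S ∧ x * s * x⁻¹ = s} = ∅ := by
    ext s
    constructor
    · intro hs
      exact (hcon ⟨s, hs.1, hs.2⟩).elim
    · intro hs
      exact hs.elim
  rw [h0, Set.ncard_empty] at h
  exact hcard ((Nat.modEq_zero_iff_dvd).mp h)

end Cfsg.Agent.Helper15
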