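import Mathlib
import Cfsg.Prelude.Def_Characters
import Cfsg.Prelude.Def_Blocks
import Cfsg.Agent.Helper15.CentralType
import Cfsg.Agent.Helper15.WinterDefs
import Cfsg.Agent.Helper15.WinterFix
import Cfsg.Agent.Helper79.Induced
import Cfsg.Agent.Helper79.Abelian
import Cfsg.Agent.Helper76.CentralChar

/-!
# Winter's theorem: character-theoretic tools

* `ct_of_over`: an irreducible character lying over a "critical" linear character of a subgroup
  `Z` vanishes off `Z` and has `|Z| * ψ(1)^2 = |X|`.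
* `irr_of_indFun_irr`: a character whose induced character is irreducible is irreducible.
* `exists_coatom_induced`: an irreducible character induced from a proper subgroup is induced
  from a maximal subgroup.
-/

set_option autoImplicit false

namespace Cfsg.Agent.Helper15

open scoped ComplexConjugate

universe u

theorem ct_of_over {X : Type u} [Group X] [Finite X] (Z : Subgroup X) (lam : Z →* ℂˣ)
    (hcrit : ∀ x : X, x ∉ Z → ∃ (g : X) (c : Z), (c : X) = x * g * x⁻¹ * g⁻¹ ∧ lam c ≠ 1)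
    (ψ : X → ℂ) (hψ : Cfsg.IsIrrCharacter X ψ)
    (hmul : ∀ (z : Z) (x : X), ψ (z * x) = (lam z : ℂ) * ψ x) :
    (∀ x : X, x ∉ Z → ψ x = 0) ∧ Nat.card Z * (Cfsg.charDegree ψ) ^ 2 = Nat.card X := by
  classical
  let _ : Fintype X := Fintype.ofFinite X
  have hχchar : Cfsg.IsCharacter X ψ := isChar_of_irr hψ
  have hnorm : ∀ z : Z, ‖(lam z : ℂ)‖ = 1 := fun z => Cfsg.Agent.Helper79.norm_hom_apply lam z
  have hvan : ∀ x : X, x ∉ Z → ψ x = 0 := by
    intro x hx
    obtain ⟨g, c0, hc0eq, hc0ne⟩ := hcrit x hx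
    have h1 : x = (c0 : X) * (g * x * g⁻¹) := by
      rw [hc0eq]; group
    have h2 : ψ x = (lam c0 : ℂ) * ψ x := by
      conv_lhs => rw [h1]
      rw [hmul, Cfsg.Agent.Helper79.isCharacter_conj_eq hχchar]
    have h3 : (lam c0 : ℂ) ≠ 1 := by
      intro h; exact hc0ne (Units.ext h)
    have h4 : ((lam c0 : ℂ) - 1) * ψ x = 0 := by
      rw [sub_mul, one_mul, ← h2, sub_self]
    rcases mul_eq_zero.mp h4 with h | h
    · exact absurd (sub_eq_zero.mp h) h3
    · exact h
  refine ⟨hvan, ?_⟩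
  have hdeg : ψ 1 = (Cfsg.charDegree ψ : ℂ) :=
    Cfsg.Agent.Helper79.isCharacter_one_eq_charDegree hχchar
  have hinner := irr_inner_self hψ
  unfold Cfsg.classInner at hinner
  have hsum : ∑ x : X, ψ x * conj (ψ x) = ∑ z : Z, ψ (z : X) * conj (ψ (z : X)) := by
    have := Cfsg.Agent.Helper3.sum_extendByZero_mul Z (fun z : Z => ψ (z : X))
      (fun x => conj (ψ x))
    rw [← this]
    refine Finset.sum_congr rfl (fun x _ => ?_)
    by_cases hx : x ∈ Z
    · rw [Cfsg.Agent.Helper3.extendByZero_of_mem Z _ hx]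
    · rw [Cfsg.Agent.Helper3.extendByZero_of_not_mem Z _ hx, hvan x hx]
  have hsum2 : ∑ z : Z, ψ (z : X) * conj (ψ (z : X))
      = (Nat.card Z : ℂ) * (Cfsg.charDegree ψ : ℂ) ^ 2 := by
    have h1 : ∀ z : Z, ψ (z : X) * conj (ψ (z : X)) = (Cfsg.charDegree ψ : ℂ) ^ 2 := by
      intro z
      have h2 : ψ (z : X) = (lam z : ℂ) * (Cfsg.charDegree ψ : ℂ) := by
        have := hmul z 1
        rwa [mul_one, hdeg] at this
      rw [h2, map_mul, Complex.conj_natCast, ← Complex.inv_eq_conj (hnorm z)]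
      have : (lam z : ℂ) ≠ 0 := Units.ne_zero _
      field_simp
    rw [Finset.sum_congr rfl (fun z _ => h1 z), Finset.sum_const, Finset.card_univ,
      nsmul_eq_mul, Nat.card_eq_fintype_card]
  rw [hsum, hsum2] at hinner
  have hX0 : (Nat.card X : ℂ) ≠ 0 := by exact_mod_cast Nat.card_pos.ne'
  have h6 : (Nat.card Z : ℂ) * (Cfsg.charDegree ψ : ℂ) ^ 2 = (Nat.card X : ℂ) := by
    field_simp at hinner
    exact hinner
  exact_mod_cast h6

theorem irr_of_indFun_irr {G : Type u} [Group G] [Fintype G] (T : Subgroup G) (θ : T → ℂ)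
    (hθ : Cfsg.IsCharacter T θ) (hirr : Cfsg.IsIrrCharacter G (Cfsg.indFun T θ)) :
    Cfsg.IsIrrCharacter T θ := by
  classical
  let _ : Fintype T := Fintype.ofFinite T
  let _ : Fintype (Cfsg.IrrCharacter T) := Fintype.ofFinite _
  have hχc := isChar_of_irr hirr
  have hχcl := isClassFunction_of_isChar hχc
  have h1 : Cfsg.classInner θ (fun t : T => Cfsg.indFun T θ t) = 1 := by
    rw [← Cfsg.Agent.Helper3.frobenius_reciprocity T θ _ hχcl]
    exact irr_inner_self hirr
  have hθcl := isClassFunction_of_isChar hθ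
  rw [classInner_eq_sum hθcl] at h1
  have h2 : ∃ β : Cfsg.IrrCharacter T, Cfsg.classInner θ β *
      conj (Cfsg.classInner (fun t : T => Cfsg.indFun T θ t) β) ≠ 0 := by
    by_contra hcon
    have h3 : ∀ β : Cfsg.IrrCharacter T, Cfsg.classInner θ β *
        conj (Cfsg.classInner (fun t : T => Cfsg.indFun T θ t) β) = 0 := by
      intro β
      by_contra h
      exact hcon ⟨β, h⟩
    rw [Finset.sum_eq_zero (fun β _ => h3 β)] at h1
    exact zero_ne_one h1
  obtain ⟨β, hβ⟩ := h2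
  have hβ1 : Cfsg.classInner θ β ≠ 0 := left_ne_zero_of_mul hβ
  have hβ2 : Cfsg.classInner (fun t : T => Cfsg.indFun T θ t) β ≠ 0 := by
    intro h
    apply hβ
    rw [h]
    simp
  have hd1 := Cfsg.Agent.Helper79.irr_charDegree_le_of_classInner_ne_zero hθ β hβ1
  have hd2 := (Cfsg.Agent.Helper79.irr_charDegree_le_index_mul ⟨_, hirr⟩ T β hβ2).1
  have hd3 : Cfsg.charDegree (Cfsg.indFun T θ) = T.index * Cfsg.charDegree θ :=
    Cfsg.Agent.Helper79.charDegree_indFun T hθ
  have hidx : 0 < T.index := Nat.pos_of_ne_zero Subgroup.index_ne_zero_of_finite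
  have hd4 : Cfsg.charDegree θ = Cfsg.charDegree (β : T → ℂ) := by
    apply le_antisymm
    · simp only at hd2
      rw [hd3] at hd2
      exact Nat.le_of_mul_le_mul_left hd2 hidx
    · exact hd1.1
  rw [hd1.2 hd4]
  exact β.2

theorem exists_coatom_induced {G : Type u} [Group G] [Fintype G] (χ : G → ℂ)
    (hχ : Cfsg.IsIrrCharacter G χ) (T : Subgroup G) (hT : T ≠ ⊤) (ψ : T → ℂ)
    (hψ : Cfsg.IsIrrCharacter T ψ) (hind : Cfsg.indFun T ψ = χ) :
    ∃ (T' : Subgroup G) (ψ' : T' → ℂ), IsCoatom T' ∧ Cfsg.IsIrrCharacter T' ψ' ∧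
      Cfsg.indFun T' ψ' = χ := by
  classical
  rcases eq_top_or_exists_le_coatom T with h | ⟨T', hT', hle⟩
  · exact absurd h hT
  let _ : Fintype T' := Fintype.ofFinite T'
  have htrans := Cfsg.Agent.Helper3.indFun_trans T T' hle ψ
  rw [hind] at htrans
  have hθ0c : Cfsg.IsCharacter (T.subgroupOf T')
      (fun x => ψ ⟨(x : T'), Subgroup.mem_subgroupOf.mp x.2⟩) :=
    Cfsg.Agent.Helper79.isCharacter_comp (isChar_of_irr hψ)
      (Subgroup.subgroupOfEquivOfLe hle).toMonoidHom
  have hψ'c := Cfsg.Agent.Helper3.isCharacter_indFun _ _ hθ0c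
  refine ⟨T', _, hT', irr_of_indFun_irr T' _ hψ'c ?_, htrans⟩
  rw [htrans]
  exact hχ

end Cfsg.Agent.Helper15
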