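import Mathlib
import Cfsg.Prelude.Def_Characters
import Cfsg.Prelude.Def_Blocks
import Cfsg.Agent.Helper15.WinterChar

/-!
# Winter's theorem: the induced case
-/

set_option autoImplicit false

namespace Cfsg.Agent.Helper15

open scoped ComplexConjugate

universe u

/-- If all `G`-conjugates of `z` lie in the kernel of `ψ`, the induced character takes the value
`(indFun T ψ) 1` at `z`. -/
theorem indFun_eq_one_of_conj_mem_ker {G : Type u} [Group G] [Fintype G] (T : Subgroup G)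
    (ψ : T → ℂ) (z : G) (hz : ∀ b : G, ∃ h : b⁻¹ * z * b ∈ T, ψ ⟨b⁻¹ * z * b, h⟩ = ψ 1) :
    Cfsg.indFun T ψ z = Cfsg.indFun T ψ 1 := by
  rw [indFun_apply', indFun_apply']
  congr 1
  refine Finset.sum_congr rfl (fun b _ => ?_)
  obtain ⟨h, h1⟩ := hz b
  rw [Cfsg.Agent.Helper3.extendByZero_of_mem T ψ h, h1]
  have h2 : b⁻¹ * 1 * b = ((1 : T) : G) := by simp
  rw [h2, Cfsg.Agent.Helper3.extendByZero_coe]

theorem winter_induced_case {G : Type u} [Group G] [Fintype G] (hsol : Group.IsSolvable G)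
    (χ : Cfsg.IrrCharacter G) (hfaith : ∀ g : G, (χ : G → ℂ) g = (χ : G → ℂ) 1 → g = 1)
    (p : ℕ) (hnc : ¬ PClosed p G)
    (IH : ∀ (H : Type u) [Group H] [Finite H], Nat.card H < Nat.card G → Group.IsSolvable H →
      ∀ (η : Cfsg.IrrCharacter H), (∀ g : H, (η : H → ℂ) g = (η : H → ℂ) 1 → g = 1) →
      ¬ PClosed p H → ∃ q : ℕ, IsPrimePow q ∧ q ∣ Cfsg.charDegree (η : H → ℂ) ∧
        (p ∣ q ∨ p ∣ q - 1 ∨ p ∣ q + 1))
    (T : Subgroup G) (hT : IsCoatom T) (ψ : T → ℂ) (hψ : Cfsg.IsIrrCharacter T ψ)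
    (hind : Cfsg.indFun T ψ = (χ : G → ℂ))
    (hP1 : ∀ x : G, IsPEl p x → x ∉ T.normalCore →
      ∃ q : ℕ, IsPrimePow q ∧ q ∣ T.index ∧ (p ∣ q ∨ p ∣ q - 1)) :
    ∃ q : ℕ, IsPrimePow q ∧ q ∣ Cfsg.charDegree (χ : G → ℂ) ∧
      (p ∣ q ∨ p ∣ q - 1 ∨ p ∣ q + 1) := by
  classical
  have hψc := isChar_of_irr hψ
  have hdeg : Cfsg.charDegree (χ : G → ℂ) = T.index * Cfsg.charDegree ψ := by
    rw [← hind]
    exact Cfsg.Agent.Helper79.charDegree_indFun T hψc
  set L : Subgroup T := Cfsg.Agent.Helper79.charKer hψc with hL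
  have hLn : L.Normal := Cfsg.Agent.Helper79.charKer_normal hψc
  have hLmem : ∀ t : T, t ∈ L ↔ ψ t = ψ 1 := fun t => Cfsg.Agent.Helper79.mem_charKer hψc t
  obtain ⟨ψb, hψb, hψbeq⟩ := Cfsg.Agent.Helper79.exists_irr_deflation (N := L) hψ
    (fun x hx => (hLmem x).mp hx)
  have hψb1 : ψb 1 = ψ 1 := hψbeq 1
  have hfb : ∀ g : T ⧸ L, ψb g = ψb 1 → g = 1 := by
    intro g hg
    induction g using QuotientGroup.induction_on with
    | H t =>
      rw [hψbeq, hψb1] at hg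
      exact (QuotientGroup.eq_one_iff t).mpr ((hLmem t).mpr hg)
  have hdegb : Cfsg.charDegree ψb = Cfsg.charDegree ψ := by
    unfold Cfsg.charDegree
    rw [hψb1]
  have hcard : Nat.card (T ⧸ L) < Nat.card G := by
    have h1 : Nat.card (T ⧸ L) ≤ Nat.card T :=
      Nat.le_of_dvd Nat.card_pos (Subgroup.card_quotient_dvd_card L)
    have h2 : Nat.card T < Nat.card G := by
      rcases lt_or_eq_of_le (Subgroup.card_le_card_group T) with h | h
      · exact h
      · exact absurd (Subgroup.eq_top_of_card_eq T h) hT.1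
    omega
  have hsolQ : Group.IsSolvable (T ⧸ L) := by
    have := hsol
    infer_instance
  by_cases hQ : PClosed p (T ⧸ L)
  · by_cases hall : ∀ x : G, IsPEl p x → x ∈ T.normalCore
    · exfalso
      apply hnc
      intro x y hx hy
      have hxT : ∀ b : G, b⁻¹ * x * b ∈ T := by
        intro b
        have h1 := hall x hx
        have h2 : b⁻¹ * x * b⁻¹⁻¹ ∈ T := h1 b⁻¹
        simpa using h2
      have hyT : ∀ b : G, b⁻¹ * y * b ∈ T := by
        intro b
        have h1 := hall y hy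
        have h2 : b⁻¹ * y * b⁻¹⁻¹ ∈ T := h1 b⁻¹
        simpa using h2
      have hpel : ∀ (w : G) (hw : w ∈ T), IsPEl p w → IsPEl p (⟨w, hw⟩ : T) := by
        intro w hw hpw
        obtain ⟨k, hk⟩ := hpw
        exact ⟨k, Subtype.ext (by simpa using hk)⟩
      have hconj : ∀ (w : G) (b : G), IsPEl p w → IsPEl p (b⁻¹ * w * b) := by
        intro w b hw
        have := hw.conj b⁻¹
        simpa using this
      have hk : ∀ b : G, ∃ k : ℕ,
          ((⟨b⁻¹ * x * b, hxT b⟩ : T) * ⟨b⁻¹ * y * b, hyT b⟩) ^ p ^ k ∈ L := by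
        intro b
        have h1 := (hpel _ (hxT b) (hconj x b hx)).map (QuotientGroup.mk' L)
        have h2 := (hpel _ (hyT b) (hconj y b hy)).map (QuotientGroup.mk' L)
        obtain ⟨k, hk⟩ := hQ _ _ h1 h2
        refine ⟨k, ?_⟩
        rw [← map_mul, ← map_pow] at hk
        exact (QuotientGroup.eq_one_iff _).mp hk
      choose k hk using hk
      set K : ℕ := ∑ b : G, k b with hK
      have hkK : ∀ b : G, k b ≤ K := fun b =>
        Finset.single_le_sum (f := k) (fun _ _ => Nat.zero_le _) (Finset.mem_univ b)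
      have hK' : ∀ b : G,
          ((⟨b⁻¹ * x * b, hxT b⟩ : T) * ⟨b⁻¹ * y * b, hyT b⟩) ^ p ^ K ∈ L := by
        intro b
        obtain ⟨d, hd⟩ := Nat.exists_eq_add_of_le (hkK b)
        rw [hd, pow_add, pow_mul]
        exact L.pow_mem (hk b) _
      refine ⟨K, hfaith _ ?_⟩
      rw [← hind]
      apply indFun_eq_one_of_conj_mem_ker
      intro b
      have h1 : b⁻¹ * (x * y) ^ p ^ K * b
          = ((((⟨b⁻¹ * x * b, hxT b⟩ : T) * ⟨b⁻¹ * y * b, hyT b⟩) ^ p ^ K : T) : G) := by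
        rw [Subgroup.coe_pow, Subgroup.coe_mul]
        have h2 : b⁻¹ * x * b * (b⁻¹ * y * b) = b⁻¹ * (x * y) * b⁻¹⁻¹ := by group
        rw [h2, conj_pow, inv_inv]
      have h3 : b⁻¹ * (x * y) ^ p ^ K * b ∈ T := by
        rw [h1]
        exact Subtype.property _
      refine ⟨h3, ?_⟩
      have h4 : (⟨b⁻¹ * (x * y) ^ p ^ K * b, h3⟩ : T)
          = ((⟨b⁻¹ * x * b, hxT b⟩ : T) * ⟨b⁻¹ * y * b, hyT b⟩) ^ p ^ K := Subtype.ext h1
      rw [h4]
      exact (hLmem _).mp (hK' b)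
    · obtain ⟨x, hx⟩ := not_forall.mp hall
      obtain ⟨hx1, hx2⟩ := Classical.not_imp.mp hx
      obtain ⟨q, hq, hqd, hqp⟩ := hP1 x hx1 hx2
      refine ⟨q, hq, ?_, ?_⟩
      · rw [hdeg]
        exact Dvd.dvd.mul_right hqd _
      · rcases hqp with h | h
        · exact Or.inl h
        · exact Or.inr (Or.inl h)
  · obtain ⟨q, hq, hqd, hqp⟩ := IH (T ⧸ L) hcard hsolQ ⟨ψb, hψb⟩ hfb hQ
    refine ⟨q, hq, ?_, hqp⟩
    rw [hdeg]
    simp only at hqd
    rw [hdegb] at hqd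
    exact Dvd.dvd.mul_left hqd _

end Cfsg.Agent.Helper15
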