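import Mathlib
import Cfsg.Prelude.Def_Characters
import Cfsg.Prelude.Def_Blocks
import Cfsg.Agent.Helper15.WinterChar
import Cfsg.Agent.Helper15.RelM4

/-!
# Winter's theorem: the primitive case, character-theoretic part

For a faithful irreducible character `χ` that is not induced from a proper subgroup:
restrictions to normal subgroups are homogeneous, abelian normal subgroups are central, and a
normal subgroup `M` of class `≤ 2` containing its centraliser has `|M : Z(G)| = u^2` with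
`u ∣ χ(1)`.
-/

set_option autoImplicit false

namespace Cfsg.Agent.Helper15

open scoped ComplexConjugate

universe u

theorem winter_homog {G : Type u} [Group G] [Fintype G] (χ : Cfsg.IrrCharacter G)
    (hprim : ∀ (T : Subgroup G) (ψ : T → ℂ), T ≠ ⊤ → Cfsg.IsIrrCharacter T ψ →
      Cfsg.indFun T ψ ≠ (χ : G → ℂ))
    (N : Subgroup G) [hN : N.Normal] :
    ∃ (φ : N → ℂ) (e : ℕ), Cfsg.IsIrrCharacter N φ ∧ 0 < e ∧
      (∀ g : G, Cfsg.Agent.Helper75.conjFun N g φ = φ) ∧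
      (fun n : N => (χ : G → ℂ) n) = (e : ℂ) • φ := by
  classical
  let _ : Fintype N := Fintype.ofFinite N
  have hχc := isChar_of_irr χ.2
  have hres : Cfsg.IsCharacter N (fun n : N => (χ : G → ℂ) n) :=
    Cfsg.Agent.Helper79.isCharacter_restrict hχc N
  have hne : (fun n : N => (χ : G → ℂ) n) ≠ 0 := by
    intro h
    have h1 := congrFun h 1
    simp only [Pi.zero_apply, Subgroup.coe_one] at h1
    exact Cfsg.Agent.Helper76.irr_one_ne_zero χ h1
  obtain ⟨φ, hφ⟩ := exists_constituent (isClassFunction_of_isChar hres) hne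
  rcases clifford_step N (χ : G → ℂ) χ.2 (φ : N → ℂ) φ.2 hφ with
    ⟨hinv, e, he, heq⟩ | ⟨T, ψ, hT, -, hψ, hind⟩
  · exact ⟨φ, e, φ.2, he, hinv, heq⟩
  · exact absurd hind (hprim T ψ hT hψ)

theorem winter_abelian_central {G : Type u} [Group G] [Fintype G] (χ : Cfsg.IrrCharacter G)
    (hfaith : ∀ g : G, (χ : G → ℂ) g = (χ : G → ℂ) 1 → g = 1)
    (hprim : ∀ (T : Subgroup G) (ψ : T → ℂ), T ≠ ⊤ → Cfsg.IsIrrCharacter T ψ →
      Cfsg.indFun T ψ ≠ (χ : G → ℂ))
    (A : Subgroup G) (hA : A.Normal) (hAc : ∀ a ∈ A, ∀ b ∈ A, a * b = b * a) :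
    A ≤ Subgroup.center G := by
  classical
  obtain ⟨φ, e, hφ, he, hinv, heq⟩ := winter_homog χ hprim A
  have hφc := isChar_of_irr hφ
  have hφ1 : Cfsg.charDegree φ = 1 :=
    Cfsg.Agent.Helper79.irr_charDegree_eq_one_of_comm
      (fun a b => Subtype.ext (hAc a a.2 b b.2)) ⟨φ, hφ⟩
  have hφ1' : φ 1 = 1 := by
    rw [Cfsg.Agent.Helper79.isCharacter_one_eq_charDegree hφc, hφ1]
    simp
  obtain ⟨f, hf⟩ := Cfsg.Agent.Helper79.isCharacter_linear hφc hφ1'
  intro a ha
  rw [Subgroup.mem_center_iff]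
  intro g
  have hga : g * a * g⁻¹ ∈ A := hA.conj_mem a ha g
  have hc : a⁻¹ * (g * a * g⁻¹) ∈ A := A.mul_mem (A.inv_mem ha) hga
  have hχA : ∀ n : A, (χ : G → ℂ) n = (e : ℂ) * φ n := fun n => congrFun heq n
  have hinv' : φ ⟨g * a * g⁻¹, hga⟩ = φ ⟨a, ha⟩ := by
    have := congrFun (hinv g) ⟨a, ha⟩
    rwa [Cfsg.Agent.Helper75.conjFun_apply] at this
  have hf' : f ⟨g * a * g⁻¹, hga⟩ = f ⟨a, ha⟩ := by
    apply Units.ext
    rw [← hf, ← hf]
    exact hinv'
  have h1 : (χ : G → ℂ) (a⁻¹ * (g * a * g⁻¹)) = (χ : G → ℂ) 1 := by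
    have h2 := hχA ⟨a⁻¹ * (g * a * g⁻¹), hc⟩
    have h3 := hχA 1
    rw [Subgroup.coe_one] at h3
    rw [h3, hφ1']
    have h4 : (⟨a⁻¹ * (g * a * g⁻¹), hc⟩ : A) = (⟨a, ha⟩ : A)⁻¹ * ⟨g * a * g⁻¹, hga⟩ := rfl
    have h5 : φ ⟨a⁻¹ * (g * a * g⁻¹), hc⟩ = 1 := by
      rw [h4, hf, map_mul, map_inv, hf']
      simp
    rw [h5] at h2
    exact h2
  have h5 := hfaith _ h1
  have h6 : a = g * a * g⁻¹ := inv_mul_eq_one.mp h5
  calc g * a = g * a * g⁻¹ * g := by group
    _ = a * g := by rw [← h6]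

theorem winter_lam {G : Type u} [Group G] (χ : Cfsg.IrrCharacter G)
    (hfaith : ∀ g : G, (χ : G → ℂ) g = (χ : G → ℂ) 1 → g = 1) :
    ∃ lam : Subgroup.center G →* ℂˣ,
      (∀ (z : Subgroup.center G) (g : G),
        (χ : G → ℂ) (g * z) = (lam z : ℂ) * (χ : G → ℂ) g) ∧
      (∀ z : Subgroup.center G, lam z = 1 → z = 1) := by
  obtain ⟨c, hc⟩ := Cfsg.Agent.Helper76.exists_central_scalar (Subgroup.center G).subtype
    (fun z => z.2) χ
  have h1 := Cfsg.Agent.Helper76.irr_one_ne_zero χ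
  obtain ⟨hc1, hcm⟩ := Cfsg.Agent.Helper76.scalar_mul (Subgroup.center G).subtype
    (χ : G → ℂ) h1 c hc
  let f : Subgroup.center G →* ℂ := { toFun := c, map_one' := hc1, map_mul' := hcm }
  have hfc : ∀ z, ((f.toHomUnits z : ℂˣ) : ℂ) = c z := fun z => rfl
  refine ⟨f.toHomUnits, ?_, ?_⟩
  · intro z g
    rw [hfc]
    exact hc z g
  · intro z hz
    apply Subtype.ext
    apply hfaith
    have h2 := hc z 1
    have hcz : c z = 1 := by
      rw [← hfc, hz]
      rfl
    rw [one_mul, hcz, one_mul] at h2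
    exact h2

/-- The order of the image in `G ⧸ Z` of a subgroup `M ≥ Z`. -/
theorem card_map_mk_mul {G : Type u} [Group G] [Finite G] (Z M : Subgroup G) [Z.Normal]
    (h : Z ≤ M) : Nat.card (M.map (QuotientGroup.mk' Z)) * Nat.card Z = Nat.card M := by
  have h1 : (M.map (QuotientGroup.mk' Z)).comap (QuotientGroup.mk' Z) = M := by
    apply Subgroup.comap_map_eq_self
    rw [QuotientGroup.ker_mk']
    exact h
  have h2 : (M.map (QuotientGroup.mk' Z)).index = M.index := by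
    rw [← Subgroup.index_comap_of_surjective (M.map (QuotientGroup.mk' Z))
      (QuotientGroup.mk'_surjective Z), h1]
  have h3 := Subgroup.card_mul_index (M.map (QuotientGroup.mk' Z))
  have h4 := Subgroup.card_mul_index M
  have h5 := Subgroup.card_eq_card_quotient_mul_card_subgroup Z
  have h6 : 0 < M.index := Nat.pos_of_ne_zero Subgroup.index_ne_zero_of_finite
  rw [h2] at h3
  have h7 : Nat.card (M.map (QuotientGroup.mk' Z)) * Nat.card Z * M.index
      = Nat.card M * M.index := by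
    rw [h4, h5, ← h3]
    ring
  exact Nat.eq_of_mul_eq_mul_right h6 h7

theorem winter_M_data {G : Type u} [Group G] [Fintype G] (χ : Cfsg.IrrCharacter G)
    (hprim : ∀ (T : Subgroup G) (ψ : T → ℂ), T ≠ ⊤ → Cfsg.IsIrrCharacter T ψ →
      Cfsg.indFun T ψ ≠ (χ : G → ℂ))
    (lam : Subgroup.center G →* ℂˣ)
    (hlam : ∀ (z : Subgroup.center G) (g : G),
      (χ : G → ℂ) (g * z) = (lam z : ℂ) * (χ : G → ℂ) g)
    (hlamf : ∀ z : Subgroup.center G, lam z = 1 → z = 1)
    (M : Subgroup G) (hM : M.Normal) (hZM : Subgroup.center G ≤ M)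
    (hcl : ∀ a ∈ M, ∀ b ∈ M, a * b * a⁻¹ * b⁻¹ ∈ Subgroup.center G)
    (hcent : ∀ g : G, (∀ m ∈ M, g * m = m * g) → g ∈ Subgroup.center G) :
    ∃ u : ℕ, Nat.card (Subgroup.center G) * u ^ 2 = Nat.card M ∧
      u ∣ Cfsg.charDegree (χ : G → ℂ) := by
  classical
  obtain ⟨θ, e, hθ, he, -, heq⟩ := winter_homog χ hprim M
  have hθc := isChar_of_irr hθ
  have hχM : ∀ m : M, (χ : G → ℂ) m = (e : ℂ) * θ m := fun m => congrFun heq m
  have he0 : (e : ℂ) ≠ 0 := by exact_mod_cast he.ne'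
  let ev : (Subgroup.center G).subgroupOf M ≃* Subgroup.center G :=
    Subgroup.subgroupOfEquivOfLe hZM
  have hev : ∀ z : (Subgroup.center G).subgroupOf M,
      ((ev z : Subgroup.center G) : G) = ((z : M) : G) := fun z => rfl
  have hmul : ∀ (z : (Subgroup.center G).subgroupOf M) (m : M),
      θ (z * m) = ((lam.comp ev.toMonoidHom) z : ℂ) * θ m := by
    intro z m
    have h1 := hχM ((z : M) * m)
    have h2 : (((z : M) * m : M) : G) = (m : G) * ((ev z : Subgroup.center G) : G) := by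
      rw [hev, Subgroup.coe_mul]
      exact ((Subgroup.mem_center_iff.mp (ev z).2) (m : G)).symm
    rw [h2, hlam, hχM m] at h1
    have h3 : (e : ℂ) * θ (↑z * m) = (e : ℂ) * (((lam.comp ev.toMonoidHom) z : ℂ) * θ m) := by
      rw [← h1]
      simp only [MonoidHom.coe_comp, Function.comp_apply]
      have : (ev.toMonoidHom z) = ev z := rfl
      rw [this]
      ring
    exact mul_left_cancel₀ he0 h3
  have hcrit : ∀ m : M, m ∉ (Subgroup.center G).subgroupOf M →
      ∃ (g : M) (c : (Subgroup.center G).subgroupOf M),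
        (c : M) = m * g * m⁻¹ * g⁻¹ ∧ (lam.comp ev.toMonoidHom) c ≠ 1 := by
    intro m hm
    have hm' : (m : G) ∉ Subgroup.center G := fun h => hm (Subgroup.mem_subgroupOf.mpr h)
    have h1 : ¬ ∀ m' ∈ M, (m : G) * m' = m' * (m : G) := fun h => hm' (hcent _ h)
    obtain ⟨g, hg⟩ := not_forall.mp h1
    obtain ⟨hgM, hgne⟩ := Classical.not_imp.mp hg
    have hcZ : (m : G) * g * (m : G)⁻¹ * g⁻¹ ∈ Subgroup.center G := hcl _ m.2 _ hgM
    have hcM : (m : G) * g * (m : G)⁻¹ * g⁻¹ ∈ M := hZM hcZ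
    refine ⟨⟨g, hgM⟩, ⟨⟨_, hcM⟩, Subgroup.mem_subgroupOf.mpr hcZ⟩, ?_, ?_⟩
    · apply Subtype.ext
      simp
    · intro h
      have h2 := hlamf _ h
      have h3 : (m : G) * g * (m : G)⁻¹ * g⁻¹ = 1 := congrArg Subtype.val h2
      apply hgne
      have h4 : (m : G) * g = ((m : G) * g * (m : G)⁻¹ * g⁻¹) * (g * m) := by group
      rw [h4, h3, one_mul]
  obtain ⟨-, hcard⟩ := ct_of_over ((Subgroup.center G).subgroupOf M)
    (lam.comp ev.toMonoidHom) hcrit θ hθ hmul
  refine ⟨Cfsg.charDegree θ, ?_, ?_⟩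
  · rw [← hcard, Nat.card_congr ev.toEquiv]
  · have h1 := hχM 1
    rw [Subgroup.coe_one] at h1
    have h2 := Cfsg.Agent.Helper79.isCharacter_one_eq_charDegree (isChar_of_irr χ.2)
    have h3 := Cfsg.Agent.Helper79.isCharacter_one_eq_charDegree hθc
    have h4 : Cfsg.charDegree (χ : G → ℂ) = e * Cfsg.charDegree θ := by
      have h5 : ((Cfsg.charDegree (χ : G → ℂ) : ℕ) : ℂ) = ((e * Cfsg.charDegree θ : ℕ) : ℂ) := by
        push_cast
        rw [← h2, ← h3]
        exact h1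
      exact_mod_cast h5
    exact Dvd.intro_left _ h4.symm

end Cfsg.Agent.Helper15
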