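import Mathlib
import Cfsg.Prelude.Def_Characters
import Cfsg.Prelude.Def_Blocks
import Cfsg.Agent.Helper15.WinterPC1
import Cfsg.Agent.Helper15.WinterInd
import Cfsg.Agent.Helper46.WinterP4
import Cfsg.Agent.Helper46.WinterP5
import Cfsg.Agent.Helper48.WinterPrim
import Cfsg.Agent.Helper74.WinterCount

/-!
# Winter's theorem: the primitive case and the induction
-/

set_option autoImplicit false

namespace Cfsg.Agent.Helper15

open scoped ComplexConjugate

universe u

/-- Nondegeneracy of the commutator pairing on the centraliser of a `p`-element in `M / Z`. -/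
theorem winter_nondeg {G : Type u} [Group G] [Finite G] (M : Subgroup G) (hM : M.Normal)
    (hcl : ∀ a ∈ M, ∀ b ∈ M, a * b * a⁻¹ * b⁻¹ ∈ Subgroup.center G)
    (hcent : ∀ g : G, (∀ m ∈ M, g * m = m * g) → g ∈ Subgroup.center G)
    (p : ℕ) (hp : p.Prime) (x : G) (hx : IsPEl p x)
    (hpM : ¬ p ∣ Nat.card (M.map (QuotientGroup.mk' (Subgroup.center G))))
    (d : G) (hdM : d ∈ M) (hdx : x⁻¹ * d * x * d⁻¹ ∈ Subgroup.center G)
    (hdZ : d ∉ Subgroup.center G) :
    ∃ d' ∈ M, x⁻¹ * d' * x * d'⁻¹ ∈ Subgroup.center G ∧ d * d' * d⁻¹ * d'⁻¹ ≠ 1 := by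
  classical
  have hzc : ∀ z ∈ Subgroup.center G, ∀ g : G, g * z = z * g :=
    fun z hz g => Subgroup.mem_center_iff.mp hz g
  obtain ⟨m1, hm1⟩ := not_forall.mp (fun h => hdZ (hcent d h))
  obtain ⟨hm1M, hm1ne⟩ := Classical.not_imp.mp hm1
  obtain ⟨c, hc⟩ : ∃ c : G, c = d * m1 * d⁻¹ * m1⁻¹ := ⟨_, rfl⟩
  have hcZ : c ∈ Subgroup.center G := by
    rw [hc]
    exact hcl d hdM m1 hm1M
  have hc1 : c ≠ 1 := by
    intro h
    apply hm1ne
    have h1 : d * m1 = c * (m1 * d) := by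
      rw [hc]
      group
    rw [h1, h, one_mul]
  obtain ⟨z0, hz0⟩ : ∃ z0 : G, z0 = x⁻¹ * d * x * d⁻¹ := ⟨_, rfl⟩
  have hz0Z : z0 ∈ Subgroup.center G := by
    rw [hz0]
    exact hdx
  set π := QuotientGroup.mk' (Subgroup.center G) with hπ
  let S : Set (G ⧸ Subgroup.center G) := π '' {m | m ∈ M ∧ d * m * d⁻¹ * m⁻¹ = c}
  have hS : ∀ s ∈ S, π x * s * (π x)⁻¹ ∈ S := by
    rintro _ ⟨m, ⟨hmM, hmc⟩, rfl⟩
    refine ⟨x * m * x⁻¹, ⟨hM.conj_mem m hmM x, ?_⟩, by simp⟩
    have e1 : x⁻¹ * d * x = z0 * d := by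
      rw [hz0]
      group
    calc d * (x * m * x⁻¹) * d⁻¹ * (x * m * x⁻¹)⁻¹
        = x * ((x⁻¹ * d * x) * m * (x⁻¹ * d * x)⁻¹ * m⁻¹) * x⁻¹ := by group
      _ = x * ((z0 * d) * m * (z0 * d)⁻¹ * m⁻¹) * x⁻¹ := by rw [e1]
      _ = x * (z0 * (d * m * d⁻¹ * m⁻¹) * (m * z0⁻¹ * m⁻¹)) * x⁻¹ := by group
      _ = x * (z0 * c * (m * z0⁻¹ * m⁻¹)) * x⁻¹ := by rw [hmc]
      _ = x * (z0 * c * z0⁻¹) * x⁻¹ := by
          have h1 : m * z0⁻¹ * m⁻¹ = z0⁻¹ := by
            rw [hzc z0⁻¹ ((Subgroup.center G).inv_mem hz0Z) m]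
            group
          rw [h1]
      _ = x * c * x⁻¹ := by
          have h1 : z0 * c * z0⁻¹ = c := by
            rw [hzc c hcZ z0]
            group
          rw [h1]
      _ = c := by
          rw [hzc c hcZ x]
          group
  have hKc : ∀ k ∈ (M ⊓ Subgroup.centralizer {d} : Subgroup G), k * d = d * k := by
    intro k hk
    exact (Subgroup.mem_centralizer_iff.mp hk.2 d rfl).symm
  have hSeq : S = (fun v => π m1 * v) ''
      (((M ⊓ Subgroup.centralizer {d} : Subgroup G).map π : Subgroup (G ⧸ Subgroup.center G))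
        : Set (G ⧸ Subgroup.center G)) := by
    ext v
    constructor
    · rintro ⟨m, ⟨hmM, hmc⟩, rfl⟩
      refine ⟨π (m1⁻¹ * m), ⟨m1⁻¹ * m, ⟨M.mul_mem (M.inv_mem hm1M) hmM, ?_⟩, rfl⟩, ?_⟩
      · show m1⁻¹ * m ∈ Subgroup.centralizer {d}
        rw [Subgroup.mem_centralizer_iff]
        intro h hh
        rw [Set.mem_singleton_iff] at hh
        subst hh
        have e1 : h * m = c * m * h := by
          rw [← hmc]
          group
        have e2 : h * m1⁻¹ = m1⁻¹ * c⁻¹ * h := by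
          rw [hc]
          group
        calc h * (m1⁻¹ * m) = (h * m1⁻¹) * m := by group
          _ = m1⁻¹ * c⁻¹ * h * m := by rw [e2]
          _ = m1⁻¹ * c⁻¹ * (h * m) := by group
          _ = m1⁻¹ * c⁻¹ * (c * m * h) := by rw [e1]
          _ = m1⁻¹ * m * h := by group
      · show π m1 * π (m1⁻¹ * m) = π m
        rw [← map_mul]
        congr 1
        group
    · rintro ⟨_, ⟨k, hk, rfl⟩, rfl⟩
      refine ⟨m1 * k, ⟨M.mul_mem hm1M hk.1, ?_⟩, by simp⟩
      have e1 := hKc k hk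
      have e2 : k * d⁻¹ = d⁻¹ * k := by
        calc k * d⁻¹ = d⁻¹ * (d * k) * d⁻¹ := by group
          _ = d⁻¹ * (k * d) * d⁻¹ := by rw [e1]
          _ = d⁻¹ * k := by group
      calc d * (m1 * k) * d⁻¹ * (m1 * k)⁻¹ = d * m1 * (k * d⁻¹) * k⁻¹ * m1⁻¹ := by group
        _ = d * m1 * (d⁻¹ * k) * k⁻¹ * m1⁻¹ := by rw [e2]
        _ = c := by
            rw [hc]
            group
  have hScard : S.ncard = Nat.card ((M ⊓ Subgroup.centralizer {d} : Subgroup G).map π) := by
    rw [hSeq, Set.ncard_image_of_injective _ (mul_right_injective _)]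
    rfl
  have hdvd : Nat.card ((M ⊓ Subgroup.centralizer {d} : Subgroup G).map π)
      ∣ Nat.card (M.map π) :=
    Subgroup.card_dvd_of_le (Subgroup.map_mono inf_le_left)
  have hpS : ¬ p ∣ S.ncard := by
    rw [hScard]
    exact fun h => hpM (h.trans hdvd)
  obtain ⟨s, hsS, hsfix⟩ := winter_fixed_point p hp (π x) (hx.map π) S hS hpS
  obtain ⟨d', ⟨hd'M, hd'c⟩, rfl⟩ := hsS
  refine ⟨d', hd'M, ?_, ?_⟩
  · apply (QuotientGroup.eq_one_iff _).mp
    have h1 : (π x)⁻¹ * π d' * π x * (π d')⁻¹ = 1 := by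
      calc (π x)⁻¹ * π d' * π x * (π d')⁻¹
          = (π x)⁻¹ * (π x * π d' * (π x)⁻¹) * π x * (π d')⁻¹ := by rw [hsfix]
        _ = 1 := by group
    show π (x⁻¹ * d' * x * d'⁻¹) = 1
    simp only [map_mul, map_inv]
    exact h1
  · rw [hd'c]
    exact hc1

/-- The subgroup `D` of elements of `M` commuting with `x` modulo the centre. -/
def winterD {G : Type u} [Group G] (M : Subgroup G) (x : G) : Subgroup G :=
  M ⊓ (Subgroup.centralizer {QuotientGroup.mk' (Subgroup.center G) x}).comap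
    (QuotientGroup.mk' (Subgroup.center G))

theorem mem_winterD {G : Type u} [Group G] (M : Subgroup G) (x d : G) :
    d ∈ winterD M x ↔ d ∈ M ∧ x⁻¹ * d * x * d⁻¹ ∈ Subgroup.center G := by
  unfold winterD
  rw [Subgroup.mem_inf, Subgroup.mem_comap, Subgroup.mem_centralizer_iff]
  refine and_congr_right (fun _ => ?_)
  constructor
  · intro h
    have h1 := h _ rfl
    apply (QuotientGroup.eq_one_iff _).mp
    show QuotientGroup.mk' (Subgroup.center G) (x⁻¹ * d * x * d⁻¹) = 1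
    simp only [map_mul, map_inv]
    rw [mul_assoc ((QuotientGroup.mk' (Subgroup.center G)) x)⁻¹, ← h1]
    group
  · intro h k hk
    rw [Set.mem_singleton_iff] at hk
    subst hk
    have h1 : QuotientGroup.mk' (Subgroup.center G) (x⁻¹ * d * x * d⁻¹) = 1 :=
      (QuotientGroup.eq_one_iff _).mpr h
    simp only [map_mul, map_inv] at h1
    have h2 : QuotientGroup.mk' (Subgroup.center G) d * QuotientGroup.mk' (Subgroup.center G) x
        = QuotientGroup.mk' (Subgroup.center G) x *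
          ((QuotientGroup.mk' (Subgroup.center G) x)⁻¹ * QuotientGroup.mk' (Subgroup.center G) d
            * QuotientGroup.mk' (Subgroup.center G) x
            * (QuotientGroup.mk' (Subgroup.center G) d)⁻¹)
          * QuotientGroup.mk' (Subgroup.center G) d := by group
    rw [h2, h1, mul_one]

theorem center_le_winterD {G : Type u} [Group G] (M : Subgroup G)
    (hZM : Subgroup.center G ≤ M) (x : G) : Subgroup.center G ≤ winterD M x := by
  intro z hz
  rw [mem_winterD]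
  refine ⟨hZM hz, ?_⟩
  have h1 : x⁻¹ * z * x * z⁻¹ = 1 := by
    rw [mul_assoc x⁻¹, ← Subgroup.mem_center_iff.mp hz x]
    group
  rw [h1]
  exact Subgroup.one_mem _

theorem winter_D_data {G : Type u} [Group G] [Finite G]
    (lam : Subgroup.center G →* ℂˣ) (hlamf : ∀ z : Subgroup.center G, lam z = 1 → z = 1)
    (M : Subgroup G) (hM : M.Normal) (hZM : Subgroup.center G ≤ M)
    (hcl : ∀ a ∈ M, ∀ b ∈ M, a * b * a⁻¹ * b⁻¹ ∈ Subgroup.center G)
    (hcent : ∀ g : G, (∀ m ∈ M, g * m = m * g) → g ∈ Subgroup.center G)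
    (p : ℕ) (hp : p.Prime) (x : G) (hx : IsPEl p x)
    (hpM : ¬ p ∣ Nat.card (M.map (QuotientGroup.mk' (Subgroup.center G)))) :
    ∃ s : ℕ, Nat.card (Subgroup.center G) * s ^ 2 = Nat.card (winterD M x) := by
  classical
  have hZD := center_le_winterD M hZM x
  let ev : (Subgroup.center G).subgroupOf (winterD M x) ≃* Subgroup.center G :=
    Subgroup.subgroupOfEquivOfLe hZD
  have hev : ∀ z : (Subgroup.center G).subgroupOf (winterD M x),
      ((ev z : Subgroup.center G) : G) = ((z : winterD M x) : G) := fun z => rfl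
  have hinv : ∀ (g : winterD M x) (z w : (Subgroup.center G).subgroupOf (winterD M x)),
      (w : winterD M x) = g * z * g⁻¹ → (lam.comp ev.toMonoidHom) w = (lam.comp ev.toMonoidHom) z := by
    intro g z w hw
    have h1 : w = z := by
      apply Subtype.ext
      rw [hw]
      apply Subtype.ext
      have h2 : ((z : winterD M x) : G) ∈ Subgroup.center G := Subgroup.mem_subgroupOf.mp z.2
      simp only [Subgroup.coe_mul, Subgroup.coe_inv]
      rw [Subgroup.mem_center_iff.mp h2 (g : G)]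
      group
    rw [h1]
  have hcrit : ∀ d : winterD M x, d ∉ (Subgroup.center G).subgroupOf (winterD M x) →
      ∃ (g : winterD M x) (c : (Subgroup.center G).subgroupOf (winterD M x)),
        (c : winterD M x) = d * g * d⁻¹ * g⁻¹ ∧ (lam.comp ev.toMonoidHom) c ≠ 1 := by
    intro d hd
    have hd' : (d : G) ∉ Subgroup.center G := fun h => hd (Subgroup.mem_subgroupOf.mpr h)
    obtain ⟨hdM, hdx⟩ := (mem_winterD M x d).mp d.2
    obtain ⟨d', hd'M, hd'x, hne⟩ :=
      winter_nondeg M hM hcl hcent p hp x hx hpM (d : G) hdM hdx hd'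
    have hd'D : d' ∈ winterD M x := (mem_winterD M x d').mpr ⟨hd'M, hd'x⟩
    have hcZ : (d : G) * d' * (d : G)⁻¹ * d'⁻¹ ∈ Subgroup.center G := hcl _ hdM _ hd'M
    have hcD : (d : G) * d' * (d : G)⁻¹ * d'⁻¹ ∈ winterD M x := hZD hcZ
    refine ⟨⟨d', hd'D⟩, ⟨⟨_, hcD⟩, Subgroup.mem_subgroupOf.mpr hcZ⟩, ?_, ?_⟩
    · apply Subtype.ext
      simp
    · intro h
      have h2 := hlamf _ h
      exact hne (congrArg Subtype.val h2)
  obtain ⟨ψ, -, -, -, hdeg⟩ := ct_lemma ((Subgroup.center G).subgroupOf (winterD M x))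
    (lam.comp ev.toMonoidHom) hinv hcrit
  refine ⟨Cfsg.charDegree ψ, ?_⟩
  rw [hdeg, ← Nat.card_congr ev.toEquiv]
  exact Subgroup.card_mul_index _

theorem winter_primitive_case {G : Type u} [Group G] [Fintype G] (hsol : Group.IsSolvable G)
    (χ : Cfsg.IrrCharacter G) (hfaith : ∀ g : G, (χ : G → ℂ) g = (χ : G → ℂ) 1 → g = 1)
    (p : ℕ) (hp : p.Prime) (hnc : ¬ PClosed p G)
    (hprim : ∀ (T : Subgroup G) (ψ : T → ℂ), T ≠ ⊤ → Cfsg.IsIrrCharacter T ψ →
      Cfsg.indFun T ψ ≠ (χ : G → ℂ))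
    (hpdeg : ¬ p ∣ Cfsg.charDegree (χ : G → ℂ)) :
    ∃ q : ℕ, IsPrimePow q ∧ q ∣ Cfsg.charDegree (χ : G → ℂ) ∧
      (p ∣ q ∨ p ∣ q - 1 ∨ p ∣ q + 1) := by
  classical
  obtain ⟨M, hM, hZM, hcl, hcent⟩ := Cfsg.Agent.Helper46.winter_exists_M hsol
    (fun A hA hAc => winter_abelian_central χ hfaith hprim A hA hAc)
  obtain ⟨lam, hlam, hlamf⟩ := winter_lam χ hfaith
  obtain ⟨u, hu, hudvd⟩ := winter_M_data χ hprim lam hlam hlamf M hM hZM hcl hcent
  have hpu : ¬ p ∣ u := fun h => hpdeg (h.trans hudvd)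
  have hex : ∃ x : G, IsPEl p x ∧ ∃ m ∈ M, m * x * m⁻¹ * x⁻¹ ∉ Subgroup.center G := by
    by_contra hcon
    apply hnc
    apply Cfsg.Agent.Helper46.winter_pclosed_of_central p hp M hM hcent
    intro x hx m hm
    by_contra h
    exact hcon ⟨x, hx, m, hm, h⟩
  obtain ⟨x, hx, m0, hm0M, hm0⟩ := hex
  have hZpos : 0 < Nat.card (Subgroup.center G) := Nat.card_pos
  have hVcard : Nat.card (M.map (QuotientGroup.mk' (Subgroup.center G))) = u ^ 2 := by
    have h1 := card_map_mk_mul (Subgroup.center G) M hZM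
    rw [← hu, mul_comm] at h1
    exact Nat.eq_of_mul_eq_mul_left hZpos h1
  have hpM : ¬ p ∣ Nat.card (M.map (QuotientGroup.mk' (Subgroup.center G))) := by
    rw [hVcard]
    exact fun h => hpu (hp.dvd_of_dvd_pow h)
  obtain ⟨s, hs⟩ := winter_D_data lam hlamf M hM hZM hcl hcent p hp x hx hpM
  have hDmap : (winterD M x).map (QuotientGroup.mk' (Subgroup.center G))
      = M.map (QuotientGroup.mk' (Subgroup.center G)) ⊓
        Subgroup.centralizer {QuotientGroup.mk' (Subgroup.center G) x} := by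
    apply SetLike.coe_injective
    unfold winterD
    simp only [Subgroup.coe_map, Subgroup.coe_inf, Subgroup.coe_comap]
    exact Set.image_inter_preimage _ _ _
  have hDcard : Nat.card (M.map (QuotientGroup.mk' (Subgroup.center G)) ⊓
      Subgroup.centralizer {QuotientGroup.mk' (Subgroup.center G) x} :
        Subgroup (G ⧸ Subgroup.center G)) = s ^ 2 := by
    rw [← hDmap]
    have h1 := card_map_mk_mul (Subgroup.center G) (winterD M x) (center_le_winterD M hZM x)
    rw [← hs, mul_comm] at h1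
    exact Nat.eq_of_mul_eq_mul_left hZpos h1
  have hVc : ∀ a ∈ M.map (QuotientGroup.mk' (Subgroup.center G)),
      ∀ b ∈ M.map (QuotientGroup.mk' (Subgroup.center G)), a * b = b * a := by
    rintro _ ⟨m, hm, rfl⟩ _ ⟨m', hm', rfl⟩
    have h1 : QuotientGroup.mk' (Subgroup.center G) (m * m' * m⁻¹ * m'⁻¹) = 1 :=
      (QuotientGroup.eq_one_iff _).mpr (hcl m hm m' hm')
    simp only [map_mul, map_inv] at h1
    have h2 : QuotientGroup.mk' (Subgroup.center G) m * QuotientGroup.mk' (Subgroup.center G) m'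
        = (QuotientGroup.mk' (Subgroup.center G) m * QuotientGroup.mk' (Subgroup.center G) m'
            * (QuotientGroup.mk' (Subgroup.center G) m)⁻¹
            * (QuotientGroup.mk' (Subgroup.center G) m')⁻¹)
          * (QuotientGroup.mk' (Subgroup.center G) m' * QuotientGroup.mk' (Subgroup.center G) m) := by
      group
    rw [h2, h1, one_mul]
  have hxV : ∀ v ∈ M.map (QuotientGroup.mk' (Subgroup.center G)),
      QuotientGroup.mk' (Subgroup.center G) x * v * (QuotientGroup.mk' (Subgroup.center G) x)⁻¹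
        ∈ M.map (QuotientGroup.mk' (Subgroup.center G)) := by
    rintro _ ⟨m, hm, rfl⟩
    exact ⟨x * m * x⁻¹, hM.conj_mem m hm x, by simp⟩
  have hne : ∃ v ∈ M.map (QuotientGroup.mk' (Subgroup.center G)),
      QuotientGroup.mk' (Subgroup.center G) x * v * (QuotientGroup.mk' (Subgroup.center G) x)⁻¹
        ≠ v := by
    refine ⟨QuotientGroup.mk' (Subgroup.center G) m0, ⟨m0, hm0M, rfl⟩, ?_⟩
    intro h
    apply hm0
    apply (QuotientGroup.eq_one_iff _).mp
    show QuotientGroup.mk' (Subgroup.center G) (m0 * x * m0⁻¹ * x⁻¹) = 1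
    simp only [map_mul, map_inv]
    calc QuotientGroup.mk' (Subgroup.center G) m0 * QuotientGroup.mk' (Subgroup.center G) x
          * (QuotientGroup.mk' (Subgroup.center G) m0)⁻¹
          * (QuotientGroup.mk' (Subgroup.center G) x)⁻¹
        = QuotientGroup.mk' (Subgroup.center G) m0 *
          (QuotientGroup.mk' (Subgroup.center G) x * QuotientGroup.mk' (Subgroup.center G) m0
            * (QuotientGroup.mk' (Subgroup.center G) x)⁻¹)⁻¹ := by group
      _ = QuotientGroup.mk' (Subgroup.center G) m0 *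
          (QuotientGroup.mk' (Subgroup.center G) m0)⁻¹ := by rw [h]
      _ = 1 := by group
  obtain ⟨q, hq, hqu, hqp⟩ := Cfsg.Agent.Helper74.winter_count
    (M.map (QuotientGroup.mk' (Subgroup.center G))) hVc p hp
    (QuotientGroup.mk' (Subgroup.center G) x) (hx.map _) hxV u s hVcard hDcard hne hpu
  exact ⟨q, hq, hqu.trans hudvd, Or.inr hqp⟩

theorem winter_aux (p : ℕ) (hp : p.Prime) : ∀ (n : ℕ) (G : Type u) [Group G] [Finite G],
    Nat.card G = n → Group.IsSolvable G → ∀ (χ : Cfsg.IrrCharacter G),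
    (∀ g : G, (χ : G → ℂ) g = (χ : G → ℂ) 1 → g = 1) → ¬ PClosed p G →
    ∃ q : ℕ, IsPrimePow q ∧ q ∣ Cfsg.charDegree (χ : G → ℂ) ∧
      (p ∣ q ∨ p ∣ q - 1 ∨ p ∣ q + 1) := by
  intro n
  induction n using Nat.strong_induction_on with
  | _ n ih =>
    intro G _ _ hn hsol χ hfaith hnc
    classical
    let _ : Fintype G := Fintype.ofFinite G
    by_cases hpd : p ∣ Cfsg.charDegree (χ : G → ℂ)
    · exact ⟨p, hp.isPrimePow, hpd, Or.inl dvd_rfl⟩
    by_cases hprim : ∀ (T : Subgroup G) (ψ : T → ℂ), T ≠ ⊤ → Cfsg.IsIrrCharacter T ψ →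
        Cfsg.indFun T ψ ≠ (χ : G → ℂ)
    · exact winter_primitive_case hsol χ hfaith p hp hnc hprim hpd
    · obtain ⟨T, hT⟩ := not_forall.mp hprim
      obtain ⟨ψ, hψ⟩ := not_forall.mp hT
      obtain ⟨hTne, h2⟩ := Classical.not_imp.mp hψ
      obtain ⟨hψirr, h3⟩ := Classical.not_imp.mp h2
      have hind := not_not.mp h3
      obtain ⟨T', ψ', hT', hψ', hind'⟩ :=
        exists_coatom_induced (χ : G → ℂ) χ.2 T hTne ψ hψirr hind
      exact winter_induced_case hsol χ hfaith p hnc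
        (fun H _ _ hlt hsolH η hη hncH => ih (Nat.card H) (hn ▸ hlt) H rfl hsolH η hη hncH)
        T' hT' ψ' hψ' hind'
        (fun x hx hxT => Cfsg.Agent.Helper48.winter_primitive hsol T' hT' p hp x hx hxT)

end Cfsg.Agent.Helper15
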